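import Mathlib
import Cfsg.Agent.Lib.Dim3.Dick

/-!
# Dickson's lemma for two opposite unipotent elements in an algebra
-/

set_option autoImplicit false

namespace H97s

open MulAction Matrix MatrixGroups H29 H98 H98.D3

section
variable {F : Type*} [Field F]

theorem lemD2 (p : ℕ) [Fact p.Prime] [CharP F p] (M : Subgroup SL(2, F)) [Finite M] {x : F} (hx : x ≠ 0) (h1 : up 1 ∈ M) (h2 : lo x ∈ M) :
    ((2 : F) = 0 ∧ (∀ a, up a ∈ M → a ^ 2 = a) ∧ ∀ a, lo (a * x) ∈ M → a ^ 2 = a) ∨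
    ∃ k : Subfield F, (∃ s ∈ k, s ≠ 0 ∧ s ≠ 1) ∧ (∀ a, up a ∈ M ↔ a ∈ k) ∧ (∀ a, lo (a * x) ∈ M ↔ a ∈ k) ∧
      (x ∈ k ∨ ((3 : F) = 0 ∧ x ^ 2 = -1 ∧ ∀ a ∈ k, a ^ 3 = a)) := by
  have hL : CharP (AlgebraicClosure F) p := (Algebra.charP_iff F _ p).1 inferInstance
  set f := algebraMap F (AlgebraicClosure F) with hf
  have hfin : Finite (M.map (toP F)) := Finite.of_surjective _ (MonoidHom.subgroupMap_surjective (toP F) M)
  have hfix : toP F (up 1) • ptInf (AlgebraicClosure F) = ptInf _ := by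
    rw [toP_apply, ptInf, pgl_smul_mk, mk_eq_iff_cross, mulVec_two, mulVec_two]
    simp [up, mkSL_val]
  rcases dickson_wild p (M.map (toP F)) (g := toP F (up 1)) ⟨_, h1, rfl⟩
    (fun e => one_ne_zero (oneP_up.inj _ e))
    (by rw [← map_pow, ← oneP_up.nsmul, CharP.cast_eq_zero, zero_mul, up_zero, map_one]) hfix with
    h | ⟨rfl, k, -, hk, -, ⟨e⟩⟩ | ⟨rfl, ⟨e⟩⟩ | ⟨k, c, hk, h3, h⟩
  · exfalso
    have := h _ ⟨_, h2, rfl⟩
    rw [toP_apply, ptInf, pgl_smul_mk, mk_eq_iff_cross, mulVec_two, mulVec_two] at this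
    simp [lo, mkSL_val] at this
    exact hx ((map_eq_zero f).1 this.symm)
  · have h2' : (2 : F) = 0 := by exact_mod_cast CharP.cast_eq_zero F 2
    exact Or.inl ⟨h2', fun a ha => oneP_up.small h2' hk e one_ne_zero h1 (by rwa [mul_one]),
      fun a ha => oneP_lo.small h2' hk e hx h2 ha⟩
  · have h3' : (3 : F) = 0 := by exact_mod_cast CharP.cast_eq_zero F 3
    have h2' : (2 : F) ≠ 0 := fun e => one_ne_zero (α := F) (by linear_combination h3' - e)
    have mk : ∀ a, a ∈ fld F 3 1 ↔ a ^ 3 = a := fun a => by rw [mem_fld, pow_one]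
    have tau : ∀ a, up a ∈ M → (2 + a * x) ^ 2 = 0 ∨ (2 + a * x) ^ 2 = 1 ∨ ((2 + a * x) ^ 2) ^ 2 = -1 := by
      intro a ha
      have hm : toP F (up a * lo x) ∈ M.map (toP F) := ⟨_, M.mul_mem ha h2, rfl⟩
      have hne : toP F (up a * lo x) ≠ 1 := fun e1 => hx (by
        have := (toP_eq_one e1).2
        change ((up a).1 * (lo x).1) 1 0 = 0 at this
        simpa [up, lo, mkSL_val] using this)
      have ht := tau_toP (up a * lo x)
      rw [trace_up_lo] at ht
      have pw : ∀ n, e ⟨_, hm⟩ ^ n = 1 → toP F (up a * lo x) ^ n = 1 := fun n hn => by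
        rw [← map_pow, e.map_eq_one_iff] at hn
        exact congrArg Subtype.val hn
      rcases alt_five_orders (e ⟨_, hm⟩) with h4 | h4 | h4
      · left; apply f.injective; rw [← ht, tau_two (pw _ h4) hne, map_zero]
      · right; left; apply f.injective; rw [← ht, tau_three (pw _ h4) hne, map_one]
      · right; right
        have := tau_five (pw _ h4) hne
        rw [ht, ← map_pow, ← map_ofNat f 3, ← map_mul, ← map_sub, ← map_one f, ← map_add, map_eq_zero] at this
        linear_combination this + (2 + a * x) ^ 2 * h3'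
    refine Or.inr ⟨fld F 3 1, ⟨-1, neg_mem (one_mem _), by simp, fun e => h2' (by linear_combination -e)⟩,
      fun a => ⟨fun ha => (mk a).2 (oneP_up.three h3' e one_ne_zero h1 (by rwa [mul_one])),
        fun ha => by simpa using oneP_up.of_cube h1 ((mk a).1 ha)⟩,
      fun a => ⟨fun ha => (mk a).2 (oneP_lo.three h3' e hx h2 ha), fun ha => oneP_lo.of_cube h2 ((mk a).1 ha)⟩, ?_⟩
    by_cases h4 : x ^ 2 = -1
    · exact Or.inr ⟨h3', h4, fun a => (mk a).1⟩
    left
    rw [mk]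
    have h5 : x ^ 2 + 1 ≠ 0 := fun e => h4 (eq_neg_of_add_eq_zero_left e)
    rcases tau 1 h1 with t1 | t1 | t1
    · have : x = 1 := by linear_combination (pow_eq_zero_iff two_ne_zero).1 t1 - h3'
      rw [this]; ring
    · have : x * (x + 1) = 0 := by linear_combination t1 - (x + 1) * h3'
      rw [eq_neg_of_add_eq_zero_left ((mul_eq_zero.1 this).resolve_left hx)]; ring
    rcases tau (-1) (up_neg (1 : F) ▸ M.inv_mem h1) with t2 | t2 | t2
    · have : x = -1 := by linear_combination h3' - (pow_eq_zero_iff two_ne_zero).1 t2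
      rw [this]; ring
    · have : x * (x - 1) = 0 := by linear_combination t2 + (x - 1) * h3'
      rw [sub_eq_zero.1 ((mul_eq_zero.1 this).resolve_left hx)]; ring
    · have : x * (x ^ 2 + 1) = 0 := by linear_combination t1 - t2 - (5 * x ^ 3 + 21 * x) * h3'
      exact absurd ((mul_eq_zero.1 this).resolve_left hx) h5
  · have hPG : cj c (M.map (toP F)) ≤ PG k := by
      rcases h with h | ⟨-, h⟩
      · exact h.le
      · exact h.le.trans (PS_le_PG k)
    have hPS : PS k ≤ cj c (M.map (toP F)) := by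
      rcases h with h | ⟨-, h⟩
      · exact (PS_le_PG k).trans h.ge
      · exact h.ge
    have tk : ∀ a b, up a ∈ M → lo b ∈ M → f ((2 + a * b) ^ 2) ∈ k := fun a b ha hb => by
      rw [← trace_up_lo, ← tau_toP, ← tau_conj c]
      exact tau_mem (hPG (conj_mem_cj ⟨_, M.mul_mem ha hb, rfl⟩))
    have pk : ∀ a b, up a ∈ M → lo b ∈ M → a * b ∈ k.comap f := fun a b ha hb => by
      have : Finite (k.comap f) :=
        Finite.of_injective (fun y : k.comap f => (⟨f y, y.2⟩ : k)) fun a b e =>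
          Subtype.ext (f.injective (congrArg Subtype.val e))
      have t1 : (2 + a * b) ^ 2 ∈ k.comap f := tk a b ha hb
      have t2 : (2 + -a * b) ^ 2 ∈ k.comap f := tk (-a) b (up_neg a ▸ M.inv_mem ha) hb
      have n4 : (4 : F) ∈ k.comap f := by exact_mod_cast natCast_mem (k.comap f) 4
      by_cases h2' : (2 : F) = 0
      · apply mem_of_two_mul_of_sq (by rw [h2', zero_mul]; exact zero_mem _)
        rwa [h2', zero_add] at t1
      · have : a * b = ((2 + a * b) ^ 2 - (2 + -a * b) ^ 2) / (2 * 4) := by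
          have : (4 : F) ≠ 0 := by rw [show (4 : F) = 2 * 2 by norm_num]; exact mul_ne_zero h2' h2'
          field_simp; ring
        rw [this]
        exact div_mem (sub_mem t1 t2) (mul_mem (by exact_mod_cast natCast_mem (k.comap f) 2) n4)
    have xk : x ∈ k.comap f := by simpa using pk 1 x h1 h2
    refine Or.inr ⟨k.comap f, ?_, fun a => ⟨fun ha => ?_, fun ha => ?_⟩,
      fun a => ⟨fun ha => ?_, fun ha => ?_⟩, Or.inl xk⟩
    · obtain ⟨s, hs0, hs1⟩ : ∃ s : k, s ≠ 0 ∧ s ≠ 1 := by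
        classical
        by_contra hc
        push Not at hc
        have := Fintype.ofFinite k
        have : (Finset.univ : Finset k) ⊆ {0, 1} := fun s _ => by
          by_cases h0 : s = 0 <;> simp [h0, hc s]
        have := (Finset.card_le_card this).trans Finset.card_le_two
        rw [Finset.card_univ, ← Nat.card_eq_fintype_card] at this
        omega
      obtain ⟨s', e, -⟩ := oneP_up.scale hPG hPS one_ne_zero h1 s.2
      refine ⟨s', show f s' ∈ k from e ▸ s.2, fun e0 => hs0 (Subtype.ext ?_), fun e0 => hs1 (Subtype.ext ?_)⟩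
      · rw [← e, e0, map_zero]; rfl
      · rw [← e, e0, map_one]; rfl
    · have := div_mem (pk a x ha h2) xk
      rwa [mul_div_cancel_right₀ _ hx] at this
    · obtain ⟨s', e, h4⟩ := oneP_up.scale hPG hPS one_ne_zero h1 ha
      rwa [f.injective e, mul_one] at h4
    · have := div_mem (pk 1 _ h1 ha) xk
      rwa [one_mul, mul_div_cancel_right₀ _ hx] at this
    · obtain ⟨s', e, h4⟩ := oneP_lo.scale hPG hPS hx h2 ha
      rwa [f.injective e] at h4


end

variable {K A : Type*} [Field K] [Ring A] [Algebra K A] {X : Subgroup Aˣ}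

/-- `x` is (the value of) an element of the group of units `X` -/
def In (X : Subgroup Aˣ) (x : A) : Prop := ∃ u ∈ X, (u : A) = x

theorem In.one : In X 1 := ⟨1, X.one_mem, rfl⟩

theorem In.mul {x y : A} (h : In X x) (h' : In X y) : In X (x * y) := by
  obtain ⟨u, hu, rfl⟩ := h
  obtain ⟨v, hv, rfl⟩ := h'
  exact ⟨u * v, X.mul_mem hu hv, rfl⟩

theorem In.inv {x y : A} (h : In X x) (e : x * y = 1) : In X y := by
  obtain ⟨u, hu, rfl⟩ := h
  exact ⟨u⁻¹, X.inv_mem hu, by rw [← mul_one (↑u⁻¹ : A), ← e, Units.inv_mul_cancel_left]⟩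

theorem In.pow {x : A} (h : In X x) (n : ℕ) : In X (x ^ n) := by
  obtain ⟨u, hu, rfl⟩ := h
  exact ⟨u ^ n, X.pow_mem hu n, by simp⟩

theorem In.congr {x y : A} (h : In X x) (e : x = y) : In X y := e ▸ h

theorem In.neg (h1 : -1 ∈ X) {x : A} (h : In X x) : In X (-x) := by
  obtain ⟨u, hu, rfl⟩ := h
  exact ⟨-1 * u, X.mul_mem h1 hu, by simp⟩

theorem finite_in [Finite X] : {x | In X x}.Finite := by
  have : {x | In X x} = Set.range fun u : X => ((u : Aˣ) : A) := by
    ext x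
    exact ⟨fun ⟨u, hu, e⟩ => ⟨⟨u, hu⟩, e⟩, fun ⟨u, e⟩ => ⟨u, u.2, e⟩⟩
  rw [this]
  exact Set.finite_range _

theorem one_add_pow {N : A} (h : N * N = 0) (n : ℕ) : (1 + N) ^ n = 1 + (n : K) • N := by
  induction n with
  | zero => simp
  | succ n ih =>
    rw [pow_succ, ih, add_mul, one_mul, mul_add, mul_one, smul_mul_assoc, h, smul_zero, Nat.cast_succ]
    module

theorem In.nsmul {N : A} (h : N * N = 0) (h1 : In X (1 + N)) (n : ℕ) : In X (1 + (n : K) • N) :=
  one_add_pow (K := K) h n ▸ h1.pow n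

/-- a pair of nilpotent elements giving matrix units -/
structure MU (P Q : A) : Prop where
  pp : P * P = 0
  qq : Q * Q = 0
  pqp : P * (Q * P) = P
  qpq : Q * (P * Q) = Q

namespace MU

variable {P Q : A} (h : MU P Q)
include h

theorem pp' (y : A) : P * (P * y) = 0 := by rw [← mul_assoc, h.pp, zero_mul]
theorem qq' (y : A) : Q * (Q * y) = 0 := by rw [← mul_assoc, h.qq, zero_mul]
theorem pqp' (y : A) : P * (Q * (P * y)) = P * y := by rw [← mul_assoc Q, ← mul_assoc, h.pqp]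
theorem qpq' (y : A) : Q * (P * (Q * y)) = Q * y := by rw [← mul_assoc P, ← mul_assoc, h.qpq]

variable (K) in
/-- the homomorphism from two by two matrices -/
def psi : Matrix (Fin 2) (Fin 2) K →* A where
  toFun g := 1 + (g 0 0 - 1) • (P * Q) + g 0 1 • P + g 1 0 • Q + (g 1 1 - 1) • (Q * P)
  map_one' := by simp
  map_mul' g g' := by
    simp only [Matrix.mul_apply, Fin.sum_univ_two, mul_add, add_mul, smul_mul_assoc, mul_smul_comm, mul_assoc,
      h.pp, h.qq, h.pqp, h.qpq, h.pp', h.qq', h.pqp', h.qpq', mul_one, one_mul, smul_zero, mul_zero]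
    module

theorem psi_apply (g : Matrix (Fin 2) (Fin 2) K) :
    h.psi K g = 1 + (g 0 0 - 1) • (P * Q) + g 0 1 • P + g 1 0 • Q + (g 1 1 - 1) • (Q * P) := rfl

theorem psi_inj (hP : P ≠ 0) : Function.Injective (h.psi K) := by
  have hQ : Q ≠ 0 := fun e => hP (by rw [← h.pqp, e, zero_mul, mul_zero])
  have k : ∀ g : Matrix (Fin 2) (Fin 2) K, Q * (h.psi K g * (P * Q)) = g 0 0 • Q ∧ Q * (h.psi K g * Q) = g 0 1 • Q ∧
      P * (h.psi K g * P) = g 1 0 • P ∧ P * (h.psi K g * (Q * P)) = g 1 1 • P := fun g => by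
    refine ⟨?_, ?_, ?_, ?_⟩ <;>
    simp only [psi_apply, mul_add, add_mul, smul_mul_assoc, mul_smul_comm, mul_assoc,
      h.pp, h.qq, h.pqp, h.qpq, h.pp', h.qq', h.pqp', h.qpq', mul_one, one_mul, smul_zero, mul_zero] <;> module
  intro g g' e
  obtain ⟨a1, a2, a3, a4⟩ := k g
  obtain ⟨b1, b2, b3, b4⟩ := k g'
  rw [e] at a1 a2 a3 a4
  ext i j
  fin_cases i <;> fin_cases j
  exacts [smul_left_injective K hQ (a1.symm.trans b1), smul_left_injective K hQ (a2.symm.trans b2),
    smul_left_injective K hP (a3.symm.trans b3), smul_left_injective K hP (a4.symm.trans b4)]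

variable (K X) in
/-- the subgroup of `SL₂` mapping into `X` -/
def sub : Subgroup SL(2, K) where
  carrier := {g | In X (h.psi K g.1)}
  one_mem' := by change In X (h.psi K 1); rw [map_one]; exact In.one
  mul_mem' {a b} ha hb := by change In X (h.psi K (a.1 * b.1)); rw [map_mul]; exact In.mul ha hb
  inv_mem' {a} ha := In.inv ha (by rw [← map_mul, ← sl_val_mul, mul_inv_cancel]; exact map_one _)

theorem finite_sub [Finite X] (hP : P ≠ 0) : Finite (h.sub K X) := by
  have := (finite_in (X := X)).to_subtype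
  exact Finite.of_injective (fun g : h.sub K X => (⟨h.psi K g.1.1, g.2⟩ : {x | In X x})) fun a b e =>
    Subtype.ext (Subtype.ext (h.psi_inj hP (congrArg Subtype.val e)))

theorem up_mem (a : K) : up a ∈ h.sub K X ↔ In X (1 + a • P) := by
  change In X (h.psi K _) ↔ _
  simp [psi_apply, up, mkSL_val]

theorem lo_mem (a : K) : lo a ∈ h.sub K X ↔ In X (1 + a • Q) := by
  change In X (h.psi K _) ↔ _
  simp [psi_apply, lo, mkSL_val]

end MU

theorem diag_val {t : K} (ht : t ≠ 0) :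
    (up t * lo (-t⁻¹) * up t * (up (-1) * lo 1 * up (-1))).1 = !![t, 0; 0, t⁻¹] := by
  simp only [sl_val_mul]
  ext i j
  fin_cases i <;> fin_cases j <;> simp [up, lo, mkSL_val, Matrix.mul_apply, Fin.sum_univ_two, ht]

/-- Dickson's lemma for two unipotent elements of a finite group of units -/
theorem lemA (p : ℕ) [Fact p.Prime] [CharP K p] (h2 : (2 : K) ≠ 0) [Finite X] {N N' : A} {x : K} (hx : x ≠ 0)
    (hN : N ≠ 0) (n1 : N * N = 0) (n2 : N' * N' = 0) (e1 : N * (N' * N) = x • N) (e2 : N' * (N * N') = x • N')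
    (h1 : In X (1 + N)) (h1' : In X (1 + N')) :
    In X (1 + (-2 * x⁻¹) • (N * N') + (-2 * x⁻¹) • (N' * N)) ∧
    ∃ k : Subfield K, Finite k ∧ (∀ a, In X (1 + a • N) ↔ a ∈ k) ∧ (∀ a, In X (1 + a • N') ↔ a ∈ k) ∧
      ((x ∈ k ∧ ∀ t ∈ k, t ≠ 0 → In X (1 + ((t - 1) * x⁻¹) • (N * N') + ((t⁻¹ - 1) * x⁻¹) • (N' * N))) ∨
        ((3 : K) = 0 ∧ x ^ 2 = -1 ∧ ∀ a ∈ k, a ^ 3 = a)) := by
  have h : MU N (x⁻¹ • N') := ⟨n1, by simp [n2], by simp [e1, smul_smul, hx], by simp [e2, smul_smul, hx]⟩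
  have := h.finite_sub (K := K) (X := X) hN
  have hlo : ∀ a, lo (a * x) ∈ h.sub K X ↔ In X (1 + a • N') := fun a => by
    rw [h.lo_mem, smul_smul, mul_assoc, mul_inv_cancel₀ hx, mul_one]
  have hu : up 1 ∈ h.sub K X := (h.up_mem 1).2 (by rwa [one_smul])
  have hl : lo x ∈ h.sub K X := by simpa using (hlo 1).2 (by rwa [one_smul])
  have dg : ∀ (g : SL(2, K)) (t : K), g ∈ h.sub K X → g.1 = !![t, 0; 0, t⁻¹] →
      In X (1 + ((t - 1) * x⁻¹) • (N * N') + ((t⁻¹ - 1) * x⁻¹) • (N' * N)) := fun g t hg e => by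
    refine In.congr hg ?_
    rw [e]
    simp [MU.psi_apply, smul_smul]
  obtain ⟨e, -⟩ | ⟨k, -, k1, k2, k3⟩ := lemD2 p (h.sub K X) hx hu hl
  · exact absurd e h2
  have hf : Finite k := Finite.of_injective (fun a : k => (⟨up a.1, (k1 a).2 a.2⟩ : h.sub K X)) fun a b e => by
    have := congrArg (fun g : h.sub K X => g.1.1 0 1) e
    exact Subtype.ext (by simpa [up, mkSL_val] using this)
  have tor : x ∈ k → ∀ t ∈ k, t ≠ 0 →
      In X (1 + ((t - 1) * x⁻¹) • (N * N') + ((t⁻¹ - 1) * x⁻¹) • (N' * N)) := fun hk t ht t0 => by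
    have l : ∀ b ∈ k, lo b ∈ h.sub K X := fun b hb => by
      have := (k2 (b / x)).2 (k.div_mem hb hk)
      rwa [div_mul_cancel₀ _ hx] at this
    refine dg _ t ?_ (diag_val t0)
    have m1 := (k1 (-1)).2 (k.neg_mem k.one_mem)
    exact mul_mem (mul_mem (mul_mem ((k1 t).2 ht) (l _ (k.neg_mem (k.inv_mem ht)))) ((k1 t).2 ht))
      (mul_mem (mul_mem m1 (l 1 k.one_mem)) m1)
  refine ⟨?_, k, hf, fun a => (h.up_mem a).symm.trans (k1 a), fun a => (hlo a).symm.trans (k2 a), ?_⟩
  · suffices In X (1 + ((-1 - 1) * x⁻¹) • (N * N') + (((-1)⁻¹ - 1) * x⁻¹) • (N' * N)) from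
      this.congr (by rw [inv_neg, inv_one]; norm_num)
    rcases k3 with k3 | ⟨h3, k3, -⟩
    · exact tor k3 _ (k.neg_mem k.one_mem) (by simp)
    · refine dg ((up 1 * lo x) ^ 5) _ (pow_mem (mul_mem hu hl) 5) ?_
      rw [sl_val_pow, sl_pow_five, trace_up_lo]
      have a1 : (2 + 1 * x) ^ 4 - 3 * (2 + 1 * x) ^ 2 + 1 = 0 := by
        linear_combination (x ^ 2 + 8 * x + 20) * k3 + (-5 + 4 * x) * h3
      have a2 : (2 + 1 * x) ^ 3 - 2 * (2 + 1 * x) = 1 := by
        linear_combination (x + 6) * k3 + (-1 + 3 * x) * h3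
      rw [a1, a2]
      ext i j
      fin_cases i <;> fin_cases j <;> simp
  · rcases k3 with k3 | k3
    · exact Or.inl ⟨k3, tor k3⟩
    · exact Or.inr k3

end H97s
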