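import Mathlib
import Cfsg.Agent.Lib.Sp4R.Dk

/-!
# Finite groups generated by unit vectors of a five dimensional Clifford system: basics
-/

set_option autoImplicit false

namespace H97s

open Module

/-- a finite group of units normalising a five dimensional Clifford system, simple modulo `±1`,
without long root elements -/
structure Cx (K V A : Type*) [Field K] [AddCommGroup V] [Module K V] [Ring A] [Algebra K A] where
  ι : V →ₗ[K] A
  B : LinearMap.BilinForm K V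
  X : Subgroup Aˣ
  p : ℕ
  prime : p.Prime
  char : CharP K p
  two : (2 : K) ≠ 0
  symm : ∀ v w, B v w = B w v
  cl : ∀ v w, ι v * ι w + ι w * ι v = B v w • 1
  nd : ∀ v, (∀ w, B v w = 0) → v = 0
  dim : finrank K V = 5
  nt : (1 : A) ≠ 0
  fin : Finite X
  neg : -1 ∈ X
  nrm : ∀ g ∈ X, ∀ v, ∃ w, (g : A) * ι v * (g⁻¹ : Aˣ) = ι w
  gen : ∀ N ≤ X, (∀ g ∈ X, ∀ n ∈ N, g * n * g⁻¹ ∈ N) → -1 ∈ N → (∃ n ∈ N, n ≠ 1 ∧ n ≠ -1) → X ≤ N
  perf : ∀ Y : Subgroup Aˣ, -1 ∈ Y → (∀ g ∈ X, ∀ h ∈ X, g * h * g⁻¹ * h⁻¹ ∈ Y) → X ≤ Y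
  notv : ∀ n w, B n n = 0 → B w w = 0 → B n w = 0 → In X (1 + ι n * ι w) → ι n * ι w = 0
  ex : ∃ a, B a a = 2 ∧ In X (ι a)

theorem ass {A : Type*} [Ring A] {a b c : A} (h : a * b = c) (y : A) : a * (b * y) = c * y := by
  rw [← mul_assoc, h]

/-- expand products in an algebra -/
syntax "nc" "[" Lean.Parser.Tactic.simpLemma,* "]" : tactic
macro_rules
  | `(tactic| nc [$ts,*]) => `(tactic| simp only [mul_add, add_mul, mul_sub, sub_mul, neg_mul, mul_neg, smul_mul_assoc,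
      mul_smul_comm, mul_assoc, mul_one, one_mul, mul_zero, zero_mul, smul_zero, map_add, map_sub, map_neg, map_smul,
      $ts,*])

namespace Cx

variable {K V A : Type*} [Field K] [AddCommGroup V] [Module K V] [Ring A] [Algebra K A] (D : Cx K V A)

include D in
theorem fd : FiniteDimensional K V := Module.finite_of_finrank_eq_succ D.dim

theorem swap (v w : V) : D.ι v * D.ι w = D.B w v • 1 - D.ι w * D.ι v := by
  rw [← D.cl]; abel

variable {D}

theorem anti {v w : V} (h : D.B w v = 0) : D.ι v * D.ι w = -(D.ι w * D.ι v) := by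
  rw [D.swap, h, zero_smul, zero_sub]

theorem sq' {v : V} {c : K} (h : D.B v v = 2 * c) : D.ι v * D.ι v = c • 1 := by
  have := D.cl v v
  rw [h, ← two_smul K, mul_smul] at this
  exact smul_right_injective A D.two this

variable (D) in
theorem sq (v : V) : D.ι v * D.ι v = (D.B v v / 2) • 1 := sq' (by have := D.two; field_simp)

theorem sq0 {v : V} (h : D.B v v = 0) : D.ι v * D.ι v = 0 := by rw [D.sq, h, zero_div, zero_smul]

theorem sq1 {v : V} (h : D.B v v = 2) : D.ι v * D.ι v = 1 := by rw [D.sq, h, div_self D.two, one_smul]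

variable (D) in
include D in
theorem smul_one_inj {a b : K} (h : a • (1 : A) = b • 1) : a = b := smul_left_injective K D.nt h

theorem eq_zero {v : V} (h : D.ι v = 0) : v = 0 := D.nd v fun w => by
  have := D.cl v w
  rw [h, zero_mul, mul_zero, add_zero] at this
  exact D.smul_one_inj (by rw [← this, zero_smul])

theorem inj : Function.Injective D.ι := (injective_iff_map_eq_zero _).2 fun _ => eq_zero

theorem B_of_sq {v w : V} (h : D.ι v * D.ι v = D.ι w * D.ι w) : D.B v v = D.B w w :=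
  D.smul_one_inj (by rw [← D.cl, ← D.cl, h])

variable (D) in
/-- roots -/
def Rt (a : V) : Prop := D.B a a = 2 ∧ In D.X (D.ι a)

variable (D) in
/-- reflections -/
def r (a b : V) : V := b - D.B a b • a

theorem r_eq {a : V} (h : D.B a a = 2) (b : V) : D.ι (D.r a b) = -(D.ι a * (D.ι b * D.ι a)) := by
  nc [r, D.swap b a, ass (sq1 h)]
  module

theorem B_r {a : V} (h : D.B a a = 2) (b c : V) : D.B (D.r a b) (D.r a c) = D.B b c := by
  simp only [r, map_sub, map_smul, LinearMap.sub_apply, LinearMap.smul_apply, smul_eq_mul, h, D.symm b a]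
  ring

theorem r_r {a : V} (h : D.B a a = 2) (b : V) : D.r a (D.r a b) = b := by
  simp only [r, map_sub, map_smul, smul_eq_mul, h]
  module

theorem r_of {a b : V} (h : D.B a b = 0) : D.r a b = b := by rw [r, h, zero_smul, sub_zero]

theorem Rt.neg {a : V} (h : D.Rt a) : D.Rt (-a) := ⟨by simpa using h.1, by rw [map_neg]; exact h.2.neg D.neg⟩

theorem Rt.r {a b : V} (h : D.Rt a) (h' : D.Rt b) : D.Rt (D.r a b) :=
  ⟨by rw [B_r h.1, h'.1], by rw [r_eq h.1]; exact (h.2.mul (h'.2.mul h.2)).neg D.neg⟩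

theorem Rt.of {a b c : V} (h : D.Rt a) (h' : D.Rt b) {t : K} (e : D.B a b = t) (e' : c = b - t • a) : D.Rt c := by
  rw [e', ← e]; exact h.r h'

theorem Rt.congr {a b : V} (h : D.Rt a) (e : a = b) : D.Rt b := e ▸ h

theorem Rt.ne_zero {a : V} (h : D.Rt a) : a ≠ 0 := fun e => D.two (by rw [← h.1, e, map_zero])

/-- the unit attached to a vector of norm two -/
def un {a : V} (h : D.B a a = 2) : Aˣ := ⟨D.ι a, D.ι a, sq1 h, sq1 h⟩

theorem Rt.un_mem {a : V} (h : D.Rt a) : un h.1 ∈ D.X := by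
  obtain ⟨u, hu, e⟩ := h.2
  rwa [show un h.1 = u from Units.ext e.symm]

theorem exists_perp {S : Submodule K V} (hS : S ≠ ⊤) : ∃ w, w ≠ 0 ∧ ∀ s ∈ S, D.B w s = 0 := by
  have := D.fd
  have hB : D.B.Nondegenerate := ⟨D.nd, fun v h => D.nd v fun w => by rw [D.symm, h]⟩
  have h1 := LinearMap.BilinForm.finrank_orthogonal hB S
  have h2 := Submodule.finrank_lt hS
  obtain ⟨w, hw, h0⟩ := Submodule.exists_mem_ne_zero_of_ne_bot (p := D.B.orthogonal S) fun e => by
    rw [e, finrank_bot] at h1; omega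
  exact ⟨w, h0, fun s hs => by rw [D.symm]; exact hw s hs⟩

variable (D) in
include D in
theorem span_ne_top {J : Type*} [Fintype J] (f : J → V) (h : Fintype.card J ≤ 4) :
    Submodule.span K (Set.range f) ≠ ⊤ := fun e => by
  have := finrank_range_le_card (R := K) f
  rw [Set.finrank, e, finrank_top, D.dim] at this
  omega

theorem ker_ne_top {w : V} (h : w ≠ 0) : LinearMap.ker (D.B w) ≠ ⊤ := fun e =>
  h (D.nd w fun v => (show v ∈ LinearMap.ker (D.B w) from e ▸ trivial))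

theorem un_ne {a : V} (h : D.B a a = 2) : un h ≠ 1 ∧ un h ≠ -1 := by
  obtain ⟨w, h0, hw⟩ := D.exists_perp (D.span_ne_top ![a] (by simp))
  have h1 := anti (hw a (Submodule.subset_span ⟨0, rfl⟩))
  have k : ∀ c : K, D.ι a = c • 1 → False := fun c e => by
    rw [e, smul_mul_assoc, mul_smul_comm, one_mul, mul_one, eq_neg_iff_add_eq_zero, ← two_smul K, smul_smul,
      ← map_smul] at h1
    have h2 := sq1 h
    rw [e, smul_mul_assoc, one_mul, smul_smul, ← one_smul K (1 : A), smul_smul, mul_one] at h2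
    have h3 : c ≠ 0 := by rintro rfl; simpa using D.smul_one_inj h2
    exact h0 ((smul_eq_zero.1 (eq_zero h1)).resolve_left (mul_ne_zero D.two h3))
  exact ⟨fun e => k 1 (by simpa [un] using congrArg Units.val e),
    fun e => k (-1) (by simpa [un] using congrArg Units.val e)⟩

/-- a set of roots normalised by `X` generates `X` -/
theorem le_of_inv {Z : Set V} (hZ : ∀ a ∈ Z, D.Rt a) (hne : Z.Nonempty)
    (hinv : ∀ g ∈ D.X, ∀ a ∈ Z, ∃ b, (b ∈ Z ∨ -b ∈ Z) ∧ (g : A) * D.ι a * (g⁻¹ : Aˣ) = D.ι b)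
    {Y : Subgroup Aˣ} (h1 : -1 ∈ Y) (hY : ∀ a (ha : a ∈ Z), un (hZ a ha).1 ∈ Y) : D.X ≤ Y := by
  let N := Subgroup.closure {u : Aˣ | u = -1 ∨ ∃ a ∈ Z, (u : A) = D.ι a}
  have m1 : -1 ∈ N := Subgroup.subset_closure (Or.inl rfl)
  have le : ∀ Y : Subgroup Aˣ, -1 ∈ Y → (∀ a (ha : a ∈ Z), un (hZ a ha).1 ∈ Y) → N ≤ Y := fun Y h1 hY =>
    (Subgroup.closure_le _).2 (by
      rintro u (rfl | ⟨a, ha, e⟩)
      · exact h1
      · rw [show u = un (hZ a ha).1 from Units.ext e]; exact hY a ha)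
  refine (D.gen N (le _ D.neg fun a ha => (hZ a ha).un_mem) (fun g hg => ?_) m1 ?_).trans (le Y h1 hY)
  · refine le (N.comap (MulAut.conj g).toMonoidHom) (by simpa using m1) fun a ha => ?_
    obtain ⟨b, hb | hb, e⟩ := hinv g hg a ha
    · exact Subgroup.subset_closure (Or.inr ⟨b, hb, e⟩)
    · have : -1 * (g * un (hZ a ha).1 * g⁻¹) ∈ N :=
        Subgroup.subset_closure (Or.inr ⟨-b, hb, by rw [map_neg, ← e]; simp [un]⟩)
      exact (N.mul_mem_cancel_left m1).1 this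
  · obtain ⟨a, ha⟩ := hne
    exact ⟨un (hZ a ha).1, Subgroup.subset_closure (Or.inr ⟨a, ha, rfl⟩), un_ne _⟩

theorem le_of_roots {Y : Subgroup Aˣ} (h1 : -1 ∈ Y) (hY : ∀ a (ha : D.Rt a), un ha.1 ∈ Y) : D.X ≤ Y := by
  refine le_of_inv (Z := {a | D.Rt a}) (fun a h => h) D.ex (fun g hg a ha => ?_) h1 hY
  obtain ⟨b, e⟩ := D.nrm g hg a
  refine ⟨b, Or.inl ⟨?_, e ▸ (In.mul ⟨g, hg, rfl⟩ ha.2).mul ⟨_, D.X.inv_mem hg, rfl⟩⟩, e⟩
  rw [← ha.1]
  refine B_of_sq ?_
  rw [← e, sq1 ha.1]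
  nc [ass g.inv_mul, ass (sq1 ha.1), g.mul_inv]

/-- the stabiliser of a symmetric finite configuration -/
def stab (Z : Set A) : Subgroup Aˣ where
  carrier := {g | ∀ x, x ∈ Z ↔ (g : A) * x * (g⁻¹ : Aˣ) ∈ Z}
  one_mem' x := by simp
  mul_mem' {a b} ha hb x := by rw [hb, ha]; simp [mul_assoc]
  inv_mem' {a} ha x := by rw [ha ((a⁻¹ : Aˣ) * x * (a⁻¹⁻¹ : Aˣ))]; simp [mul_assoc]

theorem neg_one_mem_stab (Z : Set A) : -1 ∈ stab Z := fun x => by simp

theorem un_mem_stab {a : V} (h : D.B a a = 2) {Z : Set A} (hZ : ∀ x ∈ Z, D.ι a * x * D.ι a ∈ Z) : un h ∈ stab Z :=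
  fun x => ⟨hZ x, fun hx => by
    have := hZ _ hx
    change D.ι a * (D.ι a * x * D.ι a) * D.ι a ∈ Z at this
    simpa only [mul_assoc, ass (sq1 h), sq1 h, one_mul, mul_one] using this⟩

theorem le_of_refl {Z : Set V} (hZ : ∀ a ∈ Z, D.Rt a) (hne : Z.Nonempty) (hr : ∀ a, D.Rt a → ∀ z ∈ Z, D.r a z ∈ Z)
    {Y : Subgroup Aˣ} (h1 : -1 ∈ Y) (hY : ∀ a (ha : a ∈ Z), un (hZ a ha).1 ∈ Y) : D.X ≤ Y := by
  refine le_of_inv hZ hne (fun g hg a ha => ?_) h1 hY
  have := le_of_roots (Y := stab {x | ∃ b, (b ∈ Z ∨ -b ∈ Z) ∧ x = D.ι b}) (neg_one_mem_stab _)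
    (fun c hc => un_mem_stab hc.1 (by
      rintro _ ⟨b, hb, rfl⟩
      refine ⟨-D.r c b, ?_, by rw [map_neg, r_eq hc.1, neg_neg, mul_assoc]⟩
      rcases hb with hb | hb
      · exact Or.inr (by rw [neg_neg]; exact hr c hc b hb)
      · exact Or.inl (by convert hr c hc _ hb using 1; simp only [r, map_neg]; module))) hg
  exact (this _).1 ⟨a, Or.inl ha, rfl⟩

/-- no non-zero vector is orthogonal to a reflection invariant set of roots -/
theorem irr {Z : Set V} (hZ : ∀ a ∈ Z, D.Rt a) (hne : Z.Nonempty) (hr : ∀ a, D.Rt a → ∀ z ∈ Z, D.r a z ∈ Z)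
    {w : V} (hw : ∀ z ∈ Z, D.B w z = 0) : w = 0 := by
  have h1 : D.X ≤ stab {D.ι w, -D.ι w} := le_of_refl hZ hne hr (neg_one_mem_stab _) fun a ha =>
    un_mem_stab _ (by
      have := anti (hw a ha)
      rintro _ (rfl | rfl)
      · right; change _ = _; nc [this, sq1 (hZ a ha).1]
      · left; nc [this, ass this, sq1 (hZ a ha).1, neg_neg])
  have sg : ∀ g ∈ D.X, ∃ c : K, c * c = 1 ∧ (g : A) * D.ι w = c • (D.ι w * g) := fun g hg => by
    rcases (h1 hg _).1 (Or.inl rfl) with e | e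
    · exact ⟨1, by ring, by rw [one_smul]; nth_rewrite 2 [← e]; rw [Units.inv_mul_cancel_right]⟩
    · refine ⟨-1, by ring, ?_⟩
      change _ = _ at e
      rw [neg_smul, one_smul, ← neg_mul, ← e, Units.inv_mul_cancel_right]
  have h2 : D.X ≤ stab {D.ι w} := D.perf _ (neg_one_mem_stab _) fun g hg h hh => by
    obtain ⟨c, hc, e1⟩ := sg g hg
    obtain ⟨d, hd, e2⟩ := sg h hh
    obtain ⟨c', hc', e3⟩ := sg _ (D.X.inv_mem hg)
    obtain ⟨d', hd', e4⟩ := sg _ (D.X.inv_mem hh)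
    have k : ∀ (g : Aˣ) (c c' : K), (g : A) * D.ι w = c • (D.ι w * g) →
        ((g⁻¹ : Aˣ) : A) * D.ι w = c' • (D.ι w * (g⁻¹ : Aˣ)) → (c * c') • D.ι w = D.ι w := fun g c c' e e' => by
      have : (g : A) * ((g⁻¹ : Aˣ) * D.ι w) = D.ι w := Units.mul_inv_cancel_left _ _
      nth_rewrite 2 [← this]
      nc [e', ass e, g.mul_inv, smul_smul, mul_comm c]
    have e : ((g * h * g⁻¹ * h⁻¹ : Aˣ) : A) * D.ι w = D.ι w * (g * h * g⁻¹ * h⁻¹ : Aˣ) := by
      simp only [Units.val_mul]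
      nc [e4, ass e3, ass e2, ass e1, smul_smul]
      rw [show d' * (c' * (d * c)) = c * c' * (d * d') by ring, mul_smul, ← smul_mul_assoc, ← smul_mul_assoc,
        k h d d' e2 e4, k g c c' e1 e3]
    intro x
    constructor
    · rintro rfl; change _ = _; rw [e, Units.mul_inv_cancel_right]
    · intro hx
      change _ = _ at hx
      rw [Units.mul_inv_eq_iff_eq_mul, ← e] at hx
      exact (Units.mul_right_inj _).1 hx
  obtain ⟨a, ha⟩ := hne
  have h3 : D.ι a * D.ι w * D.ι a = D.ι w := (h2 (hZ a ha).un_mem _).1 rfl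
  rw [anti (hw a ha), neg_mul, mul_assoc, sq1 (hZ a ha).1, mul_one, neg_eq_iff_add_eq_zero, ← two_smul K,
    ← map_smul] at h3
  exact (smul_eq_zero.1 (eq_zero h3)).resolve_left D.two

theorem exists_notMem {S : Submodule K V} (hS : S ≠ ⊤) : ∃ c, D.Rt c ∧ c ∉ S := by
  by_contra! h
  obtain ⟨w, h0, hw⟩ := D.exists_perp hS
  exact h0 (irr (Z := {a | D.Rt a}) (fun a h => h) D.ex (fun a ha z hz => ha.r hz) fun z hz => hw z (h z hz))

/-- the roots are not covered by two proper subspaces -/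
theorem exists_out {S T : Submodule K V} (hS : S ≠ ⊤) (hT : T ≠ ⊤) : ∃ c, D.Rt c ∧ c ∉ S ∧ c ∉ T := by
  by_contra! h
  obtain ⟨a, ha, haS⟩ := D.exists_notMem hS
  obtain ⟨b, hb, hbT⟩ := D.exists_notMem hT
  have k : ∀ a, D.Rt a → a ∉ S → ∀ b, D.Rt b → b ∉ T → D.B a b = 0 := fun a ha haS b hb hbT => by
    by_contra h0
    have hbS : b ∈ S := by_contra fun e => hbT (h b hb e)
    refine hbT ?_
    have := h _ (ha.r hb) fun e => haS ?_
    · simpa [r] using T.add_mem this (T.smul_mem (D.B a b) (h a ha haS))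
    · have := S.smul_mem (D.B a b)⁻¹ (S.sub_mem hbS e)
      simpa [r, smul_smul, h0] using this
  refine hb.ne_zero (irr (Z := {z | D.Rt z ∧ ∀ b, D.Rt b → b ∉ T → D.B z b = 0}) (fun a h => h.1)
    ⟨a, ha, k a ha haS⟩ (fun c hc z hz => ⟨hc.r hz.1, fun b hb hbT => ?_⟩) fun z hz => by
      rw [D.symm]; exact hz.2 b hb hbT)
  by_cases hcT : c ∈ T
  · rw [← r_r hc.1 b, B_r hc.1]
    refine hz.2 _ (hc.r hb) fun e => hbT ?_
    simpa [r] using T.add_mem e (T.smul_mem (D.B c b) hcT)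
  · rw [r_of (by rw [D.symm]; exact hz.2 c hc hcT)]; exact hz.2 b hb hbT

end Cx

end H97s
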