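import Mathlib
import Cfsg.Agent.Lib.Sp4R.Cl

/-!
# Short root elements `1 + n w` of a Clifford system
-/

set_option autoImplicit false

namespace H97s

open Module

namespace Cx

variable {K V A : Type*} [Field K] [AddCommGroup V] [Module K V] [Ring A] [Algebra K A] {D : Cx K V A}

variable (D) in
/-- `1 + n w` belongs to the group -/
def Lam (n w : V) : Prop := D.B n w = 0 ∧ In D.X (1 + D.ι n * D.ι w)

variable (D) in
/-- no two roots have a product of order five (or ten) -/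
def No5 : Prop := ∀ a b, D.Rt a → D.Rt b → D.B a b ^ 4 - 3 * D.B a b ^ 2 + 1 = 0 → b = a ∨ b = -a

/-- the inner products of the icosahedral systems -/
def T5 (u : K) : Prop := u = 0 ∨ u ^ 2 = 1 ∨ u ^ 4 - 3 * u ^ 2 + 1 = 0

variable {n w w' a b c : V}

theorem nwn (hn : D.B n n = 0) (h : D.B n w = 0) : D.ι n * (D.ι w * D.ι n) = 0 := by
  nc [anti h, ass (sq0 hn), neg_zero]

theorem nwn' (hn : D.B n n = 0) (h : D.B n w = 0) (y : A) : D.ι n * (D.ι w * (D.ι n * y)) = 0 := by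
  rw [← mul_assoc (D.ι w), ← mul_assoc, nwn hn h, zero_mul]

theorem Lam.zero (n : V) : D.Lam n 0 := ⟨by simp, by simpa using In.one⟩

theorem Lam.congr (h : D.Lam n w) (e : w = w') : D.Lam n w' := e ▸ h

theorem Lam.add (hn : D.B n n = 0) (h : D.Lam n w) (h' : D.Lam n w') : D.Lam n (w + w') :=
  ⟨by rw [map_add, h.1, h'.1, add_zero], (h.2.mul h'.2).congr (by nc [nwn' hn h.1]; abel)⟩

theorem Lam.neg (hn : D.B n n = 0) (h : D.Lam n w) : D.Lam n (-w) :=
  ⟨by rw [map_neg, h.1, neg_zero], h.2.inv (by nc [nwn' hn h.1]; abel)⟩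

theorem Lam.sub (hn : D.B n n = 0) (h : D.Lam n w) (h' : D.Lam n w') : D.Lam n (w - w') := by
  rw [sub_eq_add_neg]; exact h.add hn (h'.neg hn)

theorem Lam.nsmul (hn : D.B n n = 0) (h : D.Lam n w) (k : ℕ) : D.Lam n ((k : K) • w) := by
  induction k with
  | zero => simpa using Lam.zero n
  | succ k ih => rw [Nat.cast_succ, add_smul, one_smul]; exact ih.add hn h

theorem Lam.add_self (hn : D.B n n = 0) (h : D.Lam n w) (x : K) : D.Lam n (w + x • n) :=
  ⟨by simp [h.1, hn], h.2.congr (by nc [sq0 hn, add_zero])⟩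

theorem Lam.smul_iff {x : K} (hx : x ≠ 0) : D.Lam (x • n) w ↔ D.Lam n (x • w) := by
  simp [Lam, hx]

/-- reflection in an arbitrary root -/
theorem Lam.r' (ha : D.Rt a) (h : D.Lam n w) : D.Lam (D.r a n) (D.r a w) :=
  ⟨by rw [B_r ha.1, h.1], ((ha.2.mul h.2).mul ha.2).congr (by
    rw [r_eq ha.1, r_eq ha.1]; nc [sq1 ha.1, ass (sq1 ha.1), neg_neg])⟩

/-- reflection in a root orthogonal to `n` -/
theorem Lam.r (ha : D.Rt a) (han : D.B a n = 0) (h : D.Lam n w) : D.Lam n (D.r a w) := by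
  simpa only [r_of han] using h.r' ha

theorem Lam.root (hn : D.B n n = 0) (ha : D.Rt a) (han : D.B a n = 0) (h : D.Lam n w) : D.Lam n (D.B a w • a) :=
  (h.sub hn (h.r ha han)).congr (by rw [Cx.r, sub_sub_cancel])

theorem mem_span_of_mul (h0 : n ≠ 0) (hn : D.B n n = 0) (h : D.ι n * D.ι w = 0) (hw : D.B n w = 0) :
    ∃ x : K, w = x • n := by
  obtain ⟨m, hm⟩ : ∃ m, D.B n m ≠ 0 := by
    by_contra! k
    exact h0 (D.nd n k)
  have e1 : D.ι w * D.ι n = 0 := by rw [anti hw, h, neg_zero]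
  have e2 : D.ι n * (D.ι m * D.ι w) = D.B n m • D.ι w := by
    rw [← mul_assoc, D.swap n m, D.symm m n]; nc [h, sub_zero]
  have e3 : D.ι n * (D.ι m * D.ι w) = D.B w m • D.ι n := by
    rw [D.swap m w]; nc [ass h, sub_zero]
  refine ⟨(D.B n m)⁻¹ * D.B w m, inj (D := D) ?_⟩
  rw [map_smul, mul_smul, ← e3, e2, smul_smul, inv_mul_cancel₀ hm, one_smul]

/-- absence of long root elements -/
theorem Lam.sing (h0 : n ≠ 0) (hn : D.B n n = 0) (h : D.Lam n w) (hw : D.B w w = 0) : ∃ x : K, w = x • n :=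
  mem_span_of_mul h0 hn (D.notv n w hn hw h.1 h.2) h.1

/-- degenerate pairs of roots -/
theorem deg_pair (ha : D.Rt a) (hb : D.Rt b) (h : D.B a b = 2) :
    D.B (b - a) (b - a) = 0 ∧ D.B a (b - a) = 0 ∧ D.B b (b - a) = 0 ∧ D.Lam (b - a) a := by
  have h' : D.B b a = 2 := by rw [D.symm, h]
  refine ⟨by simp [ha.1, hb.1, h, h'], by simp [ha.1, h], by simp [hb.1, h'], by simp [ha.1, h'],
    (hb.2.mul ha.2).congr (by nc [sq1 ha.1]; abel)⟩

/-- the action of `1 + n w` on vectors -/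
theorem eich (hn : D.B n n = 0) (h : D.B n w = 0) (x : V) :
    (1 + D.ι n * D.ι w) * D.ι x * (1 - D.ι n * D.ι w) =
      D.ι (x - D.B x n • w + (D.B x w - D.B x n * (D.B w w / 2)) • n) := by
  have e1 : D.ι w * D.ι n = -(D.ι n * D.ι w) := anti h
  nc [D.swap w x, ass (D.swap w x), D.swap n x, ass (D.swap n x), e1, ass e1, sq0 hn, ass (sq0 hn), D.sq w,
    ass (D.sq w), neg_zero, smul_neg, neg_neg, smul_sub]
  module

theorem Lam.inv_mem (hn : D.B n n = 0) (h : D.Lam n w) : In D.X (1 - D.ι n * D.ι w) :=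
  (h.neg hn).2.congr (by nc []; abel)

theorem B_eich (hn : D.B n n = 0) (h : D.B n w = 0) (x : V) :
    D.B (x - D.B x n • w + (D.B x w - D.B x n * (D.B w w / 2)) • n)
      (x - D.B x n • w + (D.B x w - D.B x n * (D.B w w / 2)) • n) = D.B x x := by
  have := D.two
  simp only [map_add, map_sub, map_smul, LinearMap.add_apply, LinearMap.sub_apply, LinearMap.smul_apply, smul_eq_mul, hn,
    h, D.symm w n, D.symm w x, D.symm n x]
  field_simp
  ring

theorem Rt.eich (hn : D.B n n = 0) (h : D.Lam n w) (hc : D.Rt c) :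
    D.Rt (c - D.B c n • w + (D.B c w - D.B c n * (D.B w w / 2)) • n) :=
  ⟨by rw [B_eich hn h.1, hc.1], by rw [← Cx.eich hn h.1]; exact (h.2.mul hc.2).mul (h.inv_mem hn)⟩

end Cx

end H97s
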