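import Mathlib
import Cfsg.Agent.Lib.Sp4R.Lam

/-!
# Three involutions in a finite subgroup of `PGL₂` (consequences of Dickson's theorem)
-/

set_option autoImplicit false

namespace H97s

open MulAction Matrix MatrixGroups H29 H98

variable {K : Type*} [Field K]

theorem anti2 {x y : Matrix (Fin 2) (Fin 2) K} (hx : x.trace = 0) (hy : y.trace = 0) :
    x * y + y * x = (x * y).trace • 1 := by
  rw [trace_fin_two, add_eq_zero_iff_neg_eq] at hx hy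
  ext i j
  fin_cases i <;> fin_cases j <;> simp [Matrix.mul_apply, trace_fin_two, ← hx, ← hy] <;> ring

theorem tri2 {x y z : Matrix (Fin 2) (Fin 2) K} (hx : x.trace = 0) (hy : y.trace = 0) (hz : z.trace = 0) :
    x * y * z - z * y * x = (x * y * z).trace • 1 := by
  rw [trace_fin_two, add_eq_zero_iff_neg_eq] at hx hy hz
  ext i j
  fin_cases i <;> fin_cases j <;> simp [Matrix.mul_apply, trace_fin_two, ← hx, ← hy, ← hz] <;> ring

theorem tri_swap {x y z : Matrix (Fin 2) (Fin 2) K} (hx : x.trace = 0) (hy : y.trace = 0) (hz : z.trace = 0) :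
    (x * z * y).trace = -(x * y * z).trace := by
  rw [trace_fin_two, add_eq_zero_iff_neg_eq] at hx hy hz
  simp [Matrix.mul_apply, trace_fin_two, ← hx, ← hy, ← hz]; ring

theorem trace_sq2 {x : Matrix (Fin 2) (Fin 2) K} (hx : x.trace = 0) : (x * x).trace = -2 * x.det := by
  rw [trace_fin_two, add_eq_zero_iff_neg_eq] at hx
  simp [Matrix.mul_apply, trace_fin_two, det_fin_two, ← hx]; ring

/-- the Gram determinant of three roots -/
theorem gram2 {x y z : Matrix (Fin 2) (Fin 2) K} (hx : x.trace = 0) (hy : y.trace = 0) (hz : z.trace = 0)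
    (dx : x.det = -1) (dy : y.det = -1) (dz : z.det = -1) :
    4 - (x * y).trace ^ 2 - (x * z).trace ^ 2 - (y * z).trace ^ 2 + (x * y).trace * (x * z).trace * (y * z).trace =
      -(x * y * z).trace ^ 2 := by
  rw [trace_fin_two, add_eq_zero_iff_neg_eq] at hx hy hz
  rw [det_fin_two] at dx dy dz
  simp only [Matrix.mul_apply, trace_fin_two, Fin.sum_univ_two, ← hx, ← hy, ← hz] at dx dy dz ⊢
  generalize x 0 0 = a, x 0 1 = b, x 1 0 = c, y 0 0 = d, y 0 1 = e, y 1 0 = f, z 0 0 = g, z 0 1 = h, z 1 0 = i at *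
  linear_combination (4 * (d * d + e * f) * (g * g + h * i) - (2 * d * g + e * i + f * h) ^ 2) * dx +
    (4 * (g * g + h * i) - (2 * a * g + b * i + c * h) ^ 2) * dy + (4 - (2 * a * d + b * f + c * e) ^ 2) * dz

/-- roots in a subgroup of `GL₂` -/
def R2 (M : Subgroup (GL (Fin 2) K)) (x : GL (Fin 2) K) : Prop := x ∈ M ∧ x.val.trace = 0 ∧ x.val.det = -1

/-- the values of `trace² / det` in the octahedral group -/
def T4 (u : K) : Prop := u = 0 ∨ u = 1 ∨ u = 2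

variable {M : Subgroup (GL (Fin 2) K)} {x y z : GL (Fin 2) K}

theorem R2.conj (h : R2 M x) {g : GL (Fin 2) K} (hg : g ∈ M) : R2 M (g * x * g⁻¹) :=
  ⟨M.mul_mem (M.mul_mem hg h.1) (M.inv_mem hg), by rw [Units.val_mul, Units.val_mul, trace_units_conj, h.2.1],
    by rw [Units.val_mul, Units.val_mul, det_units_conj, h.2.2]⟩

theorem R2.sign (hneg : -1 ∈ M) (h : R2 M x) {e : K} (he : e ^ 2 = 1) : ∃ y, R2 M y ∧ y.val = e • x.val := by
  rcases mul_self_eq_one_iff.1 ((sq _).symm.trans he) with rfl | rfl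
  · exact ⟨x, h, by simp⟩
  · exact ⟨-1 * x, ⟨M.mul_mem hneg h.1, by simp [h.2.1], by simp [det_neg, h.2.2]⟩, by simp⟩

theorem R2.tr_sq (h : R2 M x) : (x.val * x.val).trace = 2 := by rw [trace_sq2 h.2.1, h.2.2]; ring

theorem tau2 (hx : R2 M x) (hy : R2 M y) :
    tau (ProjGenLinGroup.mk x * ProjGenLinGroup.mk y : PGL(2, K)) = (x.val * y.val).trace ^ 2 := by
  rw [← map_mul, tau_mk, Units.val_mul, det_mul, hx.2.2, hy.2.2]; simp

theorem tau3 (hx : R2 M x) (hy : R2 M y) (hz : R2 M z) :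
    tau (ProjGenLinGroup.mk x * ProjGenLinGroup.mk y * ProjGenLinGroup.mk z : PGL(2, K)) =
      -(x.val * y.val * z.val).trace ^ 2 := by
  rw [← map_mul, ← map_mul, tau_mk, Units.val_mul, Units.val_mul, det_mul, det_mul, hx.2.2, hy.2.2, hz.2.2]
  simp [div_neg]

theorem scalar_of_mk {g : GL (Fin 2) K} (h : (ProjGenLinGroup.mk g : PGL(2, K)) = 1) : ∃ a : K, a ≠ 0 ∧ g.val = a • 1 :=
  pgl_mk_eq_mk_iff.1 ((map_one _).trans h.symm)

theorem ne2 (hz : R2 M z) (h : (x.val * y.val * z.val).trace ≠ 0) :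
    (ProjGenLinGroup.mk x * ProjGenLinGroup.mk y : PGL(2, K)) ≠ 1 := fun e => by
  obtain ⟨a, -, e⟩ := scalar_of_mk ((map_mul _ _ _).trans e)
  rw [Units.val_mul] at e
  simp [e, hz.2.1] at h

theorem R2.inv2 (h2 : (2 : K) ≠ 0) (hx : R2 M x) :
    (ProjGenLinGroup.mk x : PGL(2, K)) ^ 2 = 1 ∧ (ProjGenLinGroup.mk x : PGL(2, K)) ≠ 1 := by
  constructor
  · rw [← map_pow, show x ^ 2 = 1 from Units.ext (by
      rw [sq, Units.val_mul, cayley_two, hx.2.1, hx.2.2]; simp), map_one]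
  · intro e
    obtain ⟨a, a0, e⟩ := scalar_of_mk e
    have := hx.2.1
    simp [e, a0, h2] at this

set_option synthInstance.maxSize 4000 in
set_option synthInstance.maxHeartbeats 400000 in
theorem a5_data : ∃ a b c j : alternatingGroup (Fin 5), a * b * c = 1 ∧ (a * b) ^ 2 = 1 ∧ a * b ≠ 1 ∧ (a * c) ^ 2 = 1 ∧
    a * c ≠ 1 ∧ (b * c) ^ 2 = 1 ∧ b * c ≠ 1 ∧ (a * j) ^ 5 = 1 ∧ a * j ≠ 1 ∧ (b * j) ^ 3 = 1 ∧ b * j ≠ 1 ∧
    ∀ t, t ^ 2 = 1 → t ≠ 1 → ∀ u ∈ [a, b, c, j], ∃ g, g * t * g⁻¹ = u :=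
  ⟨⟨Equiv.swap 0 1 * Equiv.swap 2 3, Equiv.Perm.mem_alternatingGroup.2 (by decide)⟩,
    ⟨Equiv.swap 0 2 * Equiv.swap 1 3, Equiv.Perm.mem_alternatingGroup.2 (by decide)⟩,
    ⟨Equiv.swap 0 3 * Equiv.swap 1 2, Equiv.Perm.mem_alternatingGroup.2 (by decide)⟩,
    ⟨Equiv.swap 0 2 * Equiv.swap 1 4, Equiv.Perm.mem_alternatingGroup.2 (by decide)⟩, by
      refine ⟨?_, ?_, ?_, ?_, ?_, ?_, ?_, ?_, ?_, ?_, ?_, ?_⟩ <;> decide +kernel⟩

theorem a5_ord (g : alternatingGroup (Fin 5)) : g ^ 2 = 1 ∨ g ^ 3 = 1 ∨ g ^ 5 = 1 := by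
  revert g; decide +kernel

theorem s4_ord (g : Equiv.Perm (Fin 4)) : g ^ 3 = 1 ∨ g ^ 4 = 1 := by
  revert g; decide +kernel

theorem t4_of [IsAlgClosed K] {γ : PGL(2, K)} (h : γ ^ 3 = 1 ∨ γ ^ 4 = 1) : γ = 1 ∨ T4 (tau γ) := by
  by_cases h1 : γ = 1
  · exact Or.inl h1
  rcases h with h | h
  · exact Or.inr (Or.inr (Or.inl (tau_three h h1)))
  by_cases h2 : γ ^ 2 = 1
  · exact Or.inr (Or.inl (tau_two h2 h1))
  · exact Or.inr (Or.inr (Or.inr (tau_four h h2)))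

/-- the icosahedral frame -/
def Fr2 (M : Subgroup (GL (Fin 2) K)) : Prop := ∃ (φ : K) (e₁ e₂ e₃ h : GL (Fin 2) K), φ ^ 2 = φ + 1 ∧ R2 M e₁ ∧ R2 M e₂ ∧
  R2 M e₃ ∧ R2 M h ∧ (e₁.val * e₂.val).trace = 0 ∧ (e₁.val * e₃.val).trace = 0 ∧ (e₂.val * e₃.val).trace = 0 ∧
    h.val = (2 : K)⁻¹ • (φ • e₁.val + e₂.val + (φ - 1) • e₃.val)

theorem fr2_of [IsAlgClosed K] (h2 : (2 : K) ≠ 0) (hneg : -1 ∈ M) (hx : R2 M x)
    (e : M.map (ProjGenLinGroup.mk : GL (Fin 2) K →* PGL(2, K)) ≃* alternatingGroup (Fin 5)) : Fr2 M := by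
  obtain ⟨a, b, c, j, f1, f2, f3, f4, f5, f6, f7, f8, f9, f10, f11, f12⟩ := a5_data
  let ρ : alternatingGroup (Fin 5) →* PGL(2, K) := (Subgroup.subtype _).comp e.symm.toMonoidHom
  have hρ : Function.Injective ρ := Subtype.val_injective.comp e.symm.injective
  have lift : ∀ u ∈ [a, b, c, j], ∃ y, R2 M y ∧ ProjGenLinGroup.mk y = ρ u := fun u hu => by
    have e1 : ρ (e ⟨_, x, hx.1, rfl⟩) = ProjGenLinGroup.mk x := by simp [ρ]
    obtain ⟨g, rfl⟩ := f12 (e ⟨_, x, hx.1, rfl⟩) (hρ (by rw [map_pow, e1, (hx.inv2 h2).1, map_one]))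
      (fun k => (hx.inv2 h2).2 (by rw [← e1, k, map_one])) u hu
    obtain ⟨g', hg', e2⟩ := (e.symm g).2
    exact ⟨_, hx.conj hg', by simp only [map_mul, map_inv, e1, e2]; rfl⟩
  obtain ⟨e₁, h₁, k₁⟩ := lift a (by simp)
  obtain ⟨e₂, h₂, k₂⟩ := lift b (by simp)
  obtain ⟨e₃, h₃, k₃⟩ := lift c (by simp)
  obtain ⟨h, h₄, k₄⟩ := lift j (by simp)
  have ne : ∀ u, u ≠ 1 → ρ u ≠ 1 := fun u hu k => hu (hρ (k.trans (map_one ρ).symm))
  have pw : ∀ u (n : ℕ), u ^ n = 1 → ρ u ^ n = 1 := fun u n k => by rw [← map_pow, k, map_one]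
  have o12 := tau_two (pw _ _ f2) (ne _ f3)
  have o13 := tau_two (pw _ _ f4) (ne _ f5)
  have o23 := tau_two (pw _ _ f6) (ne _ f7)
  have y1 := tau_five (pw _ _ f8) (ne _ f9)
  have y2 := tau_three (pw _ _ f10) (ne _ f11)
  obtain ⟨l, l0, hl⟩ := scalar_of_mk (g := e₁ * e₂ * e₃) (by rw [map_mul, map_mul, k₁, k₂, k₃, ← map_mul, ← map_mul, f1, map_one])
  simp only [map_mul, ← k₁, ← k₂, ← k₃, ← k₄, tau2 h₁ h₂, tau2 h₁ h₃, tau2 h₂ h₃, tau2 h₁ h₄, tau2 h₂ h₄,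
    pow_eq_zero_iff two_ne_zero, Units.val_mul] at o12 o13 o23 y1 y2 hl
  have o21 := (trace_mul_comm _ _).trans o12
  have o31 := (trace_mul_comm _ _).trans o13
  have o32 := (trace_mul_comm _ _).trans o23
  obtain ⟨y₁, d₁⟩ : ∃ t, t = (e₁.val * h.val).trace := ⟨_, rfl⟩
  obtain ⟨y₂, d₂⟩ : ∃ t, t = (e₂.val * h.val).trace := ⟨_, rfl⟩
  obtain ⟨y₃, d₃⟩ : ∃ t, t = (e₃.val * h.val).trace := ⟨_, rfl⟩
  rw [← d₁] at y1
  rw [← d₂] at y2
  have dec : h.val = (2 : K)⁻¹ • (y₁ • e₁.val + y₂ • e₂.val + y₃ • e₃.val) := by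
    obtain ⟨u, hu⟩ : ∃ u, u = h.val - (2 : K)⁻¹ • (y₁ • e₁.val + y₂ • e₂.val + y₃ • e₃.val) := ⟨_, rfl⟩
    have u0 : u.trace = 0 := by simp [hu, h₁.2.1, h₂.2.1, h₃.2.1, h₄.2.1]
    have an : ∀ g : GL (Fin 2) K, R2 M g → (g.val * u).trace = 0 → u * g.val = -(g.val * u) := fun g hg k => by
      rw [eq_neg_iff_add_eq_zero, add_comm, anti2 hg.2.1 u0, k, zero_smul]
    have a1 := an _ h₁ (by simp [hu, mul_sub, mul_add, h₁.tr_sq, o12, o13, ← d₁]; field_simp; ring)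
    have a2 := an _ h₂ (by simp [hu, mul_sub, mul_add, h₂.tr_sq, o21, o23, ← d₂]; field_simp; ring)
    have a3 := an _ h₃ (by simp [hu, mul_sub, mul_add, h₃.tr_sq, o31, o32, ← d₃]; field_simp; ring)
    have : u * (e₁.val * e₂.val * e₃.val) = -(e₁.val * e₂.val * e₃.val * u) := by nc [ass a1, ass a2, a3, neg_neg]
    rw [hl, mul_smul_comm, smul_mul_assoc, mul_one, one_mul, eq_neg_iff_add_eq_zero, ← two_smul K, smul_smul,
      smul_eq_zero_iff_right (mul_ne_zero h2 l0), hu] at this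
    exact sub_eq_zero.1 this
  have nm : y₁ ^ 2 + y₂ ^ 2 + y₃ ^ 2 = 4 := by
    have := h₄.tr_sq
    nth_rewrite 1 [dec] at this
    simp only [smul_mul_assoc, add_mul, trace_smul, trace_add, ← d₁, ← d₂, ← d₃, smul_eq_mul] at this
    field_simp at this
    linear_combination this
  obtain ⟨s, hs, φ, hφ, rfl⟩ : ∃ s : K, s ^ 2 = 1 ∧ ∃ φ : K, φ ^ 2 = φ + 1 ∧ y₁ = φ * s := by
    rcases mul_eq_zero.1 (show (y₁ ^ 2 - y₁ - 1) * (y₁ ^ 2 + y₁ - 1) = 0 by linear_combination y1) with k | k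
    · exact ⟨1, by simp, y₁, by linear_combination k, by simp⟩
    · exact ⟨-1, by simp, -y₁, by linear_combination k, by simp⟩
  obtain ⟨s', hs', rfl⟩ : ∃ s' : K, s' ^ 2 = 1 ∧ y₃ = (φ - 1) * s' := by
    rcases sq_eq_sq_iff_eq_or_eq_neg.1 (show y₃ ^ 2 = (φ - 1) ^ 2 by
      linear_combination nm - y2 - φ ^ 2 * hs - 2 * hφ) with k | k
    · exact ⟨1, by simp, by simp [k]⟩
    · exact ⟨-1, by simp, by simp [k]⟩
  obtain ⟨g₁, r₁, v₁⟩ := h₁.sign hneg hs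
  obtain ⟨g₂, r₂, v₂⟩ := h₂.sign hneg y2
  obtain ⟨g₃, r₃, v₃⟩ := h₃.sign hneg hs'
  exact ⟨φ, g₁, g₂, g₃, h, hφ, r₁, r₂, r₃, h₄, by simp [v₁, v₂, o12], by simp [v₁, v₃, o13], by simp [v₂, v₃, o23],
    by rw [dec, v₁, v₂, v₃, smul_smul, smul_smul]⟩

theorem t5_of [IsAlgClosed K] (hx : R2 M x) (hy : R2 M y) (h1 : (ProjGenLinGroup.mk x * ProjGenLinGroup.mk y : PGL(2, K)) ≠ 1)
    (e : M.map (ProjGenLinGroup.mk : GL (Fin 2) K →* PGL(2, K)) ≃* alternatingGroup (Fin 5)) :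
    Cx.T5 (x.val * y.val).trace := by
  have hm : (ProjGenLinGroup.mk x * ProjGenLinGroup.mk y : PGL(2, K)) ∈ M.map ProjGenLinGroup.mk :=
    ⟨x * y, M.mul_mem hx.1 hy.1, map_mul _ _ _⟩
  have pw : ∀ n : ℕ, e ⟨_, hm⟩ ^ n = 1 → (ProjGenLinGroup.mk x * ProjGenLinGroup.mk y : PGL(2, K)) ^ n = 1 := fun n k =>
    congrArg Subtype.val (e.injective (by rw [map_pow, k, map_one]) : (⟨_, hm⟩ : M.map ProjGenLinGroup.mk) ^ n = 1)
  rcases a5_ord (e ⟨_, hm⟩) with k | k | k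
  · exact Or.inl (pow_eq_zero_iff two_ne_zero |>.1 ((tau2 hx hy).symm.trans (tau_two (pw _ k) h1)))
  · exact Or.inr (Or.inl ((tau2 hx hy).symm.trans (tau_three (pw _ k) h1)))
  · have := tau_five (pw _ k) h1
    rw [tau2 hx hy] at this
    exact Or.inr (Or.inr (by linear_combination this))

theorem gm [IsAlgClosed K] (p : ℕ) [Fact p.Prime] [CharP K p] (h2 : (2 : K) ≠ 0) [Finite M] (hneg : -1 ∈ M)
    (hdet : ∀ g ∈ M, g.val.det ^ 2 = 1)
    (hw : ∀ N : Matrix (Fin 2) (Fin 2) K, N * N = 0 → N.trace = 0 → N ≠ 0 → In M (1 + N) →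
      (3 : K) = 0 ∧ ∀ s : K, In M (1 + s • N) → s ^ 3 = s)
    (hx : R2 M x) (hy : R2 M y) (hz : R2 M z) (hG : (x.val * y.val * z.val).trace ≠ 0) :
    ((x.val * y.val).trace = 0 ∧ (x.val * z.val).trace = 0) ∨ ((x.val * y.val).trace = 0 ∧ (y.val * z.val).trace = 0) ∨
    ((x.val * z.val).trace = 0 ∧ (y.val * z.val).trace = 0) ∨
    (T4 ((x.val * y.val).trace ^ 2) ∧ T4 ((x.val * z.val).trace ^ 2) ∧ T4 ((y.val * z.val).trace ^ 2) ∧
      (T4 (-(x.val * y.val * z.val).trace ^ 2) ∨ (x.val * y.val).trace = 0)) ∨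
    (Cx.T5 (x.val * y.val).trace ∧ Cx.T5 (x.val * z.val).trace ∧ Cx.T5 (y.val * z.val).trace ∧ Fr2 M) := by
  set Γ := M.map (ProjGenLinGroup.mk : GL (Fin 2) K →* PGL(2, K)) with hΓ
  have : Finite Γ := Finite.of_surjective _ (MonoidHom.subgroupMap_surjective _ M)
  have mem : ∀ g ∈ M, ProjGenLinGroup.mk g ∈ Γ := fun g hg => ⟨g, hg, rfl⟩
  have n12 := ne2 hz hG
  have n13 := ne2 hy (x := x) (y := z) (by rwa [tri_swap hx.2.1 hy.2.1 hz.2.1, neg_ne_zero])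
  have n23 := ne2 hx (x := y) (y := z) (by rwa [trace_mul_comm, ← mul_assoc])
  have ty4 : (∀ γ ∈ Γ, γ = 1 ∨ T4 (tau γ)) → T4 ((x.val * y.val).trace ^ 2) ∧ T4 ((x.val * z.val).trace ^ 2) ∧
      T4 ((y.val * z.val).trace ^ 2) ∧ (T4 (-(x.val * y.val * z.val).trace ^ 2) ∨ (x.val * y.val).trace = 0) := fun H => by
    refine ⟨tau2 hx hy ▸ (H _ (Γ.mul_mem (mem _ hx.1) (mem _ hy.1))).resolve_left n12,
      tau2 hx hz ▸ (H _ (Γ.mul_mem (mem _ hx.1) (mem _ hz.1))).resolve_left n13,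
      tau2 hy hz ▸ (H _ (Γ.mul_mem (mem _ hy.1) (mem _ hz.1))).resolve_left n23, ?_⟩
    rcases H _ (Γ.mul_mem (Γ.mul_mem (mem _ hx.1) (mem _ hy.1)) (mem _ hz.1)) with k | k
    · right
      have := tau2 hx hy
      rw [eq_inv_of_mul_eq_one_left k, tau_two (by rw [inv_pow, (hz.inv2 h2).1, inv_one])
        (inv_ne_one.2 (hz.inv2 h2).2)] at this
      exact pow_eq_zero_iff two_ne_zero |>.1 this.symm
    · exact Or.inl (tau3 hx hy hz ▸ k)
  have tri : ∀ v, (x.val * y.val * z.val).trace • v = x.val *ᵥ (y.val *ᵥ (z.val *ᵥ v)) - z.val *ᵥ (y.val *ᵥ (x.val *ᵥ v)) :=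
    fun v => by simp only [mulVec_mulVec, ← mul_assoc, ← sub_mulVec, tri2 hx.2.1 hy.2.1 hz.2.1, smul_mulVec, one_mulVec]
  have fix3 : ∀ {v : Fin 2 → K} {a b c : K}, v ≠ 0 → x.val *ᵥ v = a • v → y.val *ᵥ v = b • v → z.val *ᵥ v = c • v → False :=
    fun {v a b c} hv ha hb hc => by
      have := tri v
      simp only [mulVec_smul, ha, hb, hc] at this
      exact hG ((smul_eq_zero.1 (this.trans (by module))).resolve_right hv)
  rcases dickson p Γ with ⟨P, hP, -⟩ | ⟨P, Q, -, hPQ, -, -, -, -, hle⟩ | ⟨-, ⟨e⟩⟩ | ⟨-, ⟨e⟩⟩ | ⟨-, -, ⟨e⟩⟩ | ⟨i, c, -, -, hc⟩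
  · induction P using Projectivization.ind with | h v hv =>
    obtain ⟨a, ha⟩ := (pgl_fix_iff _ hv).1 (hP _ (mem _ hx.1))
    obtain ⟨b, hb⟩ := (pgl_fix_iff _ hv).1 (hP _ (mem _ hy.1))
    obtain ⟨c, hc⟩ := (pgl_fix_iff _ hv).1 (hP _ (mem _ hz.1))
    exact (fix3 hv ha hb hc).elim
  · induction P using Projectivization.ind with | h v hv =>
    induction Q using Projectivization.ind with | h w hw =>
    have ind : ∀ s t : K, s • v = t • w → s = 0 := fun s t e => by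
      by_contra s0
      exact hPQ ((Projectivization.mk_eq_mk_iff' K _ _ _ _).2 ⟨s⁻¹ * t, by rw [mul_smul, ← e, smul_smul, inv_mul_cancel₀ s0, one_smul]⟩)
    have cs : ∀ g ∈ M, (∃ a b : K, g.val *ᵥ v = a • v ∧ g.val *ᵥ w = b • w) ∨
        ∃ a b : K, g.val *ᵥ v = a • w ∧ g.val *ᵥ w = b • v := fun g hg => by
      rcases hle (mem g hg) with ⟨k1, k2⟩ | ⟨k1, k2⟩ <;> rw [pgl_smul_mk, Projectivization.mk_eq_mk_iff'] at k1 k2 <;>
        obtain ⟨a, ha⟩ := k1 <;> obtain ⟨b, hb⟩ := k2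
      · exact Or.inl ⟨a, b, ha.symm, hb.symm⟩
      · exact Or.inr ⟨a, b, ha.symm, hb.symm⟩
    have fs : ∀ {g h : GL (Fin 2) K} {a b c : K}, R2 M g → R2 M h → g.val *ᵥ v = a • v → g.val *ᵥ w = b • w →
        h.val *ᵥ v = c • w → (g.val * h.val).trace = 0 ∧ (h.val * g.val).trace = 0 := fun {g h a b c} hg hh k1 k2 k3 => by
      have := congrArg (· *ᵥ v) (anti2 hg.2.1 hh.2.1)
      simp only [add_mulVec, ← mulVec_mulVec, mulVec_smul, k1, k2, k3, smul_mulVec, one_mulVec] at this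
      have := ind _ (c * b + a * c) (this.symm.trans (by module))
      exact ⟨this, (trace_mul_comm _ _).trans this⟩
    rcases cs _ hx.1 with ⟨a, a', x1, x2⟩ | ⟨a, a', x1, x2⟩ <;> rcases cs _ hy.1 with ⟨b, b', y1, y2⟩ | ⟨b, b', y1, y2⟩ <;>
      rcases cs _ hz.1 with ⟨c, c', z1, z2⟩ | ⟨c, c', z1, z2⟩
    · exact (fix3 hv x1 y1 z1).elim
    · exact Or.inr (Or.inr (Or.inl ⟨(fs hx hz x1 x2 z1).1, (fs hy hz y1 y2 z1).1⟩))
    · exact Or.inr (Or.inl ⟨(fs hx hy x1 x2 y1).1, (fs hz hy z1 z2 y1).2⟩)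
    · exact Or.inl ⟨(fs hx hy x1 x2 y1).1, (fs hx hz x1 x2 z1).1⟩
    · exact Or.inl ⟨(fs hy hx y1 y2 x1).2, (fs hz hx z1 z2 x1).2⟩
    · exact Or.inr (Or.inl ⟨(fs hy hx y1 y2 x1).2, (fs hy hz y1 y2 z1).1⟩)
    · exact Or.inr (Or.inr (Or.inl ⟨(fs hz hx z1 z2 x1).2, (fs hz hy z1 z2 y1).2⟩))
    · have := tri v
      simp only [mulVec_smul, x1, y2, z1] at this
      exact (hG (ind _ (c * b' * a - a * b' * c) (this.trans (by module)))).elim
  · refine Or.inr (Or.inr (Or.inr (Or.inl (ty4 fun γ hγ => t4_of ?_))))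
    refine (s4_ord (e ⟨γ, hγ⟩).1).imp (fun k => ?_) fun k => ?_ <;>
      exact congrArg Subtype.val (e.injective (by rw [map_pow, map_one]; exact Subtype.ext k) : (⟨γ, hγ⟩ : Γ) ^ _ = 1)
  · refine Or.inr (Or.inr (Or.inr (Or.inl (ty4 fun γ hγ => t4_of ?_))))
    refine (s4_ord (e ⟨γ, hγ⟩)).imp (fun k => ?_) fun k => ?_ <;>
      exact congrArg Subtype.val (e.injective (by rw [map_pow, map_one]; exact k) : (⟨γ, hγ⟩ : Γ) ^ _ = 1)
  · exact Or.inr (Or.inr (Or.inr (Or.inr ⟨t5_of hx hy n12 e, t5_of hx hz n13 e, t5_of hy hz n23 e, fr2_of h2 hneg hx e⟩)))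
  · have l1 : cj c (PS (fld K p i)) ≤ Γ := by
      rcases hc with hc | ⟨-, hc⟩ <;> rw [hc]
      exact cj_le_cj.2 (PS_le_PG _)
    have l2 : Γ ≤ cj c (PG (fld K p i)) := by
      rcases hc with hc | ⟨-, hc⟩ <;> rw [hc]
      exact cj_le_cj.2 (PS_le_PG _)
    generalize fld K p i = k at l1 l2
    induction c using ProjGenLinGroup.induction_on with | mk C =>
    obtain ⟨N, hN⟩ : ∃ N, N = C.val * !![0, 1; 0, 0] * (C⁻¹).val := ⟨_, rfl⟩
    have NN : N * N = 0 := by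
      have : (!![0, 1; 0, 0] : Matrix (Fin 2) (Fin 2) K) * !![0, 1; 0, 0] = 0 := by
        ext i j; fin_cases i <;> fin_cases j <;> simp
      nc [hN, ass C.inv_mul, ass this]
    have inM : ∀ s ∈ k, In M (1 + s • (2 : K) • N) := fun s hs => by
      obtain ⟨g, hg, e⟩ := l1 (conj_mem_cj (c := ProjGenLinGroup.mk C) (mk_mem_PS (g := affGL 1 s) (b := 1)
        (fun i j => by fin_cases i <;> fin_cases j <;> simp [affGL_val, hs, k.one_mem, k.zero_mem]) k.one_mem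
        (by simp [affGL_val, det_fin_two])))
      rw [← map_inv, ← map_mul, ← map_mul] at e
      obtain ⟨a, a0, e⟩ := pgl_mk_eq_mk_iff.1 e.symm
      have e1 : (C * affGL 1 s * C⁻¹).val = 1 + s • N := by
        rw [Units.val_mul, Units.val_mul, affGL_val, show (!![((1 : Kˣ) : K), s; 0, 1] : Matrix (Fin 2) (Fin 2) K) =
          1 + s • !![0, 1; 0, 0] by ext i j; fin_cases i <;> fin_cases j <;> simp]
        nc [hN, C.mul_inv]
      have d1 : (C * affGL 1 s * C⁻¹).val.det = 1 := by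
        rw [Units.val_mul, Units.val_mul, det_units_conj]; simp [affGL_val, det_fin_two]
      have d2 := hdet g hg
      rw [e, det_smul, d1, Fintype.card_fin, mul_one] at d2
      have g2 : In M (a ^ 2 • (1 + s • (2 : K) • N)) := (In.mul ⟨g, hg, rfl⟩ ⟨g, hg, rfl⟩).congr (by
        rw [e, e1]; nc [NN]; module)
      rcases mul_self_eq_one_iff.1 ((sq _).symm.trans d2) with k | k <;> rw [k] at g2
      · simpa using g2
      · simpa only [neg_smul, one_smul, neg_neg] using g2.neg hneg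
    obtain ⟨h3, hs⟩ := hw ((2 : K) • N) (by nc [NN]) (by rw [trace_smul, hN, trace_units_conj]; simp [trace_fin_two])
      (smul_ne_zero h2 fun e => by
        have := congrArg (fun u => ((C⁻¹).val * u * C.val) 0 1) (hN.symm.trans e)
        simp only [mul_assoc, C.inv_mul, ass C.inv_mul, one_mul, mul_one] at this
        simp at this) (by simpa using inM 1 k.one_mem)
    refine Or.inr (Or.inr (Or.inr (Or.inl (ty4 fun γ hγ => Or.inr ?_))))
    have := tau_mem (mem_cj.1 (l2 hγ))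
    rw [← inv_inv (ProjGenLinGroup.mk C), inv_inv (ProjGenLinGroup.mk C)⁻¹, tau_conj] at this
    rcases H98.D3.eq_of_cube (hs _ (inM _ this)) with k | k | k
    · exact Or.inl k
    · exact Or.inr (Or.inl k)
    · exact Or.inr (Or.inr (by linear_combination k - h3))

end H97s
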