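import Mathlib
import Cfsg.Agent.Lib.Sp4R.SixG
import Cfsg.Agent.Lib.Sp4R.Gm

/-!
# Residual cores with socle `A₅` in `Sp₄(q)`, `q` odd
-/

set_option autoImplicit false

namespace H97s

open Cfsg Cfsg.Geo Matrix Module Mt Subgroup

namespace Mt

variable {F : Type*} [Field F] {H P : Subgroup (GL (Fin 2 ⊕ Fin 2) F)} {G : Type*} [Group G]

/-- the action of the socle on the five dimensional module -/
structure Cv (h2 : (2 : F) ≠ 0) (hs : P ≤ spGL 2 F) (q : P →* G) (ψ : G →* Module.End F (Fin 5 → F)) : Prop where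
  surj : Function.Surjective q
  ker : ∀ x, q x = 1 ↔ x.1 = 1 ∨ x.1 = -1
  act : ∀ x : P, ψ (q x) = ad h2 ⟨x.1, hs x.2⟩

theorem exists_cv (h2 : (2 : F) ≠ 0) (hs : P ≤ spGL 2 F) (e : (P ⧸ (scalars (Fin 2 ⊕ Fin 2) F).subgroupOf P) ≃* G) :
    ∃ q ψ, Cv (G := G) h2 hs q ψ := by
  refine ⟨e.toMonoidHom.comp (QuotientGroup.mk' _), (QuotientGroup.lift _ ((ad h2).comp (inclusion hs)) fun x hx => ?_).comp
    e.symm.toMonoidHom, e.surjective.comp (QuotientGroup.mk'_surjective _), fun x => ?_, fun x => by simp; rfl⟩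
  · refine LinearMap.ext fun v => (ad_fix_iff h2).2 ?_
    rcases scalar_sp (hs x.2) hx with k | k <;> simp [k]
  · refine (e.map_eq_one_iff.trans (QuotientGroup.eq_one_iff x)).trans ⟨scalar_sp (hs x.2), fun k => (mem_scalars_iff _).2 ?_⟩
    rcases k with k | k
    exacts [⟨1, by simp [k]⟩, ⟨-1, by simp [k]⟩]

namespace Cv

variable {h2 : (2 : F) ≠ 0} {hs : P ≤ spGL 2 F} {q : P →* G} {ψ : G →* Module.End F (Fin 5 → F)} (h : Cv h2 hs q ψ)
include h

theorem io_act (x : P) (v : Fin 5 → F) : io (ψ (q x) v) = x.1.val * io v * (x.1⁻¹).val := by rw [h.act, io_ad]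

theorem fix_iff {x : P} {v : Fin 5 → F} : ψ (q x) v = v ↔ x.1.val * io v = io v * x.1.val := by rw [h.act, ad_fix_iff]

theorem faith {g : G} (k : ∀ v, ψ g v = v) : g = 1 := by
  obtain ⟨x, rfl⟩ := h.surj g
  obtain ⟨c, hc⟩ := scalar_of_comm h2 fun v => h.fix_iff.1 (k v)
  refine (h.ker x).2 (scalar_sp (hs x.2) ((mem_scalars_iff _).2 ⟨Units.mk0 c ?_, hc⟩))
  rintro rfl
  exact x.1.ne_zero (by rw [hc, zero_smul])

theorem sx (hP : IsResidualCore H P) {gs : Fin 3 → G} {πs : Fin 3 → Equiv.Perm (Fin 6)} {r : Fin 6 → G} (m : Md gs πs r) :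
    Sx ψ (closure {gs 0, gs 1}) r := by
  refine ⟨h2, fun g v w => ?_, fun v hv => ?_, fun c h0 hc i => ?_, m.all, m.dbl, m.r0⟩
  · obtain ⟨x, rfl⟩ := h.surj g
    rw [h.act, bf_ad]
  · obtain ⟨c, hc⟩ := hP.absIrred.2 (io v) (by rintro _ ⟨g, hg, rfl⟩; exact (h.fix_iff.1 (hv (q ⟨g, hg⟩))).symm)
    exact io_scalar h2 hc
  · obtain ⟨v, v0, hv⟩ := exists_ker (fun i => io (c i)) (fun i j => by rw [io_swap, h0, zero_smul, zero_sub])
      fun i => by simpa using io_sq h2 (v := c i) (c := 0) (by simp [h0])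
    rcases hP.absIrred.1 (⨅ i, LinearMap.ker (toLin' (io (c i)))) (by
      rintro _ ⟨g, hg, rfl⟩ _ ⟨u, hu, rfl⟩
      simp only [SetLike.mem_coe, Submodule.mem_iInf, LinearMap.mem_ker, toLin'_apply] at hu ⊢
      intro j
      obtain ⟨k, hk⟩ := hc (q ⟨g, hg⟩⁻¹) j
      have := h.io_act ⟨g, hg⟩⁻¹ (c j)
      rw [hk] at this
      rw [mulVec_mulVec, show io (c j) * g.val = g.val * io (c k) by simp [this, mul_assoc], ← mulVec_mulVec, hu,
        mulVec_zero]) with k | k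
    · exact (v0 ((Submodule.mem_bot F).1 (k ▸ by simpa using hv))).elim
    · refine io_inj (ext_of_mulVec_single fun j => ?_)
      have := k.ge (Submodule.mem_top (x := Pi.single j 1))
      simp only [Submodule.mem_iInf, LinearMap.mem_ker, toLin'_apply] at this
      rw [this, map_zero, zero_mulVec]

theorem sigma (hH : H ≤ spGL 2 F) (hP : IsResidualCore H P) {y : GL (Fin 2 ⊕ Fin 2) F} (hy : y ∈ H) :
    ∃ σ : G →* G, Function.Injective σ ∧ (∀ x : P, σ (q x) = q ⟨y * x * y⁻¹, hP.normal y hy x x.2⟩) ∧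
      ∀ g v, ψ (σ g) (ad h2 ⟨y, hH hy⟩ v) = ad h2 ⟨y, hH hy⟩ (ψ g v) := by
  let c : P →* P := ((MulAut.conj y).toMonoidHom.comp P.subtype).codRestrict P fun x => hP.normal y hy x x.2
  have k : ∀ x, q (c x) = 1 ↔ q x = 1 := fun x => by
    rw [h.ker, h.ker]
    change y * x * y⁻¹ = 1 ∨ y * x * y⁻¹ = -1 ↔ _
    rw [mul_inv_eq_iff_eq_mul, mul_inv_eq_iff_eq_mul, one_mul, neg_one_mul, mul_eq_left, ← mul_neg_one y, mul_right_inj]
  obtain ⟨σ, hσ⟩ : ∃ σ : G →* G, ∀ x, σ (q x) = q (c x) :=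
    ⟨(QuotientGroup.lift q.ker (q.comp c) fun x hx => (k x).2 hx).comp
      (QuotientGroup.quotientKerEquivOfSurjective q h.surj).symm.toMonoidHom, fun x => by
      have : (QuotientGroup.quotientKerEquivOfSurjective q h.surj).symm (q x) = x := (MulEquiv.symm_apply_eq _).2 rfl
      exact (congrArg (QuotientGroup.lift q.ker (q.comp c) fun x hx => (k x).2 hx) this).trans rfl⟩
  refine ⟨σ, (injective_iff_map_eq_one σ).2 fun g hg => ?_, hσ, fun g v => ?_⟩ <;> obtain ⟨x, rfl⟩ := h.surj g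
  · exact (k x).1 (hσ x ▸ hg)
  · refine io_inj ?_
    rw [hσ, h.io_act, io_ad, io_ad, h.io_act]
    simp [c, mul_assoc]

end Cv

/-- `g` permutes the vectors `f i` according to `π` -/
def Act (ψ : G →* Module.End F (Fin 5 → F)) (f : Fin 6 → Fin 5 → F) (g : G) (π : Equiv.Perm (Fin 6)) : Prop :=
  ∀ i, ψ g (f i) = f (π i)

section
variable {ψ : G →* Module.End F (Fin 5 → F)} {f : Fin 6 → Fin 5 → F} {g g' : G} {π π' : Equiv.Perm (Fin 6)}

theorem Act.mul (h : Act ψ f g π) (h' : Act ψ f g' π') : Act ψ f (g * g') (π * π') := fun i => by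
  rw [map_mul, Module.End.mul_apply, h', h, Equiv.Perm.mul_apply]

theorem Act.pow (h : Act ψ f g π) (n : ℕ) : Act ψ f (g ^ n) (π ^ n) := by
  induction n with
  | zero => intro i; simp
  | succ n ih => rw [pow_succ, pow_succ]; exact ih.mul h

theorem Act.eq_one (hf : Function.Injective f) (h : Act ψ f g π) (e : g = 1) : π = 1 :=
  Equiv.ext fun i => hf (by rw [← h, e, map_one]; rfl)

end

theorem perm_of {h2 : (2 : F) ≠ 0} {ψ : G →* Module.End F (Fin 5 → F)} {b₁ b₂ : G} {r : Fin 6 → G} {v : Fin 5 → F} {ν : F}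
    (h : Sx ψ (closure {b₁, b₂}) r) (hv : ∀ b ∈ closure {b₁, b₂}, ψ b v = v) (as : AS ν fun i => ψ (r i) v)
    (un : ∀ w, (∀ b ∈ closure {b₁, b₂}, ψ b w = w) → ∃ c : F, w = c • v) {y : spGL 2 F} {σ : G →* G}
    (hσ : ∀ g v, ψ (σ g) (ad h2 y v) = ad h2 y (ψ g v)) {j : Fin 6} (k1 : ψ (σ b₁) (ψ (r j) v) = ψ (r j) v)
    (k2 : ψ (σ b₂) (ψ (r j) v) = ψ (r j) v) : ∃ (c : F) (τ : Fin 6 → Fin 6), (c = 1 ∨ c = -1) ∧ Function.Injective τ ∧
      ∀ i, ad h2 y (ψ (r i) v) = c • ψ (r (τ i)) v := by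
  have c1 : ∀ u, ad h2 y (ad h2 y⁻¹ u) = u := fun u => by rw [← Module.End.mul_apply, ← map_mul, mul_inv_cancel, map_one]; rfl
  have c2 : ∀ u, ad h2 y⁻¹ (ad h2 y u) = u := fun u => by rw [← Module.End.mul_apply, ← map_mul, inv_mul_cancel, map_one]; rfl
  obtain ⟨c, hc⟩ := un (ad h2 y⁻¹ (ψ (r j) v)) fun b hb => by
    induction hb using closure_induction with
    | mem x hx => rcases hx with rfl | rfl <;> rw [← c2 (ψ _ _), ← hσ, c1] <;> simp only [k1, k2]
    | one => simp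
    | mul a b _ _ ha hb => rw [map_mul, Module.End.mul_apply, hb, ha]
    | inv a _ ha => nth_rewrite 1 [← ha]; rw [← Module.End.mul_apply, ← map_mul, inv_mul_cancel, map_one]; rfl
  have e : ∀ i, ∃ k, c • ad h2 y (ψ (r i) v) = ψ (r k) v := fun i => by
    obtain ⟨π, t⟩ := h.all (σ (r i))
    exact ⟨π j, by rw [← hσ, ← map_smul, ← map_smul, ← hc, c1, t.act hv]⟩
  choose τ hτ using e
  have nm : ∀ a b, a ≠ b → c * c * (2 * ν) = bf (ψ (r (τ a)) v - ψ (r (τ b)) v) (ψ (r (τ a)) v - ψ (r (τ b)) v) :=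
    fun a b hab => by
      rw [← hτ, ← hτ, ← smul_sub, ← map_sub, ← as.nm hab, ← bf_ad h2 y]; simp only [map_smul, LinearMap.smul_apply, smul_eq_mul]
      ring
  have n0 := mul_ne_zero as.two as.ne
  have c0 : c ≠ 0 := by
    rintro rfl
    have := congrArg (ad h2 y) hc
    rw [c1, zero_smul, map_zero] at this
    obtain ⟨g, π, t, e0, -⟩ := h.dbl (j + 1) j (by simp)
    obtain ⟨π', t'⟩ := h.all (r (j + 1) * (r j)⁻¹)
    refine (show j + 1 ≠ j by simp) (as.inj ?_)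
    rw [show r (j + 1) = r (j + 1) * (r j)⁻¹ * r j by simp, map_mul, Module.End.mul_apply, this, map_zero]
  have inj : Function.Injective τ := fun a b e => by_contra fun hab => by
    simpa [e, c0, n0] using nm a b hab
  have cc : c * c = 1 := mul_right_cancel₀ n0 (by rw [nm 0 1 (by decide), as.nm (inj.ne (by decide)), one_mul])
  exact ⟨c, τ, mul_self_eq_one_iff.1 cc, inj, fun i => by rw [← hτ, smul_smul, cc, one_smul]⟩

theorem inv_of {J : Type*} {h2 : (2 : F) ≠ 0} {g : J → Fin 5 → F} {y : spGL 2 F} {c : F} {τ : J → J} (hc : c = 1 ∨ c = -1)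
    (hτ : Function.Injective τ) (h : ∀ i, ad h2 y (g i) = c • g (τ i)) (a b : J) (hab : a ≠ b) :
    ∃ c d, c ≠ d ∧ y.1.val * io (g a - g b) * (y.1⁻¹).val = io (g c - g d) := by
  rw [← io_ad h2, map_sub, h, h]
  rcases hc with rfl | rfl
  · exact ⟨_, _, hτ.ne hab, by simp⟩
  · exact ⟨_, _, hτ.ne hab.symm, by simp [neg_add_eq_sub]⟩

theorem fix_closure {ψ : G →* Module.End F (Fin 5 → F)} {b₁ b₂ : G} {v : Fin 5 → F} (h1 : ψ b₁ v = v) (h2 : ψ b₂ v = v) :
    ∀ b ∈ closure {b₁, b₂}, ψ b v = v := fun b hb => by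
  induction hb using closure_induction with
  | mem x hx => rcases hx with rfl | rfl <;> assumption
  | one => simp
  | mul a b _ _ ha hb => rw [map_mul, Module.End.mul_apply, hb, ha]
  | inv a _ ha => nth_rewrite 1 [← ha]; rw [← Module.End.mul_apply, ← map_mul, inv_mul_cancel, map_one]; rfl

theorem AS.eq_of' {J : Type*} [DecidableEq J] {ν : F} {g : J → Fin 5 → F} (h : AS ν g) (h3 : (3 : F) ≠ 0) {i j k l : J}
    (hij : i ≠ j) (e : g k - g l = g i - g j) : k = i :=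
  (h.eq_of h3 (by rw [e]; exact h.nm hij)).1

set_option maxHeartbeats 1000000 in
theorem five (h2 : (2 : F) ≠ 0) (hH : IsMaximalIn (spGL 2 F) H) (hP : IsResidualCore H P)
    (hinv : ∀ g ∈ P, g * g = 1 → g = 1 ∨ g = -1)
    (e : (P ⧸ (scalars (Fin 2 ⊕ Fin 2) F).subgroupOf P) ≃* alternatingGroup (Fin 5)) : False := by
  have hs := hP.le.trans hH.1.le
  obtain ⟨q, ψ, h⟩ := exists_cv h2 hs e
  obtain ⟨r, m⟩ := md5
  obtain ⟨f1, f2, f3, f4, f5, f6⟩ := five_facts
  have sx := h.sx hP m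
  have gen := m.gen 0
  generalize g5 0 = s at *
  generalize g5 1 = t at *
  obtain ⟨v, v0, hv⟩ : ∃ v, v ≠ 0 ∧ ∀ b ∈ closure {s, t}, ψ b v = v := by
    obtain ⟨x, rfl⟩ := h.surj t
    have x2 : x.1 * x.1 = -1 := ((h.ker (x * x)).1 (by rw [map_mul, f3])).resolve_left fun k =>
      f4 ((h.ker x).2 (hinv _ x.2 k))
    have xi : (x.1⁻¹).val = -x.1.val := by rw [← Units.val_neg, inv_eq_of_mul_eq_one_right (by rw [mul_neg, x2, neg_neg])]
    obtain ⟨S, T, d1, d2, hS, hT⟩ := three_le h2 (y := x.1.val) (c := -1) (by simp) (by rw [sp_T (hs x.2), xi, mul_neg])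
      (by rw [← Units.val_mul, x2]; simp)
    have mT : ∀ u, u ∈ T ↔ ψ (q x) u = -u := fun u => by
      rw [hT, ← io_inj.eq_iff, h.io_act, Units.mul_inv_eq_iff_eq_mul, map_neg, neg_mul]
    let L : S →ₗ[F] T := ((ψ s - ψ s⁻¹).comp S.subtype).codRestrict T fun u => (mT _).2 (by
      have hu := h.fix_iff.2 ((hS u).1 u.2)
      have e1 : q x * s = s⁻¹ * q x := by
        rw [eq_inv_mul_iff_mul_eq, ← mul_right_inj (q x), f3, ← f5]; simp only [mul_assoc]
      have e2 : q x * s⁻¹ = s * q x := by rw [mul_inv_eq_iff_eq_mul, mul_assoc, e1, mul_inv_cancel_left]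
      change ψ (q x) (ψ s u - ψ s⁻¹ u) = -(ψ s u - ψ s⁻¹ u)
      rw [map_sub, ← Module.End.mul_apply, ← Module.End.mul_apply, ← map_mul, ← map_mul, e1, e2, map_mul, map_mul,
        Module.End.mul_apply, Module.End.mul_apply, hu, neg_sub])
    have d := L.finrank_range_add_finrank_ker
    have d' := (LinearMap.range L).finrank_le
    obtain ⟨u, hu, u0⟩ := Submodule.exists_mem_ne_zero_of_ne_bot (p := LinearMap.ker L) fun e => by
      rw [e, finrank_bot] at d; omega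
    have e1 : ψ s u = ψ s⁻¹ u := sub_eq_zero.1 (congrArg Subtype.val hu)
    have e2 : ψ (s ^ 2) u = u := by
      rw [sq, map_mul, Module.End.mul_apply, e1, ← Module.End.mul_apply, ← map_mul, mul_inv_cancel, map_one]; rfl
    refine ⟨u, fun k => u0 (Subtype.ext k), fix_closure ?_ (h.fix_iff.2 ((hS u).1 u.2))⟩
    rw [show s = s ^ 2 * (s ^ 2 * s ^ 2) by rw [← pow_add, ← pow_add, pow_succ, f1, one_mul]]
    simp only [map_mul, Module.End.mul_apply, e2]
  obtain ⟨β, h3, as, -, sp, un⟩ := sx.main hv v0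
  have ac : ∀ g, ∃ π, Act ψ (fun i => ψ (r i) v) g π := fun g => (sx.all g).imp fun π k => k.act hv
  have hm := as.tri_mem h3 hH (i := 0) (j := 1) (k := 2) (fun y hy => by
    obtain ⟨σ, s1, -, s3⟩ := h.sigma hH.1.le hP hy
    obtain ⟨π, a1⟩ := ac (σ s)
    obtain ⟨π', a2⟩ := ac (σ t)
    obtain ⟨j, hj⟩ := fix_five π ((a1.pow 5).eq_one as.inj (by rw [← map_pow, f1, map_one])) (by
      rintro rfl
      refine f2 (s1 ((h.faith fun u => ?_).trans σ.map_one.symm))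
      obtain ⟨c, rfl⟩ := sp u
      simp only [map_sum, map_smul, map_sub, show ∀ i, ψ (σ s) (ψ (r i) v) = ψ (r i) v from a1])
    have k := (((a2.mul a1).mul a2).mul a1).eq_one as.inj (by simp only [← map_mul, f5, map_one])
    have k' := (a2.mul a2).eq_one as.inj (by simp only [← map_mul, f3, map_one])
    have : π' j = j := (hj _).1 (π'.injective (by
      have e := (Equiv.congr_fun k j).trans (Equiv.congr_fun k' j).symm
      rwa [Equiv.Perm.mul_apply, (hj j).2 rfl] at e))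
    obtain ⟨c, τ, k1, k2, k3⟩ := perm_of sx hv as un s3 (j := j) ((a1 j).trans (by rw [(hj j).2 rfl]))
      ((a2 j).trans (by rw [this]))
    exact inv_of k1 k2 k3) (by decide) (by decide)
  obtain ⟨σ, s1, -, s3⟩ := h.sigma hH.1.le hP hm
  have a := (gen.act hv : Act ψ (fun i => ψ (r i) v) s (p5 0))
  obtain ⟨π, a1⟩ := ac (σ s)
  have e1 : ∀ i j, ad h2 ⟨_, hH.1.le hm⟩ (ψ (r i) v - ψ (r j) v) = ψ (r ((Equiv.swap 0 1 * Equiv.swap 1 2 : Equiv.Perm _) i)) v -
      ψ (r ((Equiv.swap 0 1 * Equiv.swap 1 2 : Equiv.Perm _) j)) v := fun i j => io_inj (by rw [io_ad]; exact as.tri_conj (by decide) (by decide) i j)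
  generalize (Equiv.swap 0 1 * Equiv.swap 1 2 : Equiv.Perm (Fin 6)) = c at *
  obtain rfl : π = c * p5 0 * c⁻¹ := Equiv.ext fun i => by
    obtain ⟨i, rfl⟩ := c.surjective i
    have e := s3 s (ψ (r i) v - ψ (r (i + 1)) v)
    rw [e1, map_sub, map_sub, a, a, a1, a1, e1] at e
    exact (as.eq_of' h3 (c.injective.ne ((p5 0).injective.ne (by simp))) e).trans (by simp)
  rcases a5_ord (σ s * s) with k | k | k
  exacts [f6 2 (by simp) (((a1.mul a).pow 2).eq_one as.inj k), f6 3 (by simp) (((a1.mul a).pow 3).eq_one as.inj k),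
    f6 5 (by simp) (((a1.mul a).pow 5).eq_one as.inj k)]

end Mt

end H97s
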