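import Mathlib
import Cfsg.Agent.Lib.Sp4R.Lam

/-!
# Short root elements force characteristic three and the field with three elements
-/

set_option autoImplicit false

namespace H97s

open Module

theorem In.cancel {A : Type*} [Ring A] {X : Subgroup Aˣ} {y h : A} (h1 : In X (y * h)) (h2 : In X h) : In X y := by
  obtain ⟨u, hu, rfl⟩ := h2
  exact (h1.mul ⟨_, X.inv_mem hu, rfl⟩).congr (Units.mul_inv_cancel_right _ _)

theorem iso3 {K : Type*} [Field K] (h2 : (2 : K) ≠ 0) (k : Subfield K) [Finite k] {a b c : K} (ha : a ∈ k) (hb : b ∈ k)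
    (hc : c ∈ k) (a0 : a ≠ 0) (b0 : b ≠ 0) : ∃ x ∈ k, ∃ y ∈ k, a * x ^ 2 + b * y ^ 2 + c = 0 := by
  classical
  let _ := Fintype.ofFinite k
  have hodd : Fintype.card k % 2 = 1 := by
    refine FiniteField.odd_card_of_char_ne_two fun e => h2 ?_
    have := ringChar.spec k 2
    rw [e] at this
    have h3 : ((2 : ℕ) : k) = 0 := this.2 dvd_rfl
    have h4 := congrArg k.subtype h3
    rwa [map_natCast, map_zero, Nat.cast_ofNat] at h4
  obtain ⟨x, y, e⟩ := FiniteField.exists_root_sum_quadratic (R := k)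
    (f := Polynomial.C ⟨a, ha⟩ * Polynomial.X ^ 2) (g := Polynomial.C ⟨b, hb⟩ * Polynomial.X ^ 2 + Polynomial.C ⟨c, hc⟩)
    (Polynomial.degree_C_mul_X_pow 2 fun e => a0 (congrArg Subtype.val e))
    (by rw [Polynomial.degree_add_C] <;> rw [Polynomial.degree_C_mul_X_pow 2 fun e => b0 (congrArg Subtype.val e)] <;> simp)
    hodd
  refine ⟨x, x.2, y, y.2, ?_⟩
  simpa [add_assoc] using congrArg (Subtype.val : k → K) e

namespace Cx

variable {K V A : Type*} [Field K] [AddCommGroup V] [Module K V] [Ring A] [Algebra K A] {D : Cx K V A}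
  {n s s' w a b c c' : V}

variable (D) in
/-- torus elements -/
def hh (n c : V) (t : K) : A := (t * (D.B c n)⁻¹) • (D.ι n * D.ι c) + (t⁻¹ * (D.B c n)⁻¹) • (D.ι c * D.ι n)

theorem step (hn : D.B n n = 0) (h : D.Lam n w) (hw : D.B w w ≠ 0) (hc : D.Rt c) (hβ : D.B c n ≠ 0) :
    ∃ k : Subfield K, Finite k ∧ (∀ y, D.Lam n (y • w) ↔ y ∈ k) ∧
      ((D.B c n ^ 2 * (D.B w w / 2) ∈ k ∧ ∀ t ∈ k, t ≠ 0 → In D.X (D.hh n c t)) ∨
        ((3 : K) = 0 ∧ (D.B c n ^ 2 * (D.B w w / 2)) ^ 2 = -1 ∧ ∀ y ∈ k, y ^ 3 = y)) := by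
  have := Fact.mk D.prime
  have := D.char
  have := D.fin
  have h2 := D.two
  have e1 : D.ι w * D.ι n = -(D.ι n * D.ι w) := anti h.1
  have e2 : D.ι c * D.ι n = D.B c n • 1 - D.ι n * D.ι c := by rw [D.swap, D.symm]
  have hN : D.ι n * D.ι w ≠ 0 := fun e => by
    have h0 : n ≠ 0 := by rintro rfl; simp at hβ
    obtain ⟨x, rfl⟩ := mem_span_of_mul h0 hn e h.1
    simp [hn] at hw
  have k0 : D.ι n * (D.ι c * D.ι n) = D.B c n • D.ι n := by nc [e2, ass (sq0 hn), sub_zero]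
  have k1 : D.ι n * (D.ι w * (D.ι c * (D.ι n * D.ι w))) = (D.B c n * (D.B w w / 2)) • D.ι n := by
    nc [e1, ass e1, e2, ass e2, ass (sq0 hn), sq0 hn, D.sq w, ass (D.sq w), D.swap c w, ass (D.swap c w), neg_zero]
    module
  have k0' : ∀ y, D.ι n * (D.ι c * (D.ι n * y)) = D.B c n • (D.ι n * y) := fun y => by
    simpa only [mul_assoc, smul_mul_assoc] using congrArg (· * y) k0
  have k1' : ∀ y, D.ι n * (D.ι w * (D.ι c * (D.ι n * (D.ι w * y)))) = (D.B c n * (D.B w w / 2)) • (D.ι n * y) :=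
    fun y => by simpa only [mul_assoc, smul_mul_assoc] using congrArg (· * y) k1
  have i1 : D.ι n * D.ι w * (D.ι c * (D.ι n * D.ι w) * D.ι c * (D.ι n * D.ι w)) =
      (D.B c n ^ 2 * (D.B w w / 2)) • (D.ι n * D.ι w) := by
    have := congrArg (· * (D.ι c * (D.ι n * D.ι w))) k1
    simp only [mul_assoc, smul_mul_assoc, k0'] at this
    simp only [mul_assoc, this]; module
  obtain ⟨-, k, hk, a1, -, a2⟩ := lemA (X := D.X) (N := D.ι n * D.ι w) (N' := D.ι c * (D.ι n * D.ι w) * D.ι c)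
    (x := D.B c n ^ 2 * (D.B w w / 2)) D.p h2 (by positivity) hN (by nc [nwn' hn h.1])
    (by nc [ass (sq1 hc.1), nwn' hn h.1]) i1
    (by simpa only [mul_assoc, smul_mul_assoc, mul_smul_comm] using congrArg (D.ι c * · * D.ι c) i1) h.2
    (((hc.2.mul h.2).mul hc.2).congr (by nc [sq1 hc.1]))
  refine ⟨k, hk, fun y => ?_, a2.imp_left fun ⟨x1, x2⟩ => ⟨x1, fun t ht t0 => (x2 t ht t0).congr ?_⟩⟩
  · rw [← a1, Lam]; simp [h.1]
  · nc [k1', k1, hh, e2]
    match_scalars <;> field_simp <;> ring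

theorem tor_smul (hn : D.B n n = 0) (hβ : D.B c n ≠ 0) {t : K} (t0 : t ≠ 0) (h1 : In D.X (D.hh n c t))
    (h2 : In D.X (D.hh n c t⁻¹)) (h : D.Lam n w) : D.Lam n (t ^ 2 • w) := by
  have e1 : D.ι w * D.ι n = -(D.ι n * D.ι w) := anti h.1
  have e2 : D.ι c * D.ι n = D.B c n • 1 - D.ι n * D.ι c := by rw [D.swap, D.symm]
  refine ⟨by simp [h.1], ((h1.mul h.2).mul h2).congr ?_⟩
  nc [hh, e1, ass e1, e2, ass e2, sq0 hn, ass (sq0 hn), D.swap c w, ass (D.swap c w), neg_zero]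
  match_scalars <;> field_simp <;> ring

theorem tor_tor (hn : D.B n n = 0) (hβ : D.B c n ≠ 0) (hβ' : D.B c' n ≠ 0) {t : K} (t0 : t ≠ 0)
    (h1 : In D.X (D.hh n c t⁻¹)) (h2 : In D.X (D.hh n c' t)) :
    D.Lam n ((1 - t⁻¹ ^ 2) • ((D.B c' n)⁻¹ • c' - (D.B c n)⁻¹ • c)) := by
  have e2 : D.ι c * D.ι n = D.B c n • 1 - D.ι n * D.ι c := by rw [D.swap, D.symm]
  have e3 : D.ι c' * D.ι n = D.B c' n • 1 - D.ι n * D.ι c' := by rw [D.swap, D.symm]
  refine ⟨by simp [D.symm n, hβ, hβ'], (h1.mul h2).congr ?_⟩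
  nc [hh, e3, ass e3, e2, ass e2, sq0 hn, ass (sq0 hn), neg_zero]
  match_scalars <;> field_simp <;> ring

theorem Lam.ksmul (hn : D.B n n = 0) (hβ : D.B c n ≠ 0) {k : Subfield K}
    (hk : ∀ t ∈ k, t ≠ 0 → In D.X (D.hh n c t)) (h : D.Lam n w) {y : K} (hy : y ∈ k) : D.Lam n (y • w) := by
  have h2 := D.two
  have sq : ∀ t ∈ k, D.Lam n (t ^ 2 • w) := fun t ht => by
    by_cases t0 : t = 0
    · simpa [t0] using Lam.zero n
    · exact tor_smul hn hβ t0 (hk t ht t0) (hk _ (k.inv_mem ht) (inv_ne_zero t0)) h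
  have m2 : (2 : K) ∈ k := ofNat_mem k 2
  refine ((sq ((y + 1) / 2) (k.div_mem (k.add_mem hy k.one_mem) m2)).sub hn
    (sq ((y - 1) / 2) (k.div_mem (k.sub_mem hy k.one_mem) m2))).congr ?_
  match_scalars; field_simp; ring

theorem Lam.anis (h0 : n ≠ 0) (hn : D.B n n = 0) (h : D.Lam n w) (hs : ∀ x : K, w ≠ x • n) : D.B w w ≠ 0 := fun e =>
  (h.sing h0 hn e).elim hs

/-- three independent short root elements with rational norms give a long root element -/
theorem iso (h0 : n ≠ 0) (hn : D.B n n = 0) (k : Subfield K) [Finite k]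
    (hk : ∀ w, D.Lam n w → ∀ y ∈ k, D.Lam n (y • w)) {γ : K} (γ0 : γ ≠ 0) (hq : ∀ w, D.Lam n w → γ * D.B w w ∈ k)
    {s₁ s₂ s₃ : V} (l1 : D.Lam n s₁) (l2 : D.Lam n s₂) (l3 : D.Lam n s₃) (i1 : ∀ x : K, s₁ ≠ x • n)
    (i2 : ∀ x y : K, s₂ ≠ x • n + y • s₁) (i3 : ∀ x y z : K, s₃ ≠ x • n + y • s₁ + z • s₂) : False := by
  have h2 := D.two
  have m2 : (2 : K) ∈ k := ofNat_mem k 2
  have hb : ∀ v w, D.Lam n v → D.Lam n w → γ * D.B v w ∈ k := fun v w hv hw => by
    convert k.div_mem (k.sub_mem (k.sub_mem (hq _ (hv.add hn hw)) (hq _ hv)) (hq _ hw)) m2 using 1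
    simp only [map_add, LinearMap.add_apply, D.symm w v]; field_simp; ring
  have orth : ∀ v w, D.Lam n v → D.Lam n w → D.B v v ≠ 0 → ∃ x : K, D.Lam n (w - x • v) ∧ D.B v (w - x • v) = 0 ∧
      x = D.B v w / D.B v v :=
    fun v w hv hw v0 => ⟨_, hw.sub hn (hk _ hv _ (by
      convert k.div_mem (hb _ _ hv hw) (hq _ hv) using 1; field_simp)), by simp [v0], rfl⟩
  have q1 := l1.anis h0 hn i1
  obtain ⟨x, l2', o12, -⟩ := orth _ _ l1 l2 q1
  have q2 := l2'.anis h0 hn fun y e => i2 y x (by rw [← e]; abel)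
  obtain ⟨y, l3', o13, -⟩ := orth _ _ l1 l3 q1
  obtain ⟨z, l3'', o23, -⟩ := orth _ _ l2' l3' q2
  have o13' : D.B s₁ (s₃ - y • s₁ - z • (s₂ - x • s₁)) = 0 := by rw [map_sub, o13, map_smul, o12]; simp
  generalize e2 : s₂ - x • s₁ = t₂ at *
  generalize e3 : s₃ - y • s₁ - z • t₂ = t₃ at *
  obtain ⟨u, hu, v, hv, e⟩ := iso3 h2 k (hq _ l1) (hq _ l2') (hq _ l3'') (mul_ne_zero γ0 q1) (mul_ne_zero γ0 q2)
  obtain ⟨m, hm⟩ := (((hk _ l1 u hu).add hn (hk _ l2' v hv)).add hn l3'').sing h0 hn (by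
    simp only [map_add, map_smul, LinearMap.add_apply, LinearMap.smul_apply, smul_eq_mul, D.symm t₂ s₁, D.symm t₃ s₁,
      D.symm t₃ t₂, o12, o13', o23]
    exact mul_left_cancel₀ γ0 (by linear_combination e))
  refine i3 m (y - u + (v - z) * x) (z - v) ?_
  rw [← hm, ← e3, ← e2]; module

theorem span_ne_top' {J : Type*} [Fintype J] (f : J → V) (h : Fintype.card J ≤ 4) (h0 : n ≠ 0) :
    ∃ c, D.Rt c ∧ c ∉ Submodule.span K (Set.range f) ∧ D.B c n ≠ 0 := by
  obtain ⟨c, hc, h1, h2⟩ := D.exists_out (D.span_ne_top f h) (ker_ne_top (D := D) h0)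
  exact ⟨c, hc, h1, fun e => h2 (by rw [D.symm] at e; exact e)⟩

theorem mem3 (a b c : V) (x y z : K) : x • a + y • b + z • c ∈ Submodule.span K (Set.range ![a, b, c]) :=
  (Submodule.mem_span_range_iff_exists_fun K).2 ⟨![x, y, z], by simp [Fin.sum_univ_succ, add_assoc]⟩

theorem mem4 (a b c d : V) (x y z w : K) :
    x • a + y • b + z • c + w • d ∈ Submodule.span K (Set.range ![a, b, c, d]) :=
  (Submodule.mem_span_range_iff_exists_fun K).2 ⟨![x, y, z, w], by simp [Fin.sum_univ_succ, add_assoc]⟩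

theorem lemK (h0 : n ≠ 0) (hn : D.B n n = 0) (h : D.Lam n s) (hs : ∀ x : K, s ≠ x • n) :
    (3 : K) = 0 ∧ ∀ y : K, D.Lam n (y • s) → y ^ 3 = y := by
  by_contra H
  have h2 := D.two
  have q1 := h.anis h0 hn hs
  obtain ⟨c, hc, -, β0⟩ := span_ne_top' (D := D) ![n] (by simp) h0
  obtain ⟨k, hk, a1, -⟩ := step hn h q1 hc β0
  obtain ⟨t, ht, t3⟩ : ∃ t ∈ k, t ^ 3 ≠ t := by
    by_cases h3 : (3 : K) = 0
    · by_contra! e
      exact H ⟨h3, fun y hy => e y ((a1 y).1 hy)⟩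
    · exact ⟨2, ofNat_mem k 2, fun e => mul_ne_zero h2 h3 (by linear_combination e)⟩
  have t0 : t ≠ 0 := by rintro rfl; simp at t3
  have tor : ∀ c, D.Rt c → D.B c n ≠ 0 → ∀ t ∈ k, t ≠ 0 → In D.X (D.hh n c t) := fun c hc β0 => by
    obtain ⟨k', -, b1, b2 | b2⟩ := step hn h q1 hc β0
    · exact fun t ht => b2.2 t ((b1 t).1 ((a1 t).2 ht))
    · exact (t3 (b2.2.2 t ((b1 t).1 ((a1 t).2 ht)))).elim
  have cl : ∀ w, D.Lam n w → ∀ y ∈ k, D.Lam n (y • w) := fun w hw y hy => hw.ksmul hn β0 (tor c hc β0) hy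
  have del : ∀ c', D.Rt c' → D.B c' n ≠ 0 → D.Lam n ((D.B c' n)⁻¹ • c' - (D.B c n)⁻¹ • c) := fun c' hc' β' => by
    have u0 : 1 - t⁻¹ ^ 2 ≠ 0 := fun e => t3 (by field_simp at e; linear_combination t * e)
    have := cl _ (tor_tor hn β0 β' t0 (tor c hc β0 _ (k.inv_mem ht) (inv_ne_zero t0)) (tor c' hc' β' t ht t0)) _
      (k.inv_mem (k.sub_mem k.one_mem (k.pow_mem (k.inv_mem ht) 2)))
    rwa [smul_smul, inv_mul_cancel₀ u0, one_smul] at this
  obtain ⟨c₂, hc₂, n₂, β₂⟩ := span_ne_top' (D := D) ![n, s, c] (by simp) h0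
  obtain ⟨c₃, hc₃, n₃, β₃⟩ := span_ne_top' (D := D) ![n, s, c, c₂] (by simp) h0
  refine iso h0 hn k cl (γ := D.B c n ^ 2 / 2) (by positivity) (fun w hw => ?_) h (del c₂ hc₂ β₂) (del c₃ hc₃ β₃) hs
    (fun x y e => n₂ ?_) fun x y z e => n₃ ?_
  · by_cases w0 : D.B w w = 0
    · simp [w0]
    obtain ⟨k', -, b1, b2 | b2⟩ := step hn hw w0 hc β0
    · convert (a1 _).1 (h.ksmul hn β0 b2.2 b2.1) using 1; ring
    · exact (t3 (b2.2.2 t ((b1 t).1 (cl w hw t ht)))).elim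
  · convert mem3 n s c (D.B c₂ n * x) (D.B c₂ n * y) (D.B c₂ n * (D.B c n)⁻¹) using 1
    refine smul_right_injective V (inv_ne_zero β₂) ?_
    simp only [sub_eq_iff_eq_add.1 e]
    match_scalars <;> field_simp
  · convert mem4 n s c c₂ (D.B c₃ n * x) (D.B c₃ n * y) (D.B c₃ n * (D.B c n)⁻¹ * (1 - z))
      (D.B c₃ n * z * (D.B c₂ n)⁻¹) using 1
    refine smul_right_injective V (inv_ne_zero β₃) ?_
    simp only [sub_eq_iff_eq_add.1 e]
    match_scalars <;> (field_simp; try ring)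

theorem two_eq (ha : D.Rt a) (hb : D.Rt b) (h : D.B a b = 2) : b = a ∨ (3 : K) = 0 := by
  obtain ⟨h1, h2, -, h4⟩ := deg_pair ha hb h
  by_cases e : b - a = 0
  · exact Or.inl (sub_eq_zero.1 e)
  · refine Or.inr (lemK e h1 h4 fun x e' => D.two ?_).1
    rw [← ha.1]; nth_rewrite 2 [e']; rw [map_smul, h2, smul_zero]

theorem deg3 (h0 : n ≠ 0) (hn : D.B n n = 0) (h : D.Lam n w) (ha : D.Rt a) (hb : D.Rt b) (h1 : D.B a n = 0)
    (h2 : D.B b n = 0) (hw : D.B a w ≠ 0) : (3 : K) = 0 ∧ (D.B a b ^ 2) ^ 3 = D.B a b ^ 2 := by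
  have l1 := h.root hn ha h1
  obtain ⟨h3, k⟩ := lemK h0 hn l1 fun x e => mul_ne_zero hw D.two (by
    rw [← ha.1, ← smul_eq_mul, ← map_smul, e, map_smul, h1, smul_zero])
  refine ⟨h3, k _ (((l1.root hn hb h2).root hn ha h1).congr ?_)⟩
  simp only [map_smul, smul_eq_mul, D.symm b a]
  module

/-- Weyl elements -/
theorem weyl (hn : D.B n n = 0) (h : D.Lam n w) (hc : D.Rt c) (hβ : D.B c n ≠ 0) {q : K} (hq : D.B w w = 2 * q)
    (hx : (D.B c n ^ 2 * q) ^ 2 = 1) {m : V} (hm : m = (D.B c n)⁻¹ • c - (D.B c n)⁻¹ ^ 2 • n) :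
    In D.X ((D.ι n + q⁻¹ • D.ι m) * D.ι (w - D.B w m • n)) := by
  have e1 : D.ι w * D.ι n = -(D.ι n * D.ι w) := anti h.1
  have e2 : D.ι c * D.ι n = D.B c n • 1 - D.ι n * D.ι c := by rw [D.swap, D.symm]
  have q0 : q ≠ 0 := by rintro rfl; simp at hx
  have l : D.Lam n ((-(D.B c n ^ 2 * q)⁻¹) • w) := by
    rcases mul_self_eq_one_iff.1 ((_root_.sq _).symm.trans hx) with e | e <;> rw [e]
    · simpa using h.neg hn
    · simpa using h
  refine ((h.2.mul ((hc.2.mul l.2).mul hc.2)).mul h.2).congr ?_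
  nc [hm, e1, ass e1, e2, ass e2, ass (sq0 hn), sq0 hn, sq' hq, ass (sq' hq), D.swap c w, ass (D.swap c w), neg_zero,
    sq1 hc.1, ass (sq1 hc.1), D.symm w n, h.1, smul_eq_mul]
  match_scalars <;> field_simp <;> ring

theorem hh_conj {R : Type*} [Ring R] [Algebra K R] (h2 : (2 : K) ≠ 0) {n m d s t : R} {q e x y : K} (q0 : q ≠ 0)
    (nn : n * n = 0) (mm : m * m = 0) (dd : d * d = e • 1) (ss : s * s = q • 1) (tt : t * t = q • 1)
    (mn : m * n = 1 - n * m) (dn : d * n = -(n * d)) (dm : d * m = (-e) • 1 - m * d) (sn : s * n = -(n * s))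
    (sm : s * m = -(m * s)) (sd : s * d = x • 1 - d * s) (tn : t * n = -(n * t)) (tm : t * m = -(m * t))
    (td : t * d = y • 1 - d * t) (ts : t * s = -(s * t)) :
    (n + q⁻¹ • (m + d)) * (s - x • n) * ((n + (-q)⁻¹ • (m + d)) * (s + t - (x + y) • n)) =
      (1 + n * ((-2 : K) • d + ((x - y) / (2 * q)) • s + ((x + y) / (2 * q)) • t)) *
        ((n + q⁻¹ • m) * s * ((n + (-q)⁻¹ • m) * (s + t))) := by
  nc [nn, ass nn, mm, ass mm, dd, ass dd, ss, ass ss, tt, ass tt, mn, ass mn, dn, ass dn, dm, ass dm, sn, ass sn, sm,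
    ass sm, sd, ass sd, tn, ass tn, tm, ass tm, td, ass td, ts, ass ts, neg_zero, neg_neg]
  match_scalars <;> (field_simp; try ring)

theorem qval (h5 : D.No5) (h0 : n ≠ 0) (hn : D.B n n = 0) (h : D.Lam n w) (hs : ∀ x : K, w ≠ x • n)
    (hc : D.Rt c) (hβ : D.B c n ≠ 0) : (D.B c n ^ 2 * (D.B w w / 2)) ^ 2 = 1 := by
  have h2 := D.two
  have q1 := h.anis h0 hn hs
  obtain ⟨h3, k3⟩ := lemK h0 hn h hs
  obtain ⟨k, -, a1, a2 | a2⟩ := step hn h q1 hc hβ
  · exact mul_left_cancel₀ (a := D.B c n ^ 2 * (D.B w w / 2)) (by positivity)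
      (by linear_combination k3 _ ((a1 _).2 a2.1))
  · exfalso
    have hc' := hc.eich hn h
    have e : D.B c (c - D.B c n • w + (D.B c w - D.B c n * (D.B w w / 2)) • n) = 2 - D.B c n ^ 2 * (D.B w w / 2) := by
      simp only [map_add, map_sub, map_smul, smul_eq_mul, hc.1]; ring
    generalize D.B c n ^ 2 * (D.B w w / 2) = x at *
    have hx := a2.2.1
    rcases h5 _ _ hc hc' (by rw [e]; linear_combination (x ^ 2 - 8 * x + 20) * hx + (-4 * x - 5) * h3) with e' | e'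
    · rw [e', hc.1] at e
      have : x = 0 := by linear_combination e
      simp [this] at hx
    · rw [e', map_neg, hc.1] at e
      have : x = 1 := by linear_combination e + h3
      exact h2 (by rw [this] at hx; linear_combination hx)

theorem lemK2' (h5 : D.No5) (h0 : n ≠ 0) (hn : D.B n n = 0) (h : D.Lam n s) (h' : D.Lam n s') (i1 : ∀ x : K, s ≠ x • n)
    (i2 : ∀ x y : K, s' ≠ x • n + y • s) (hq : D.B s' s' = D.B s s) : False := by
  have h2 := D.two
  obtain ⟨h3, k3⟩ := lemK h0 hn h i1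
  have q1 := h.anis h0 hn i1
  obtain ⟨c, hc, -, β0⟩ := span_ne_top' (D := D) ![n] (by simp) h0
  obtain ⟨c', hc', n', β'⟩ := span_ne_top' (D := D) ![n, s, s', c] (by simp) h0
  have j1 : ∀ x : K, s + s' ≠ x • n := fun x e => i2 x (-1) (by rw [← e]; module)
  have j2 : ∀ x : K, s - s' ≠ x • n := fun x e => i2 (-x) 1 (by rw [neg_smul, ← e]; module)
  have o : D.B s s' = 0 := by
    have a1 := qval h5 h0 hn (h.add hn h') j1 hc β0
    have a2 := qval h5 h0 hn (h.sub hn h') j2 hc β0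
    simp only [map_add, map_sub, LinearMap.add_apply, LinearMap.sub_apply, hq, D.symm s' s] at a1 a2
    refine mul_left_cancel₀ (a := D.B c n ^ 4 * D.B s s * 2 ^ 4) (by positivity) ?_
    field_simp at a1 a2
    linear_combination a1 - a2
  obtain ⟨q, hq1⟩ : ∃ q, D.B s s = 2 * q := ⟨D.B s s / 2, by field_simp⟩
  have q0 : q ≠ 0 := by rintro rfl; simp [hq1] at q1
  have hq2 : D.B (s + s') (s + s') = 2 * -q := by
    simp only [map_add, LinearMap.add_apply, hq, D.symm s' s, o, hq1]; linear_combination 2 * q * h3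
  have W : ∀ c, D.Rt c → D.B c n ≠ 0 → ∃ m, m = (D.B c n)⁻¹ • c - (D.B c n)⁻¹ ^ 2 • n ∧ D.B n m = 1 ∧ D.B m m = 0 ∧
      In D.X ((D.ι n + q⁻¹ • D.ι m) * D.ι (s - D.B s m • n) *
        ((D.ι n + (-q)⁻¹ • D.ι m) * D.ι (s + s' - D.B (s + s') m • n))) := fun c hc β0 => by
    have a1 := qval h5 h0 hn h i1 hc β0
    rw [hq1, mul_div_cancel_left₀ _ h2] at a1
    refine ⟨_, rfl, by simp [hn, D.symm n c, β0], ?_,
      (weyl hn h hc β0 hq1 a1 rfl).mul (weyl hn (h.add hn h') hc β0 hq2 (by linear_combination a1) rfl)⟩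
    simp only [map_sub, map_smul, LinearMap.sub_apply, LinearMap.smul_apply, smul_eq_mul, hn, hc.1, D.symm n c]
    field_simp; ring
  obtain ⟨m, hm, m1, m2, w1⟩ := W c hc β0
  obtain ⟨m', hm', m1', m2', w2⟩ := W c' hc' β'
  obtain ⟨d, rfl⟩ : ∃ d, m' = m + d := ⟨m' - m, by abel⟩
  have nd : D.B n d = 0 := by rw [map_add, m1] at m1'; linear_combination m1'
  have md : D.B m d = -(D.B d d / 2) := by
    simp only [map_add, LinearMap.add_apply, m2, D.symm d m] at m2'; field_simp; linear_combination m2'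
  obtain ⟨t, ht⟩ : ∃ t, t = s - D.B s m • n := ⟨_, rfl⟩
  obtain ⟨t', ht'⟩ : ∃ t', t' = s' - D.B s' m • n := ⟨_, rfl⟩
  have a1 : D.B n t = 0 := by simp [ht, hn, h.1]
  have a2 : D.B n t' = 0 := by simp [ht', hn, h'.1]
  have a3 : D.B m t = 0 := by simp [ht, D.symm m, m1]
  have a4 : D.B m t' = 0 := by simp [ht', D.symm m, m1]
  have a5 : D.B t t = 2 * q := by simp [ht, hn, h.1, D.symm s n, hq1]
  have a6 : D.B t' t' = 2 * q := by simp [ht', hn, h'.1, D.symm s' n, hq1, hq]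
  have a7 : D.B t t' = 0 := by simp [ht, ht', hn, h.1, h'.1, D.symm s n, o]
  have a8 : D.B d t = D.B s d := by simp [ht, D.symm d, nd]
  have a9 : D.B d t' = D.B s' d := by simp [ht', D.symm d, nd]
  have E := hh_conj h2 q0 (sq0 hn) (sq0 m2) (D.sq d) (sq' a5) (sq' a6) (by rw [D.swap m, m1, one_smul]) (anti nd)
    (by rw [D.swap d, md]) (anti a1) (anti a3) (D.swap t d) (anti a2) (anti a4) (D.swap t' d) (anti a7)
  rw [show s - D.B s (m + d) • n = t - D.B d t • n by rw [a8, ht, map_add]; module,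
    show s + s' - D.B (s + s') (m + d) • n = t + t' - (D.B d t + D.B d t') • n by
      rw [a8, a9]; simp only [ht, ht', map_add, LinearMap.add_apply]; module] at w2
  rw [← ht, show s + s' - D.B (s + s') m • n = t + t' by
    simp only [ht, ht', map_add, LinearMap.add_apply]; module] at w1
  simp only [map_add, map_sub, map_smul] at w1 w2
  rw [E] at w2
  generalize (D.B d t - D.B d t') / (2 * q) = x at w2
  generalize (D.B d t + D.B d t') / (2 * q) = y at w2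
  have l3 : D.Lam n ((-2 : K) • d + x • t + y • t') :=
    ⟨by simp [nd, a1, a2], by simpa only [map_add, map_smul] using w2.cancel w1⟩
  obtain ⟨k, hk, b1, -⟩ := step hn h q1 hc β0
  refine iso h0 hn k (fun w hw y hy => ?_) (γ := D.B c n ^ 2 / 2) (by positivity) (fun w hw => ?_) h h' l3 i1 i2
    fun u v z e => n' ?_
  · have := k3 y ((b1 y).2 hy)
    rcases mul_eq_zero.1 (show y * ((y - 1) * (y + 1)) = 0 by linear_combination this) with e | e
    · simpa [e] using Lam.zero n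
    rcases mul_eq_zero.1 e with e | e
    · simpa [sub_eq_zero.1 e] using hw
    · simpa [eq_neg_of_add_eq_zero_left e] using hw.neg hn
  · by_cases e : ∀ x : K, w ≠ x • n
    · rw [show D.B c n ^ 2 / 2 * D.B w w = D.B c n ^ 2 * (D.B w w / 2) by ring]
      rcases mul_self_eq_one_iff.1 ((_root_.sq _).symm.trans (qval h5 h0 hn hw e hc β0)) with e | e <;> rw [e]
      · exact k.one_mem
      · exact k.neg_mem k.one_mem
    · push Not at e
      obtain ⟨x, rfl⟩ := e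
      simp [hn]
  · have e1 : d = (-2 : K)⁻¹ • (u • n + v • s + z • s' - x • t - y • t') := by
      rw [← e]; match_scalars <;> field_simp <;> ring
    have e2 : c' = D.B c' n • (m + d + (D.B c' n)⁻¹ ^ 2 • n) := by
      rw [hm']; match_scalars <;> field_simp <;> ring
    have k1 : n ∈ Submodule.span K (Set.range ![n, s, s', c]) := Submodule.subset_span ⟨0, rfl⟩
    have k2 : s ∈ Submodule.span K (Set.range ![n, s, s', c]) := Submodule.subset_span ⟨1, rfl⟩
    have k3 : s' ∈ Submodule.span K (Set.range ![n, s, s', c]) := Submodule.subset_span ⟨2, rfl⟩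
    have k4 : c ∈ Submodule.span K (Set.range ![n, s, s', c]) := Submodule.subset_span ⟨3, rfl⟩
    generalize Submodule.span K (Set.range ![n, s, s', c]) = S at *
    rw [e2, e1, hm, ht, ht']
    repeat' first | assumption | apply S.smul_mem | apply S.add_mem | apply S.sub_mem

theorem lemK2 (h5 : D.No5) (hn : D.B n n = 0) (h : D.Lam n s) (h' : D.Lam n s')
    (hi : LinearIndependent K ![n, s, s']) : False := by
  have h2 := D.two
  have li : ∀ x y z : K, x • n + y • s + z • s' = 0 → x = 0 ∧ y = 0 ∧ z = 0 := fun x y z e => by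
    have := Fintype.linearIndependent_iff.1 hi ![x, y, z] (by simpa [Fin.sum_univ_succ, add_assoc] using e)
    exact ⟨this 0, this 1, this 2⟩
  have h0 : n ≠ 0 := fun e => one_ne_zero (li 1 0 0 (by simp [e])).1
  have i1 : ∀ x : K, s ≠ x • n := fun x e => one_ne_zero (li (-x) 1 0 (by rw [e]; module)).2.1
  have i2 : ∀ x y : K, s' ≠ x • n + y • s := fun x y e => one_ne_zero (li (-x) (-y) 1 (by rw [e]; module)).2.2
  obtain ⟨c, hc, -, β0⟩ := span_ne_top' (D := D) ![n] (by simp) h0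
  have a1 := qval h5 h0 hn h i1 hc β0
  have a2 := qval h5 h0 hn h' (fun x e => i2 x 0 (by simp [e])) hc β0
  have a3 := qval h5 h0 hn (h.add hn h') (fun x e => i2 x (-1) (by rw [← e]; module)) hc β0
  have can : ∀ x y : K, (D.B c n ^ 2 * (x / 2)) ^ 2 = 1 → (D.B c n ^ 2 * (y / 2)) ^ 2 = 1 → x = y ∨ x = -y :=
    fun x y e e' => sq_eq_sq_iff_eq_or_eq_neg.1 (mul_left_cancel₀ (a := D.B c n ^ 4) (by positivity) (by
      field_simp at e e'; linear_combination e - e'))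
  rcases can _ _ a2 a1 with e | e
  · exact lemK2' h5 h0 hn h h' i1 i2 e
  rcases can _ _ a3 a1 with e' | e'
  · exact lemK2' h5 h0 hn h (h.add hn h') i1 (fun x y e => i2 x (y - 1) (by rw [sub_smul, ← add_sub_assoc, ← e]; module)) e'
  · refine lemK2' h5 h0 hn h (h.sub hn h') i1 (fun x y e => i2 (-x) (1 - y) (by
      rw [show s' = s - (s - s') by abel, e]; module)) ?_
    simp only [map_add, map_sub, LinearMap.add_apply, LinearMap.sub_apply, D.symm s' s] at e' ⊢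
    linear_combination 2 * e - e'

end Cx

end H97s
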