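import Mathlib
import Cfsg.Agent.Lib.Sp4R.Wild

/-!
# Tools for the root system analysis: minus one is a product of reflections, degenerate pairs
-/

set_option autoImplicit false

namespace H97s.Sys

open Cx

variable {K V A : Type*} [Field K] [AddCommGroup V] [Module K V] [Ring A] [Algebra K A] {D : Cx K V A}

theorem r_add (a b c : V) : D.r a (b + c) = D.r a b + D.r a c := by
  simp only [r, map_add]; module

theorem r_smul (a : V) (x : K) (b : V) : D.r a (x • b) = x • D.r a b := by
  simp only [r, map_smul, smul_eq_mul]; module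

theorem r_neg (a b : V) : D.r a (-b) = -D.r a b := by
  simp only [r, map_neg]; module

theorem B_r' (a b c : V) : D.B c (D.r a b) = D.B c b - D.B a b * D.B c a := by
  simp only [r, map_sub, map_smul, smul_eq_mul]

/-- a reflection as a permutation -/
def rp {a : V} (h : D.B a a = 2) : Equiv.Perm V := ⟨D.r a, D.r a, r_r h, r_r h⟩

variable (D) in
/-- the group generated by the reflections in roots -/
def W : Subgroup (Equiv.Perm V) := Subgroup.closure {w | ∃ a, ∃ h : D.Rt a, w = rp h.1}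

theorem W_ind {p : Equiv.Perm V → Prop} (h1 : p 1) (h : ∀ a (h : D.Rt a) w, p w → p (rp h.1 * w)) {w : Equiv.Perm V}
    (hw : w ∈ W D) : p w := by
  induction hw using Subgroup.closure_induction_left with
  | one => exact h1
  | mul_left x hx y _ ih => obtain ⟨a, ha, rfl⟩ := hx; exact h a ha y ih
  | inv_mul_cancel x hx y _ ih => obtain ⟨a, ha, rfl⟩ := hx; exact h a ha y ih

theorem W_neg {w : Equiv.Perm V} (hw : w ∈ W D) : ∀ v, w (-v) = -w v := by
  refine W_ind (p := fun w => ∀ v, w (-v) = -w v) (fun _ => rfl) (fun a ha w ih v => ?_) hw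
  change D.r a (w (-v)) = -D.r a (w v)
  rw [ih, r_neg]

variable (D) in
/-- units acting on the vectors as `s w` -/
def Act (g : Aˣ) (s : K) (w : Equiv.Perm V) : Prop := ∀ v, (g : A) * D.ι v * (g⁻¹ : Aˣ) = s • D.ι (w v)

theorem Act.mul {g h : Aˣ} {s t : K} {w u : Equiv.Perm V} (a : Act D g s w) (b : Act D h t u) :
    Act D (g * h) (s * t) (w * u) := fun v => by
  have : ((g * h : Aˣ) : A) * D.ι v * ((g * h)⁻¹ : Aˣ) = g * (h * D.ι v * (h⁻¹ : Aˣ)) * (g⁻¹ : Aˣ) := by
    simp [mul_assoc]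
  rw [this, b, mul_smul_comm, smul_mul_assoc, a, smul_smul, mul_comm t]; rfl

theorem Act.inv {g : Aˣ} {s : K} {w : Equiv.Perm V} (a : Act D g s w) (hs : s * s = 1) : Act D g⁻¹ s w⁻¹ := fun v => by
  have := a (w⁻¹ v)
  rw [Equiv.Perm.coe_inv, Equiv.apply_symm_apply] at this
  have e : D.ι v = s • ((g : A) * D.ι (w.symm v) * (g⁻¹ : Aˣ)) := by rw [this, smul_smul, hs, one_smul]
  rw [e]
  simp [mul_assoc]

variable (D) in
/-- units acting through the reflection group, with signs in `S` -/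
def Y (S : Submonoid K) (hS : ∀ s ∈ S, s * s = 1) : Subgroup Aˣ where
  carrier := {g | ∃ s ∈ S, ∃ w ∈ W D, Act D g s w}
  one_mem' := ⟨1, S.one_mem, 1, one_mem _, fun v => by simp⟩
  mul_mem' := by
    rintro a b ⟨s, hs, w, hw, h⟩ ⟨t, ht, u, hu, k⟩
    exact ⟨_, S.mul_mem hs ht, _, mul_mem hw hu, h.mul k⟩
  inv_mem' := by
    rintro a ⟨s, hs, w, hw, h⟩
    exact ⟨s, hs, _, inv_mem hw, h.inv (hS s hs)⟩

theorem act_un {a : V} (h : D.B a a = 2) : Act D (un h) (-1) (rp h) := fun v => by
  change D.ι a * D.ι v * D.ι a = (-1 : K) • D.ι (D.r a v)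
  rw [r_eq h]; simp [mul_assoc]

/-- minus one is a product of reflections -/
theorem neg_mem : ∃ w ∈ W D, ∀ v, w v = -v := by
  let S : Submonoid K := ⟨⟨{s | s * s = 1}, fun {a b} ha hb => by
    change a * a = 1 at ha; change b * b = 1 at hb
    change a * b * (a * b) = 1
    linear_combination (b * b) * ha + hb⟩, by simp⟩
  have m : ∀ S hS, -1 ∈ Y D S hS := fun S hS => ⟨1, S.one_mem, 1, one_mem _, fun v => by simp⟩
  have h1 : D.X ≤ Y D S (fun _ h => h) := le_of_roots (m _ _) fun a ha =>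
    ⟨-1, show (-1 : K) * -1 = 1 by ring, _, Subgroup.subset_closure ⟨a, ha, rfl⟩, act_un ha.1⟩
  have h2 : D.X ≤ Y D ⊥ (fun s h => by rw [Submonoid.mem_bot.1 h, one_mul]) := D.perf _ (m _ _) fun g hg h hh => by
    obtain ⟨s, hs, w, hw, a⟩ := h1 hg
    obtain ⟨t, ht, u, hu, b⟩ := h1 hh
    refine ⟨_, ?_, _, mul_mem (mul_mem (mul_mem hw hu) (inv_mem hw)) (inv_mem hu),
      ((a.mul b).mul (a.inv hs)).mul (b.inv ht)⟩
    change s * s = 1 at hs; change t * t = 1 at ht
    rw [Submonoid.mem_bot]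
    linear_combination (t * t) * hs + ht
  obtain ⟨a, ha⟩ := D.ex
  have ha : D.Rt a := ha
  obtain ⟨s, hs, w, hw, h⟩ := h2 ha.un_mem
  rw [Submonoid.mem_bot.1 hs] at h
  refine ⟨w * rp ha.1, mul_mem hw (Subgroup.subset_closure ⟨a, ha, rfl⟩), fun v => inj (D := D) ?_⟩
  have e1 := h (D.r a v)
  rw [act_un ha.1] at e1
  change (-1 : K) • D.ι (D.r a (D.r a v)) = _ at e1
  rw [r_r ha.1] at e1
  change D.ι (w (D.r a v)) = _
  rw [map_neg, ← one_smul K (D.ι (w _)), ← e1]; simp

/-- reflection invariant relations are symmetric -/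
theorem neg_end (Z : V → V → Prop) (hZ : ∀ a, D.Rt a → ∀ u v, Z u v → Z (D.r a u) (D.r a v)) {u v : V} (h : Z u v) :
    Z (-u) (-v) := by
  obtain ⟨w, hw, e⟩ := neg_mem (D := D)
  rw [← e, ← e]
  exact W_ind (p := fun w => Z (w u) (w v)) h (fun a ha w ih => hZ a ha _ _ ih) hw

theorem finite_rt : {a | D.Rt a}.Finite := by
  have := D.fin
  exact ((finite_in (X := D.X)).preimage (inj (D := D)).injOn).subset fun a h => h.2

theorem exists_rt {w : V} (h : w ≠ 0) : ∃ a, D.Rt a ∧ D.B w a ≠ 0 := by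
  by_contra! k
  exact h (irr (Z := {a | D.Rt a}) (fun a h => h) D.ex (fun a ha z hz => ha.r hz) k)

/-- a root orthogonal to the radical of a degenerate pair -/
theorem tri {a b c : V} (h3 : (3 : K) = 0) (ha : D.Rt a) (hb : D.Rt b) (hab : D.B a b = 2) (hne : b ≠ a) (hc : D.Rt c)
    (h1 : D.B c (b - a) = 0) (h2 : D.B c a = 1) : ∃ x : K, a + c = x • (b - a) := by
  obtain ⟨n1, -, -, n4⟩ := deg_pair ha hb hab
  have := n4.root n1 hc h1
  rw [h2, one_smul] at this
  refine (n4.add n1 this).sing (sub_ne_zero.2 hne) n1 ?_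
  simp only [map_add, LinearMap.add_apply, ha.1, hc.1, h2, D.symm a c]
  linear_combination 2 * h3

/-- the complement of four orthogonal non-singular vectors is anisotropic -/
theorem perp4 (e : Fin 4 → V) (he : ∀ i j, i ≠ j → D.B (e i) (e j) = 0) (he' : ∀ i, D.B (e i) (e i) ≠ 0) {w : V}
    (hw : ∀ i, D.B (e i) w = 0) (h0 : D.B w w = 0) : w = 0 := by
  by_contra h
  have := D.fd
  have li : LinearIndependent K (Fin.cons w e : Fin 5 → V) := by
    rw [Fintype.linearIndependent_iff]
    intro g hg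
    have k : ∀ i : Fin 4, g i.succ = 0 := fun i => by
      have := congrArg (D.B (e i)) hg
      rw [Fin.sum_univ_succ] at this
      simp only [Fin.cons_zero, Fin.cons_succ, map_add, map_smul, map_sum, hw, smul_eq_mul, mul_zero, zero_add,
        map_zero] at this
      rw [Finset.sum_eq_single i (fun j _ hj => by rw [he i j hj.symm, mul_zero]) (by simp)] at this
      exact (mul_eq_zero.1 this).resolve_right (he' i)
    rw [Fin.sum_univ_succ] at hg
    simp only [k, zero_smul, Finset.sum_const_zero, add_zero, Fin.cons_zero] at hg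
    exact Fin.cases ((smul_eq_zero.1 hg).resolve_right h) k
  have sp := li.span_eq_top_of_card_eq_finrank' (by simp [D.dim])
  refine ker_ne_top (D := D) h (eq_top_iff.2 (sp ▸ Submodule.span_le.2 ?_))
  rintro _ ⟨i, rfl⟩
  refine Fin.cases h0 (fun i => ?_) i
  change D.B w (e i) = 0
  rw [D.symm, hw]

/-- five orthogonal non-singular vectors form a basis -/
theorem perp5 (e : Fin 5 → V) (he : ∀ i j, i ≠ j → D.B (e i) (e j) = 0) (he' : ∀ i, D.B (e i) (e i) ≠ 0) {w : V}
    (hw : ∀ i, D.B (e i) w = 0) : w = 0 := by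
  have := D.fd
  have li : LinearIndependent K e := by
    rw [Fintype.linearIndependent_iff]
    intro g hg i
    have := congrArg (D.B (e i)) hg
    simp only [map_smul, map_sum, smul_eq_mul, map_zero] at this
    rw [Finset.sum_eq_single i (fun j _ hj => by rw [he i j hj.symm, mul_zero]) (by simp)] at this
    exact (mul_eq_zero.1 this).resolve_right (he' i)
  have sp := li.span_eq_top_of_card_eq_finrank' (by simp [D.dim])
  by_contra h
  refine ker_ne_top (D := D) h (eq_top_iff.2 (sp ▸ Submodule.span_le.2 ?_))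
  rintro _ ⟨i, rfl⟩
  change D.B w (e i) = 0
  rw [D.symm, hw]

end H97s.Sys
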