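import Mathlib
import Cfsg.Agent.Lib.Sp4R.SysN

/-!
# Simply laced systems containing `D₄`
-/

set_option autoImplicit false

namespace H97s.Sys

open Cx

variable {K V A : Type*} [Field K] [AddCommGroup V] [Module K V] [Ring A] [Algebra K A] {D : Cx K V A}

variable (D) in
/-- the simply laced hypothesis -/
def SL : Prop := ∀ a b, D.Rt a → D.Rt b → b = a ∨ b = -a ∨ D.B a b = 0 ∨ D.B a b ^ 2 = 1

variable (D) in
/-- an orthonormal frame whose sums and differences are roots -/
structure Fr {J : Type*} (e : J → V) : Prop where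
  o1 : ∀ i, D.B (e i) (e i) = 1
  o0 : ∀ i j, i ≠ j → D.B (e i) (e j) = 0
  rt : ∀ i j, i ≠ j → ∀ x y : K, x ^ 2 = 1 → y ^ 2 = 1 → D.Rt (x • e i + y • e j)

theorem Fr.of {J : Type*} {e : J → V} (o1 : ∀ i, D.B (e i) (e i) = 1) (o0 : ∀ i j, i ≠ j → D.B (e i) (e j) = 0)
    {i0 i1 : J} (h01 : i1 ≠ i0) (hp : D.Rt (e i0 + e i1)) (hm : ∀ i, i ≠ i0 → D.Rt (e i0 - e i)) : Fr D e := by
  have m : ∀ i j, i ≠ j → D.Rt (e i - e j) := fun i j h => by
    by_cases hi : i = i0
    · exact hi ▸ hm j (hi ▸ h.symm)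
    by_cases hj : j = i0
    · exact (hm i hi).neg.congr (by rw [hj]; abel)
    exact (hm i hi).of (hm j hj) (t := 1) (by simp [o1, o0 _ _ h, o0 _ _ hi, o0 _ _ (Ne.symm hj)]) (by module)
  have p0 : ∀ j, j ≠ i0 → D.Rt (e i0 + e j) := fun j hj => by
    by_cases h1 : j = i1
    · exact h1 ▸ hp
    exact (m i1 j (Ne.symm h1)).of hp (t := 1) (by simp [o1, o0 _ _ h01, o0 _ _ hj, o0 _ _ h1]) (by module)
  have p : ∀ i j, i ≠ j → D.Rt (e i + e j) := fun i j h => by
    by_cases hi : i = i0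
    · exact hi ▸ p0 j (hi ▸ h.symm)
    by_cases hj : j = i0
    · exact (p0 i hi).congr (by rw [hj]; abel)
    exact (hm i hi).of (p0 j hj) (t := 1) (by simp [o1, o0 _ _ h, o0 _ _ hi, o0 _ _ (Ne.symm hj)]) (by module)
  refine ⟨o1, o0, fun i j h x y hx hy => ?_⟩
  rcases sq_eq_one_iff.1 hx with rfl | rfl <;> rcases sq_eq_one_iff.1 hy with rfl | rfl
  exacts [(p i j h).congr (by module), (m i j h).congr (by module), (m i j h).neg.congr (by module),
    (p i j h).neg.congr (by module)]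

variable {J : Type*} {e : J → V} {c : V}

/-- `c` is not one of the roots of the frame -/
def Off (e : J → V) (c : V) : Prop := ∀ i j, i ≠ j → ∀ x y : K, x ^ 2 = 1 → y ^ 2 = 1 → c ≠ x • e i + y • e j

theorem Fr.val (h : SL D) (F : Fr D e) (hc : D.Rt c) (ho : Off (K := K) e c) {i j : J} (hij : i ≠ j) {y : K}
    (hy : y ^ 2 = 1) : D.B (e i) c + y * D.B (e j) c = 0 ∨ (D.B (e i) c + y * D.B (e j) c) ^ 2 = 1 := by
  rcases h _ _ (F.rt i j hij 1 y (by ring) hy) hc with k | k | k
  · exact absurd k (ho i j hij 1 y (by ring) hy)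
  · exact absurd (k.trans (by module)) (ho i j hij (-1) (-y) (by ring) (by rw [← hy]; ring))
  · simpa using k

theorem Fr.half (h : SL D) (F : Fr D e) (hc : D.Rt c) (ho : Off (K := K) e c) {i j : J} (hij : i ≠ j)
    (hi : D.B (e i) c ≠ 0) (hj : D.B (e j) c ≠ 0) : 4 * D.B (e i) c ^ 2 = 1 := by
  have h2 := D.two
  rcases F.val h hc ho hij (y := 1) (by ring) with k | k <;> rcases F.val h hc ho hij (y := -1) (by ring) with l | l
  · exact absurd (show 2 * D.B (e i) c = 0 by linear_combination k + l) (mul_ne_zero h2 hi)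
  · linear_combination l + (3 * D.B (e i) c - D.B (e j) c) * k
  · linear_combination k + (3 * D.B (e i) c + D.B (e j) c) * l
  · exact absurd (show 2 * 2 * D.B (e i) c * D.B (e j) c = 0 by linear_combination k - l)
      (mul_ne_zero (mul_ne_zero (mul_ne_zero h2 h2) hi) hj)

theorem Fr.one (h : SL D) (F : Fr D e) (hc : D.Rt c) (ho : Off (K := K) e c) {i j : J} (hij : i ≠ j)
    (hi : D.B (e i) c ≠ 0) (hj : D.B (e j) c = 0) : D.B (e i) c ^ 2 = 1 := by
  have := F.val h hc ho hij (y := 1) (by ring)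
  rw [hj, mul_zero, add_zero] at this
  exact this.resolve_left hi

theorem Fr.third (h : SL D) (F : Fr D e) (hc : D.Rt c) (ho : Off (K := K) e c) {i j k : J} (hij : i ≠ j) (hik : i ≠ k)
    (hjk : j ≠ k) (hi : D.B (e i) c ≠ 0) (hj : D.B (e j) c ≠ 0) : D.B (e k) c ≠ 0 := fun hk => by
  have a1 := F.one h hc ho hik hi hk
  have a2 := F.one h hc ho hjk hj hk
  have h3 : (3 : K) = 0 := by linear_combination F.half h hc ho hij hi hj - 4 * a1
  set x := D.B (e i) c with hx
  set y := D.B (e j) c with hy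
  have z := F.o0
  obtain ⟨t, ht⟩ := tri h3 (F.rt i j hij x y a1 a2) (F.rt j k hjk (-y) (-1) (by rw [← a2]; ring) (by ring))
    (by simp [F.o1, z _ _ hik, z _ _ hij, z _ _ hjk]; linear_combination -a2 - h3)
    (fun l => by simpa [F.o1, z _ _ hik.symm, z _ _ hjk.symm] using congrArg (D.B (e k)) l) hc.neg
    (by simp [D.symm c, ← hx, ← hy, hk]; linear_combination a1 - a2 + y ^ 2 * h3)
    (by simp [D.symm c, ← hx, ← hy]; linear_combination -a1 - a2 - h3)
  have : t = 0 := by simpa [F.o1, z _ _ hik.symm, z _ _ hjk.symm, hk] using congrArg (D.B (e k)) ht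
  rw [this, zero_smul, add_neg_eq_zero] at ht
  exact ho i j hij x y a1 a2 ht.symm

/-- the three possible positions of a root with respect to a frame -/
theorem Fr.cases (h : SL D) (F : Fr D e) (hc : D.Rt c) (ho : Off (K := K) e c) [Nontrivial J] {i : J}
    (hi : D.B (e i) c ≠ 0) : (D.B (e i) c ^ 2 = 1 ∧ ∀ j, j ≠ i → D.B (e j) c = 0) ∨ ∀ j, 4 * D.B (e j) c ^ 2 = 1 := by
  by_cases k : ∀ j, j ≠ i → D.B (e j) c = 0
  · obtain ⟨j, hj⟩ := exists_ne i
    exact Or.inl ⟨F.one h hc ho hj.symm hi (k j hj), k⟩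
  push Not at k
  obtain ⟨j, hj, hj'⟩ := k
  refine Or.inr fun l => ?_
  by_cases h1 : l = i
  · exact h1 ▸ F.half h hc ho hj.symm hi hj'
  by_cases h2 : l = j
  · exact h2 ▸ F.half h hc ho hj hj' hi
  exact F.half h hc ho h1 (F.third h hc ho hj.symm (Ne.symm h1) (Ne.symm h2) hi hj') hi

theorem prod_two {f g : Fin 5 → K} {i j : Fin 5} (hij : i ≠ j) (h1 : f i * f j = g i * g j)
    (h2 : ∀ k, k ≠ i → k ≠ j → f k = g k) : ∏ k, f k = ∏ k, g k := by
  have k : ∀ f : Fin 5 → K, ∏ k, f k = f i * f j * ∏ k ∈ (Finset.univ.erase i).erase j, f k := fun f => by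
    rw [← Finset.mul_prod_erase _ _ (Finset.mem_univ i), ← Finset.mul_prod_erase _ _ (a := j) (by simp [hij.symm]),
      mul_assoc]
  rw [k f, k g, h1, Finset.prod_congr rfl fun k hk => ?_]
  simp only [Finset.mem_erase] at hk
  exact h2 k hk.2.1 hk.1

theorem Fr.five (h : SL D) {e : Fin 5 → V} (F : Fr D e) : False := by
  have h2 := D.two
  have z := F.o0
  have pp : ∀ w, (∀ i, D.B (e i) w = 0) → w = 0 := fun w => perp5 e z fun i => by rw [F.o1]; exact one_ne_zero
  have all : ∀ c, D.Rt c → ¬ Off (K := K) e c := fun c hc ho => by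
    obtain ⟨i, hi⟩ : ∃ i, D.B (e i) c ≠ 0 := by
      by_contra! k
      exact hc.ne_zero (pp c k)
    have ec : c = ∑ j, D.B (e j) c • e j := sub_eq_zero.1 (pp _ fun k => by
      simp only [map_sub, map_sum, map_smul, smul_eq_mul]
      rw [Finset.sum_eq_single k (fun j _ hj => by rw [z k j hj.symm, mul_zero]) (by simp), F.o1]; ring)
    have nc : 2 = ∑ j, D.B (e j) c ^ 2 := by
      rw [← hc.1]; nth_rewrite 1 [ec]; simp [pow_two]
    rcases F.cases h hc ho hi with ⟨k1, k2⟩ | k
    · rw [Finset.sum_eq_single i (fun j _ hj => by rw [k2 j hj]; ring) (by simp), k1] at nc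
      exact one_ne_zero (α := K) (by linear_combination nc)
    have h3 : (3 : K) = 0 := by
      rw [Fin.sum_univ_five] at nc
      linear_combination 4 * nc + k 0 + k 1 + k 2 + k 3 + k 4
    have s : ∀ j, D.B (e j) c ^ 2 = 1 := fun j => by linear_combination k j - D.B (e j) c ^ 2 * h3
    obtain ⟨u, hu⟩ : ∃ u : Fin 5 → V, ∀ j, u j = D.B (e j) c • e j := ⟨_, fun _ => rfl⟩
    have u1 : ∀ j, D.B (u j) (u j) = 1 := fun j => by simp [hu, F.o1, ← pow_two, s]
    have u0 : ∀ i j, i ≠ j → D.B (u i) (u j) = 0 := fun i j h => by simp [hu, z i j h]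
    have ur : ∀ i j, i ≠ j → ∀ y : K, y ^ 2 = 1 → D.Rt (u i + y • u j) := fun i j h y hy =>
      (F.rt i j h _ (y * D.B (e j) c) (s i) (by rw [mul_pow, hy, s, one_mul])).congr (by simp [hu, smul_smul])
    simp only [← hu, Fin.sum_univ_five] at ec
    have c1 : D.Rt (u 0 + u 1 + u 2 + u 3 - u 4) :=
      ((ur 2 3 (by decide) 1 (by ring)).of ((ur 0 1 (by decide) 1 (by ring)).of hc (t := 2) (c := c - 2 • (u 0 + u 1))
        (by simp [ec, u1, u0]; norm_num) (by module)) (t := 2) (by simp [ec, u1, u0]; norm_num) rfl).neg.congr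
        (by rw [ec]; module)
    obtain ⟨n1, -, -, l1⟩ := deg_pair (ur 0 1 (by decide) (-1) (by ring)) ((ur 0 2 (by decide) (-1) (by ring)).neg)
      (by simp [u1, u0]; linear_combination -h3)
    obtain ⟨-, -, -, l2⟩ := deg_pair (ur 3 4 (by decide) 1 (by ring)) hc (by simp [ec, u1, u0]; norm_num)
    obtain ⟨-, -, -, l3⟩ := deg_pair (ur 3 4 (by decide) (-1) (by ring)) c1 (by simp [u1, u0]; norm_num)
    have e1 : -(u 0 + (-1 : K) • u 2) - (u 0 + (-1 : K) • u 1) = u 0 + u 1 + u 2 := by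
      have : (3 : K) • u 0 = 0 := by rw [h3, zero_smul]
      rw [← sub_eq_zero, ← neg_eq_zero, ← this]; module
    rw [e1] at n1 l1
    rw [show c - (u 3 + (1 : K) • u 4) = u 0 + u 1 + u 2 by rw [ec]; module] at l2
    rw [show u 0 + u 1 + u 2 + u 3 - u 4 - (u 3 + (-1 : K) • u 4) = u 0 + u 1 + u 2 by module] at l3
    obtain ⟨x, hx⟩ := ((l1.add n1 l2).add n1 l3).sing (fun k => by simpa [u1, u0] using congrArg (D.B (u 0)) k) n1
      (by simp [u1, u0]; linear_combination 2 * h3)
    have a0 := congrArg (D.B (u 0)) hx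
    have a2 := congrArg (D.B (u 2)) hx
    simp [u1, u0] at a0 a2
    exact one_ne_zero (a0.trans a2.symm)
  have := neg_end (D := D) (fun u _ => ∏ k, D.B (e k) u = 1) (fun a ha u _ hu => ?_) (u := ∑ j, e j) (v := 0) ?_
  · simp [Fin.prod_univ_five, Fin.sum_univ_five, F.o1, z] at this
    exact h2 (by linear_combination -this)
  · have := all a ha
    simp only [Off, not_forall, not_not] at this
    obtain ⟨i, j, hij, x, y, hx, hy, rfl⟩ := this
    rw [← hu]
    refine prod_two hij ?_ fun k h1 h2 => by simp [B_r', z _ _ h1, z _ _ h2]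
    simp only [B_r', map_add, map_smul, LinearMap.add_apply, LinearMap.smul_apply, smul_eq_mul, F.o1, z _ _ hij,
      z _ _ hij.symm]
    linear_combination (D.B (e i) u * D.B (e j) u * (2 * y ^ 2 - 1) + x * y * D.B (e i) u ^ 2) * hx +
      (D.B (e i) u * D.B (e j) u + x * y * D.B (e j) u ^ 2) * hy
  · simp [Fin.prod_univ_five, Fin.sum_univ_five, F.o1, z]

theorem Fr.ext {e : Fin 4 → V} (F : Fr D e) (hc : D.Rt c) (h1 : D.B (e 0) c ^ 2 = 1) (h0 : ∀ j, j ≠ 0 → D.B (e j) c = 0) :
    ∃ e : Fin 5 → V, Fr D e := by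
  have z := F.o0
  set y := D.B (e 0) c with hy
  have p : ∀ j, D.B (e j) (c - y • e 0) = 0 := fun j => by
    by_cases hj : j = 0
    · simp [hj, F.o1, ← hy]
    · simp [h0 j hj, z _ _ hj]
  have p' : ∀ j, D.B (c - y • e 0) (e j) = 0 := fun j => by rw [D.symm, p]
  have n : D.B (c - y • e 0) (c - y • e 0) = 1 := by
    simp [hc.1, F.o1, D.symm c, ← hy]; linear_combination -h1
  refine ⟨![y • e 0, c - y • e 0, e 1, e 2, e 3], Fr.of (i0 := 0) (i1 := 1) ?_ ?_ (by decide) (hc.congr (by simp)) ?_⟩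
  · intro i
    fin_cases i <;> simp only [n, F.o1, Fin.reduceFinMk, Matrix.cons_val]
    simp [F.o1, ← pow_two, h1]
  · intro i j hij
    fin_cases i <;> fin_cases j <;> simp only [Fin.reduceFinMk, Matrix.cons_val, map_smul, LinearMap.smul_apply, p, p', smul_zero] <;>
      first | exact absurd rfl hij | exact z _ _ (by decide) | rw [z _ _ (by decide), smul_zero]
  · intro i hi
    fin_cases i
    · exact absurd rfl hi
    · refine ((F.rt 0 1 (by decide) y (-1) h1 (by ring)).of ((F.rt 0 1 (by decide) y 1 h1 (by ring)).of hc (t := 1)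
        (c := c - (y • e 0 + e 1)) ?_ (by module)) (t := 1) ?_ rfl).neg.congr (by simp; module)
      · simp [h0, ← hy]; linear_combination h1
      · simp [h0, ← hy, F.o1, z]
    · exact (F.rt 0 1 (by decide) y (-1) h1 (by ring)).congr (by simp; module)
    · exact (F.rt 0 2 (by decide) y (-1) h1 (by ring)).congr (by simp; module)
    · exact (F.rt 0 3 (by decide) y (-1) h1 (by ring)).congr (by simp; module)

theorem Fr.four (h : SL D) {e : Fin 4 → V} (F : Fr D e) : False := by
  have h2 := D.two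
  have z := F.o0
  obtain ⟨c, hc, h1, h0⟩ := D.exists_out (D.span_ne_top e (by simp))
    (ker_ne_top (D := D) (w := e 0) fun k => by simpa [k] using F.o1 0)
  have ho : Off (K := K) e c := fun i j _ x y _ _ k => h1 (k ▸ Submodule.add_mem _
    (Submodule.smul_mem _ _ (Submodule.subset_span ⟨i, rfl⟩)) (Submodule.smul_mem _ _ (Submodule.subset_span ⟨j, rfl⟩)))
  rcases F.cases h hc ho h0 with ⟨k1, k2⟩ | k
  · obtain ⟨e, F⟩ := F.ext hc k1 k2
    exact F.five h
  obtain ⟨u, hu⟩ : ∃ u : Fin 4 → V, ∀ j, u j = D.B (e j) c • e j := ⟨_, fun _ => rfl⟩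
  have u1 : ∀ j, D.B (u j) (u j) = 4⁻¹ := fun j => by
    simp only [hu, F.o1, map_smul, LinearMap.smul_apply, smul_eq_mul]
    exact eq_inv_of_mul_eq_one_right (by linear_combination k j)
  have u2 : ∀ j, D.B (u j) c = 4⁻¹ := fun j => by
    simp only [hu, map_smul, LinearMap.smul_apply, smul_eq_mul]
    exact eq_inv_of_mul_eq_one_right (by linear_combination k j)
  have u0 : ∀ i j, i ≠ j → D.B (u i) (u j) = 0 := fun i j h => by simp [hu, z i j h]
  have ur : ∀ i j, i ≠ j → ∀ y : K, y ^ 2 = 1 → D.Rt ((2 : K) • u i + (2 * y) • u j) := fun i j h y hy =>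
    (F.rt i j h (2 * D.B (e i) c) (2 * y * D.B (e j) c) (by linear_combination k i)
      (by linear_combination (4 * D.B (e j) c ^ 2) * hy + k j)).congr (by simp [hu, smul_smul])
  have h4 : (4 : K) ≠ 0 := by rw [show (4 : K) = 2 * 2 by norm_num]; exact mul_ne_zero h2 h2
  have F' : Fr D ![u 0 + u 1 + u 2 + u 3, u 0 + u 1 - u 2 - u 3, u 0 - u 1 + u 2 - u 3, u 0 - u 1 - u 2 + u 3] := by
    refine Fr.of (i0 := 0) (i1 := 1) (fun i => ?_) (fun i j hij => ?_) (by decide)
      ((ur 0 1 (by decide) 1 (by ring)).congr (by simp; module)) fun i hi => ?_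
    · fin_cases i <;> simp [u1, u0] <;> field_simp <;> norm_num
    · fin_cases i <;> fin_cases j <;> first | exact absurd rfl hij | simp [u1, u0]
    · fin_cases i
      · exact absurd rfl hi
      · exact (ur 2 3 (by decide) 1 (by ring)).congr (by simp; module)
      · exact (ur 1 3 (by decide) 1 (by ring)).congr (by simp; module)
      · exact (ur 1 2 (by decide) 1 (by ring)).congr (by simp; module)
  obtain ⟨e, F⟩ := F'.ext hc (by simp [u2]; field_simp; norm_num) (fun j hj => by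
    fin_cases j
    · exact absurd rfl hj
    all_goals simp [u2])
  exact F.five h

/-- no `D₄` -/
theorem no_d4 (h : SL D) {p q r : V} (hp : D.Rt p) (hq : D.Rt q) (hr : D.Rt r) (hc : D.Rt c) (pq : D.B p q = 1)
    (pr : D.B p r = 1) (qr : D.B q r = 1) (cp : D.B p c = 1) (cq : D.B q c = 1) (cr : D.B r c = 0) : False := by
  have h2 := D.two
  have qp : D.B q p = 1 := by rw [D.symm, pq]
  have rp : D.B r p = 1 := by rw [D.symm, pr]
  have rq : D.B r q = 1 := by rw [D.symm, qr]
  have pc : D.B c p = 1 := by rw [D.symm, cp]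
  have qc : D.B c q = 1 := by rw [D.symm, cq]
  have rc : D.B c r = 0 := by rw [D.symm, cr]
  have a1 : D.Rt (p - r) := hr.of hp rp (by module)
  have a2 : D.Rt (q - r) := hr.of hq rq (by module)
  refine Fr.four h (e := ![(2 : K)⁻¹ • (p + q - r), (2 : K)⁻¹ • (p - q - r), (2 : K)⁻¹ • (p - q + r),
    c - (2 : K)⁻¹ • (p + q - r)]) (Fr.of (i0 := 0) (i1 := 1) (fun i => ?_) (fun i j hij => ?_) (by decide)
      (a1.congr ?_) fun i hi => ?_)
  · fin_cases i <;> simp [*, hp.1, hq.1, hr.1, hc.1] <;> field_simp <;> norm_num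
  · fin_cases i <;> fin_cases j <;> first | exact absurd rfl hij |
      (simp [*, hp.1, hq.1, hr.1]; try (field_simp; try norm_num))
  · simp; match_scalars <;> field_simp <;> norm_num
  · fin_cases i
    · exact absurd rfl hi
    · exact hq.congr (by simp; match_scalars <;> field_simp <;> norm_num)
    · exact a2.congr (by simp; match_scalars <;> field_simp <;> norm_num)
    · refine (a2.of (hp.of hc cp rfl) (t := 1) (by simp [*]) rfl).neg.congr ?_
      simp; match_scalars <;> field_simp <;> norm_num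

end H97s.Sys
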