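import Mathlib
import Cfsg.Agent.Lib.Sp4R.SysD

/-!
# The simply laced case
-/

set_option autoImplicit false

namespace H97s

namespace Sys

open Cx

variable {K V A : Type*} [Field K] [AddCommGroup V] [Module K V] [Ring A] [Algebra K A] {D : Cx K V A}
  {P : Finset V} {c x y z : V}

variable (D) in
/-- a set of points whose differences are roots -/
def Cq (P : Finset V) : Prop := ∀ x ∈ P, ∀ y ∈ P, x ≠ y → D.Rt (x - y)

/-- no three points are collinear -/
def NC (P : Finset V) : Prop := ∀ x ∈ P, ∀ y ∈ P, ∀ z ∈ P, x ≠ y → x ≠ z → y ≠ z → x - y ≠ z - x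

theorem Cq.one (h : Cq D P) (hx : x ∈ P) (hy : y ∈ P) (hz : z ∈ P) (xy : x ≠ y) (xz : x ≠ z) (yz : y ≠ z) :
    D.B (x - y) (x - z) = 1 := by
  have := (h y hy z hz yz).1
  have a1 := (h x hx y hy xy).1
  have a2 := (h x hx z hz xz).1
  rw [show y - z = (x - z) - (x - y) by abel] at this
  generalize x - y = u at *
  generalize x - z = v at *
  simp only [map_sub, LinearMap.sub_apply, a1, a2, D.symm v u] at this
  exact mul_left_cancel₀ D.two (by linear_combination -this)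

theorem Cq.nc (h : Cq D P) (h4 : 4 ≤ P.card) : NC P := by
  classical
  intro x hx y hy z hz xy xz yz e
  obtain ⟨w, hw, k⟩ : ∃ w ∈ P, w ∉ ({x, y, z} : Finset V) :=
    Finset.exists_mem_notMem_of_card_lt_card (Finset.card_le_three.trans_lt h4)
  simp only [Finset.mem_insert, Finset.mem_singleton, not_or] at k
  have a1 := h.one hx hy hw xy (Ne.symm k.1) (Ne.symm k.2.1)
  have a2 := h.one hx hz hw xz (Ne.symm k.1) (Ne.symm k.2.2)
  rw [e, ← neg_sub, LinearMap.map_neg₂, a2] at a1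
  exact D.two (by linear_combination -a1)

theorem Cq.uniq (h : Cq D P) (hn : NC P) {x' y' : V} (hx : x ∈ P) (hy : y ∈ P) (hx' : x' ∈ P) (hy' : y' ∈ P)
    (xy : x ≠ y) (xy' : x' ≠ y') (e : x - y = x' - y') : x = x' := by
  by_contra k
  by_cases h1 : y = x' <;> by_cases h2 : y' = x
  · subst h1 h2
    refine (h _ hx _ hy xy).ne_zero (smul_right_injective V D.two ?_)
    simp only [two_smul, add_zero]
    nth_rewrite 1 [e]; abel
  · subst h1
    exact hn _ hy _ hy' _ hx xy' xy.symm h2 e.symm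
  · subst h2
    exact hn _ hx _ hy _ hx' xy k h1 e
  · have a1 := h.one hx hy hx' xy k h1
    have a2 := h.one hx' hy' hx xy' (Ne.symm k) h2
    rw [e, ← neg_sub x' x, map_neg, a2] at a1
    exact D.two (by linear_combination -a1)

theorem Cq.two_val (hs : SL D) (h : Cq D P) (hn : NC P) (hc : D.Rt c) (hd : ∀ x ∈ P, ∀ y ∈ P, x ≠ y → c ≠ x - y)
    (hx : x ∈ P) (hy : y ∈ P) (hz : z ∈ P) (e : D.B c (y - x) = 1) : D.B c (z - x) = 0 ∨ D.B c (z - y) = 0 := by
  by_contra! k
  have val : ∀ x ∈ P, ∀ y ∈ P, D.B c (x - y) ≠ 0 → D.B c (x - y) ^ 2 = 1 := fun x hx y hy k => by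
    have xy : x ≠ y := fun e => k (by simp [e])
    rcases hs _ _ (h x hx y hy xy) hc with l | l | l | l
    · exact absurd l (hd x hx y hy xy)
    · exact absurd (l.trans (neg_sub _ _)) (hd y hy x hx xy.symm)
    · exact absurd (by rw [D.symm, l]) k
    · rw [D.symm, l]
  have xy : y ≠ x := fun k => by simp [k] at e
  have zx : z ≠ x := fun e => k.1 (by simp [e])
  have zy : z ≠ y := fun e => k.2 (by simp [e])
  have a1 := val z hz x hx k.1
  have a2 := val z hz y hy k.2
  have e1 : D.B c (z - y) = D.B c (z - x) - 1 := by rw [← e]; simp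
  rw [e1] at a2
  have h3 : (3 : K) = 0 := by linear_combination (2 * D.B c (z - x) - 3) * a1 - (2 * D.B c (z - x) + 1) * a2
  have ab : D.B (y - x) (z - y) = 2 := by
    rw [← neg_sub y z, map_neg, h.one hy hx hz xy zy.symm zx.symm]; linear_combination -h3
  have ne : z - y ≠ y - x := (hn y hy x hx z hz xy zy.symm zx.symm).symm
  have ha := h y hy x hx xy
  obtain ⟨t, ht⟩ := tri h3 ha (h z hz y hy zy) ab ne hc
    (by rw [map_sub, e, e1]; linear_combination a2 - a1 + (D.B c (z - x) - 1) * h3) e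
  obtain ⟨n1, n2, -, n4⟩ := deg_pair ha (h z hz y hy zy) ab
  have t3 : ∀ v : V, (3 : K) • v = 0 := fun v => by rw [h3, zero_smul]
  have ec : c = t • (z - y - (y - x)) - (y - x) := by rw [← ht]; abel
  by_cases t0 : t = 0
  · exact hd x hx y hy xy.symm (by rw [ec, t0]; module)
  obtain ⟨-, -, -, l⟩ := deg_pair ha hc.neg (by rw [ec]; simp only [map_neg, map_sub (D.B (y - x)) (t • _), map_smul, n2, ha.1]; simp)
  rw [show -c - (y - x) = (-t) • (z - y - (y - x)) by rw [neg_smul, ← ht]; abel, Lam.smul_iff (neg_ne_zero.2 t0)] at l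
  have := (lemK (sub_ne_zero.2 ne) n1 n4 fun s k => D.two (by rw [← ha.1]; nth_rewrite 2 [k]; rw [map_smul, n2, smul_zero])).2 _ l
  have : t * ((t - 1) * (t + 1)) = 0 := by linear_combination -this
  rcases mul_eq_zero.1 ((mul_eq_zero.1 this).resolve_left t0) with s | s
  · refine hd z hz x hx zx ?_
    rw [ec, sub_eq_zero.1 s, ← sub_eq_zero, ← t3 (x - y)]; module
  · refine hd y hy z hz zy.symm ?_
    rw [ec, eq_neg_of_add_eq_zero_left s]; module

theorem Cq.ins [DecidableEq V] (h : Cq D P) (hc : D.Rt c) (hd : ∀ x ∈ P, ∀ y ∈ P, x ≠ y → c ≠ x - y) (hy : y ∈ P)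
    (e : ∀ x ∈ P, x ≠ y → D.B c (y - x) = 1) : Cq D (insert (y - c) P) ∧ y - c ∉ P := by
  have k : ∀ x ∈ P, D.Rt (y - c - x) := fun x hx => by
    by_cases l : x = y
    · exact hc.neg.congr (by rw [l]; abel)
    · exact hc.of (h y hy x hx (Ne.symm l)) (e x hx l) (by module)
  refine ⟨fun u hu v hv uv => ?_, fun l => hd y hy _ l (fun m => hc.ne_zero (sub_eq_self.1 m.symm)) (by abel)⟩
  rcases Finset.mem_insert.1 hu with rfl | hu <;> rcases Finset.mem_insert.1 hv with rfl | hv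
  · exact absurd rfl uv
  · exact k v hv
  · exact (k u hu).neg.congr (neg_sub _ _)
  · exact h u hu v hv uv

theorem Cq.step [DecidableEq V] (hs : SL D) (h : Cq D P) (hn : NC P) (hc : D.Rt c)
    (hd : ∀ x ∈ P, ∀ y ∈ P, x ≠ y → c ≠ x - y) (hx : x ∈ P) (hy : y ∈ P) (e : D.B c (y - x) ≠ 0) :
    ∃ w, w ∉ P ∧ Cq D (insert w P) := by
  have hd' : ∀ x ∈ P, ∀ y ∈ P, x ≠ y → -c ≠ x - y := fun x hx y hy k l =>
    hd y hy x hx k.symm (by rw [← neg_sub, ← l, neg_neg])
  wlog e1 : D.B c (y - x) = 1 generalizing x y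
  · refine this hy hx (by rw [← neg_sub, map_neg]; exact neg_ne_zero.2 e) ?_
    have xy : y ≠ x := fun k => e (by simp [k])
    rcases hs _ _ (h y hy x hx xy) hc with l | l | l | l
    · exact absurd l (hd y hy x hx xy)
    · exact absurd (l.trans (neg_sub _ _)) (hd x hx y hy xy.symm)
    · exact absurd (by rw [D.symm, l]) e
    · rw [D.symm] at l
      rw [← neg_sub, map_neg, (sq_eq_one_iff.1 l).resolve_left e1, neg_neg]
  have tv := fun z hz => h.two_val (z := z) hs hn hc hd hx hy hz e1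
  by_cases k1 : ∀ z ∈ P, z ≠ y → D.B c (y - z) = 1
  · exact ⟨_, (h.ins hc hd hy k1).symm⟩
  by_cases k2 : ∀ z ∈ P, z ≠ x → D.B (-c) (x - z) = 1
  · exact ⟨_, (h.ins hc.neg hd' hx k2).symm⟩
  push Not at k1 k2
  obtain ⟨y', hy', yy, e2⟩ := k1
  obtain ⟨x', hx', xx, e3⟩ := k2
  have f2 : D.B c (y' - y) = 0 := (tv y' hy').resolve_left fun k => e2 (by
    rw [show y - y' = (y - x) - (y' - x) by abel, map_sub, e1, k, sub_zero])
  have f3 : D.B c (x' - x) = 0 := (tv x' hx').resolve_right fun k => e3 (by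
    rw [LinearMap.map_neg₂, ← map_neg, show -(x - x') = (x' - y) + (y - x) by abel, map_add, k, e1, zero_add])
  have f4 : D.B c (y' - x) = 1 := by rw [show y' - x = (y' - y) + (y - x) by abel, map_add, f2, e1, zero_add]
  have n1 : y ≠ x := fun k => by simp [k] at e1
  have n2 : y' ≠ x := fun k => by simp [k] at f4
  have n3 : y ≠ x' := fun k => by rw [k, f3] at e1; exact zero_ne_one e1
  have n4 : y' ≠ x' := fun k => by rw [k, f3] at f4; exact zero_ne_one f4
  have g : ∀ u ∈ P, ∀ v ∈ P, u ≠ x → v ≠ x → u ≠ v → D.B (u - x) (v - x) = 1 := fun u hu v hv a b c => by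
    rw [← neg_sub x u, ← neg_sub x v, LinearMap.map_neg₂, map_neg, neg_neg, h.one hx hu hv a.symm b.symm c]
  exact (no_d4 hs (h y hy x hx n1) (h y' hy' x hx n2) (h x' hx' x hx xx) hc (g _ hy _ hy' n1 n2 yy.symm)
    (g _ hy _ hx' n1 xx n3) (g _ hy' _ hx' n2 xx n4) (by rw [D.symm, e1]) (by rw [D.symm, f4]) (by rw [D.symm, f3])).elim

theorem exists_three [DecidableEq V] (hs : SL D) : ∃ P : Finset V, Cq D P ∧ NC P ∧ 0 ∈ P ∧ 3 ≤ P.card := by
  obtain ⟨a, ha⟩ := D.ex
  have ha : D.Rt a := ha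
  obtain ⟨b, hb, h1, h2⟩ := D.exists_out (D.span_ne_top ![a] (by simp)) (ker_ne_top (D := D) ha.ne_zero)
  have m : a ∈ Submodule.span K (Set.range ![a]) := Submodule.subset_span ⟨0, rfl⟩
  obtain ⟨b, hb, h1, h2⟩ : ∃ b, D.Rt b ∧ b ∉ Submodule.span K (Set.range ![a]) ∧ D.B a b = 1 := by
    rcases hs a b ha hb with k | k | k | k
    · exact absurd (k ▸ m) h1
    · exact absurd (k ▸ Submodule.neg_mem _ m) h1
    · exact absurd k h2
    · rcases sq_eq_one_iff.1 k with k | k
      · exact ⟨b, hb, h1, k⟩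
      · exact ⟨-b, hb.neg, by rwa [neg_mem_iff], by rw [map_neg, k, neg_neg]⟩
  have ab : a ≠ b := fun k => h1 (k ▸ m)
  have r1 : D.Rt (b - a) := ha.of hb h2 (by module)
  have n : ∀ s : K, b ≠ s • a := fun s k => h1 (k ▸ Submodule.smul_mem _ _ m)
  have h2 := D.two
  refine ⟨{0, a, b}, ?_, ?_, by simp, ?_⟩
  · intro x hx y hy xy
    simp only [Finset.mem_insert, Finset.mem_singleton] at hx hy
    rcases hx with rfl | rfl | rfl <;> rcases hy with rfl | rfl | rfl <;>
      first | exact absurd rfl xy | simp only [sub_zero, zero_sub, ha, hb, ha.neg, hb.neg, r1] | exact r1.neg.congr (neg_sub _ _)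
  · have k1 : ∀ {u v : V}, u = v → b - (-1 : K) • a = u - v → False := fun e l => n _ (by rwa [e, sub_self, sub_eq_zero] at l)
    have k2 : ∀ {u v : V}, u = v → b - (2 : K) • a = u - v → False := fun e l => n _ (by rwa [e, sub_self, sub_eq_zero] at l)
    have k3 : ∀ {u v : V}, u = v → (2 : K) • b - a = u - v → False := fun e l => n 2⁻¹ (by
      rw [e, sub_self, sub_eq_zero] at l
      rw [← l, smul_smul, inv_mul_cancel₀ h2, one_smul])
    intro x hx y hy z hz xy xz yz e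
    simp only [Finset.mem_insert, Finset.mem_singleton] at hx hy hz
    rcases hx with rfl | rfl | rfl <;> rcases hy with rfl | rfl | rfl <;> rcases hz with rfl | rfl | rfl <;>
      first | exact absurd rfl xy | exact absurd rfl xz | exact absurd rfl yz | exact k1 e.symm (by module) |
        exact k2 e.symm (by module) | exact k3 e (by module)
  · rw [Finset.card_insert_of_notMem (by simp [ha.ne_zero.symm, hb.ne_zero.symm]), Finset.card_pair ab]

end Sys

namespace Cx

open Sys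

variable {K V A : Type*} [Field K] [IsAlgClosed K] [AddCommGroup V] [Module K V] [Ring A] [Algebra K A] {D : Cx K V A}

omit [IsAlgClosed K] in
theorem simply_laced (h : ∀ a b, D.Rt a → D.Rt b → b = a ∨ b = -a ∨ D.B a b = 0 ∨ D.B a b ^ 2 = 1) : False := by
  classical
  let R := ((finite_rt (D := D)).insert 0).toFinset
  have mem : ∀ P : Finset V, Cq D P ∧ NC P ∧ 0 ∈ P ∧ 3 ≤ P.card →
      P ∈ R.powerset.filter fun P => Cq D P ∧ NC P ∧ 0 ∈ P ∧ 3 ≤ P.card := fun P hP => by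
    refine Finset.mem_filter.2 ⟨Finset.mem_powerset.2 fun x hx => (Set.Finite.mem_toFinset _).2 ?_, hP⟩
    by_cases h0 : x = 0
    · exact Or.inl h0
    · exact Or.inr ((hP.1 x hx 0 hP.2.2.1 h0).congr (sub_zero x))
  obtain ⟨P, hP, mx⟩ := Finset.exists_max_image _ Finset.card ((exists_three h).imp mem)
  obtain ⟨h1, h2, h3, h4⟩ := (Finset.mem_filter.1 hP).2
  have key : ∀ c, D.Rt c → ∃ f : V → V, f.Injective ∧ (∀ x ∈ P, f x ∈ P) ∧
      ∀ x ∈ P, ∀ y ∈ P, D.r c (x - y) = f x - f y := fun c hc => by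
    by_cases hd : ∀ x ∈ P, ∀ y ∈ P, x ≠ y → c ≠ x - y
    · refine ⟨id, fun _ _ k => k, fun _ k => k, fun x hx y hy => r_of (by_contra fun e => ?_)⟩
      obtain ⟨w, hw, k⟩ := h1.step h h2 hc hd hy hx e
      have c1 := Finset.card_insert_of_notMem hw
      have := mx _ (mem _ ⟨k, k.nc (by omega), Finset.mem_insert_of_mem h3, by omega⟩)
      omega
    push Not at hd
    obtain ⟨u, hu, v, hv, uv, rfl⟩ := hd
    have k : ∀ x ∈ P, Equiv.swap u v x = x - (D.B (u - v) (x - u) + 1) • (u - v) := fun x hx => by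
      by_cases a : x = u
      · simp [a]
      by_cases b : x = v
      · rw [b, ← neg_sub u v, map_neg, hc.1, Equiv.swap_apply_right]; module
      rw [Equiv.swap_apply_of_ne_of_ne a b, ← neg_sub u x, map_neg, h1.one hu hv hx uv (Ne.symm a) (Ne.symm b)]
      module
    refine ⟨Equiv.swap u v, Equiv.injective _, fun x hx => ?_, fun x hx y hy => ?_⟩
    · rw [Equiv.swap_apply_def]; split_ifs <;> assumption
    · rw [k x hx, k y hy, r]; simp only [map_sub (D.B (u - v))]; module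
  obtain ⟨x, hx, y, hy, z, hz, xy, xz, yz⟩ := Finset.two_lt_card.1 h4
  obtain ⟨x', y', z', hx', hy', hz', xy', xz', -, e1, e2⟩ := neg_end (D := D)
    (fun u v => ∃ x y z, x ∈ P ∧ y ∈ P ∧ z ∈ P ∧ x ≠ y ∧ x ≠ z ∧ y ≠ z ∧ u = x - y ∧ v = x - z) (by
      rintro c hc _ _ ⟨x, y, z, hx, hy, hz, xy, xz, yz, rfl, rfl⟩
      obtain ⟨f, f1, f2, f3⟩ := key c hc
      exact ⟨f x, f y, f z, f2 x hx, f2 y hy, f2 z hz, f1.ne xy, f1.ne xz, f1.ne yz, f3 x hx y hy, f3 x hx z hz⟩)
    ⟨x, y, z, hx, hy, hz, xy, xz, yz, rfl, rfl⟩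
  rw [neg_sub] at e1 e2
  exact yz ((h1.uniq h2 hy hx hx' hy' xy.symm xy' e1).trans (h1.uniq h2 hz hx hx' hz' xz.symm xz' e2).symm)

end Cx

end H97s
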