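import Mathlib
import Cfsg.Agent.Lib.Sp4R.Wild
import Cfsg.Agent.Lib.Sp4R.Gm

/-!
# Triples of roots
-/

set_option autoImplicit false

namespace H97s

open Matrix

namespace Cx

variable {K V A : Type*} [Field K] [AddCommGroup V] [Module K V] [Ring A] [Algebra K A] {D : Cx K V A}
  {a b c e e' m m' : V}

variable (D) in
/-- a basis of a non-degenerate three dimensional subspace -/
structure Fr (a m m' : V) : Prop where
  aa : D.B a a = 2
  mm : D.B m m = 0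
  nn : D.B m' m' = 0
  mn : D.B m m' = 1
  am : D.B a m = 0
  an : D.B a m' = 0

/-- the vector attached to a traceless matrix -/
def th (a m m' : V) (x : Matrix (Fin 2) (Fin 2) K) : V := x 0 0 • a + x 0 1 • m + x 1 0 • m'

variable (D) in
/-- the volume element -/
def om (a m m' : V) : A := D.ι a * (D.ι m * D.ι m' - D.ι m' * D.ι m)

namespace Fr

variable (h : D.Fr a m m') {x y : Matrix (Fin 2) (Fin 2) K}
include h

theorem r1 : D.ι m * D.ι a = -(D.ι a * D.ι m) := anti h.am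
theorem r2 : D.ι m' * D.ι a = -(D.ι a * D.ι m') := anti h.an
theorem r3 : D.ι m' * D.ι m = 1 - D.ι m * D.ι m' := by rw [D.swap m', h.mn, one_smul]

/-- normal form in the Clifford algebra of the frame -/
local macro "fr" h:term : tactic => `(tactic| nc [Fr.r1 $h, ass (Fr.r1 $h), Fr.r2 $h, ass (Fr.r2 $h), Fr.r3 $h, ass (Fr.r3 $h),
  sq1 (Fr.aa $h), ass (sq1 (Fr.aa $h)), sq0 (Fr.mm $h), ass (sq0 (Fr.mm $h)), sq0 (Fr.nn $h), ass (sq0 (Fr.nn $h)), neg_zero,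
  neg_neg, om, th, sub_zero, add_zero])

theorem mu : MU (D.ι a * D.ι m) (D.ι m' * D.ι a) := ⟨by fr h, by fr h, by fr h, by fr h⟩

theorem psi_lin (g : Matrix (Fin 2) (Fin 2) K) : h.mu.psi K g = g 0 0 • (D.ι m * D.ι m') + g 0 1 • (D.ι a * D.ι m) +
    g 1 0 • (D.ι m' * D.ι a) + g 1 1 • (D.ι m' * D.ι m) := by
  rw [MU.psi_apply]; fr h; module

theorem om_om : D.om a m m' * D.om a m m' = 1 := by fr h; abel

theorem om_comm (g : Matrix (Fin 2) (Fin 2) K) : D.om a m m' * h.mu.psi K g = h.mu.psi K g * D.om a m m' := by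
  rw [h.psi_lin]; fr h; module

theorem i_th (hx : x.trace = 0) : D.ι (th a m m' x) = h.mu.psi K x * D.om a m m' := by
  rw [trace_fin_two, add_eq_zero_iff_neg_eq] at hx
  rw [h.psi_lin, ← hx]; fr h; module

theorem B_th (hx : x.trace = 0) (hy : y.trace = 0) : D.B (th a m m' x) (th a m m' y) = (x * y).trace := by
  rw [trace_fin_two, add_eq_zero_iff_neg_eq] at hx hy
  simp [th, h.aa, h.mm, h.nn, h.mn, h.am, h.an, D.symm m a, D.symm m' a, D.symm m' m, trace_fin_two, Matrix.mul_apply,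
    ← hx, ← hy]
  ring

theorem p_ne : D.ι a * D.ι m ≠ 0 := fun e => by
  have : D.ι m = 0 := by rw [← one_mul (D.ι m), ← sq1 h.aa, mul_assoc, e, mul_zero]
  simpa [eq_zero this] using h.mn

/-- the finite subgroup of `GL₂` attached to a frame -/
def grp : Subgroup (GL (Fin 2) K) where
  carrier := {g | (g.val.det = 1 ∧ In D.X (h.mu.psi K g.val)) ∨ (g.val.det = -1 ∧ In D.X (h.mu.psi K g.val * D.om a m m'))}
  one_mem' := Or.inl ⟨by simp, by simpa using In.one⟩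
  mul_mem' := by
    rintro g g' (⟨d, k⟩ | ⟨d, k⟩) (⟨d', k'⟩ | ⟨d', k'⟩)
    · exact Or.inl ⟨by simp [d, d'], by simpa using k.mul k'⟩
    · exact Or.inr ⟨by simp [d, d'], by simpa [mul_assoc] using k.mul k'⟩
    · exact Or.inr ⟨by simp [d, d'], by simpa [mul_assoc, h.om_comm] using k.mul k'⟩
    · exact Or.inl ⟨by simp [d, d'], by simpa [mul_assoc, ass (h.om_comm _), h.om_om] using k.mul k'⟩
  inv_mem' := by
    rintro g (⟨d, k⟩ | ⟨d, k⟩)
    · exact Or.inl ⟨by simp [d], k.inv (by rw [← map_mul, g.mul_inv, map_one])⟩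
    · refine Or.inr ⟨by simp [d], k.inv ?_⟩
      rw [mul_assoc, ass (h.om_comm _), mul_assoc, h.om_om, mul_one, ← map_mul, g.mul_inv, map_one]

theorem finite_grp : Finite h.grp := by
  have := D.fin
  refine Set.Finite.of_finite_image (f := fun g : GL (Fin 2) K => h.mu.psi K g.val)
    (((finite_in (X := D.X)).union ((finite_in (X := D.X)).image (· * D.om a m m'))).subset ?_)
    fun g _ g' _ e => Units.ext (h.mu.psi_inj h.p_ne e)
  rintro _ ⟨g, ⟨-, k⟩ | ⟨-, k⟩, rfl⟩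
  · exact Or.inl k
  · exact Or.inr ⟨_, k, by simp only [mul_assoc, h.om_om, mul_one]⟩

theorem neg_mem : -1 ∈ h.grp := Or.inl ⟨by simp [det_neg], (In.one.neg D.neg).congr (by
  rw [h.psi_lin]; simp [h.r3]; abel)⟩

theorem rt_of {g : GL (Fin 2) K} (hg : R2 h.grp g) : D.Rt (th a m m' g.val) := by
  refine ⟨by rw [h.B_th hg.2.1 hg.2.1, hg.tr_sq], ?_⟩
  rcases hg.1 with ⟨d, -⟩ | ⟨-, k⟩
  · exact (D.two (by linear_combination hg.2.2 - d)).elim
  · rwa [h.i_th hg.2.1]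

theorem exists_r2 (hb : D.Rt b) {s t u : K} (e : b = s • a + t • m + u • m') :
    ∃ g, R2 h.grp g ∧ th a m m' g.val = b := by
  have t0 : (!![s, t; u, -s] : Matrix (Fin 2) (Fin 2) K).trace = 0 := by simp [trace_fin_two]
  have e1 : th a m m' !![s, t; u, -s] = b := by simp [th, e]
  have d : (!![s, t; u, -s] : Matrix (Fin 2) (Fin 2) K).det = -1 := by
    have := h.B_th t0 t0
    rw [e1, hb.1, trace_sq2 t0] at this
    exact mul_left_cancel₀ D.two (by linear_combination this)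
  exact ⟨GeneralLinearGroup.mkOfDetNeZero _ (by simp [d]), ⟨Or.inr ⟨d, by
    change In D.X (h.mu.psi K !![s, t; u, -s] * _); rw [← h.i_th t0, e1]; exact hb.2⟩, t0, d⟩, e1⟩

theorem wild (N : Matrix (Fin 2) (Fin 2) K) (h1 : N * N = 0) (h2 : N.trace = 0) (h3 : N ≠ 0) (h4 : In h.grp (1 + N)) :
    (3 : K) = 0 ∧ ∀ s : K, In h.grp (1 + s • N) → s ^ 3 = s := by
  have dN : N.det = 0 := by simpa using congrArg Matrix.det h1
  obtain ⟨z, z0, hz⟩ : ∃ z : Matrix (Fin 2) (Fin 2) K, z.trace = 0 ∧ N * z = N := by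
    rw [trace_fin_two, add_eq_zero_iff_neg_eq] at h2
    rw [det_fin_two, ← h2] at dN
    by_cases b0 : N 0 1 = 0
    · have a0 : N 0 0 = 0 := mul_self_eq_zero.1 (by linear_combination -dN - N 1 0 * b0)
      refine ⟨!![1, 0; 0, -1], by simp [trace_fin_two], ?_⟩
      ext i j; fin_cases i <;> fin_cases j <;> simp [Matrix.mul_apply, ← h2, a0, b0]
    · refine ⟨!![-1, 0; 2 * N 0 0 / N 0 1, 1], by simp [trace_fin_two], ?_⟩
      ext i j; fin_cases i <;> fin_cases j <;> simp [Matrix.mul_apply, ← h2] <;> field_simp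
      · ring
      · linear_combination 2 * dN
  have e1 : D.ι (th a m m' N) * D.ι (th a m m' z) = h.mu.psi K N := by
    rw [h.i_th h2, h.i_th z0, mul_assoc, ass (h.om_comm _), mul_assoc, h.om_om, mul_one, ← map_mul, hz]
  have e0 : h.mu.psi K N ≠ 0 := fun e => h3 (h.mu.psi_inj h.p_ne (by rw [e, h.psi_lin]; simp))
  have nn : D.B (th a m m' N) (th a m m' N) = 0 := by rw [h.B_th h2 h2, h1, trace_zero]
  have lam : ∀ s : K, In h.grp (1 + s • N) → D.Lam (th a m m' N) (s • th a m m' z) := by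
    rintro s ⟨g, ⟨-, k⟩ | ⟨d, -⟩, e⟩
    · refine ⟨by rw [map_smul, h.B_th h2 z0, hz, h2, smul_zero], k.congr ?_⟩
      rw [map_smul, mul_smul_comm, e1, e, h.psi_lin, h.psi_lin]
      simp only [Matrix.add_apply, Matrix.smul_apply, one_apply_eq, one_apply_ne (zero_ne_one' (Fin 2)),
        one_apply_ne (zero_ne_one' (Fin 2)).symm, smul_eq_mul, h.r3]
      module
    · refine (D.two ?_).elim
      rw [trace_fin_two] at h2
      rw [e, det_fin_two] at d
      rw [det_fin_two] at dN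
      simp only [Matrix.add_apply, Matrix.smul_apply, one_apply_eq, one_apply_ne (zero_ne_one' (Fin 2)),
        one_apply_ne (zero_ne_one' (Fin 2)).symm, smul_eq_mul] at d
      linear_combination d - s * h2 - s ^ 2 * dN
  obtain ⟨k3, k⟩ := lemK (n := th a m m' N) (s := th a m m' z) (fun e => e0 (by rw [← e1, e, map_zero, zero_mul])) nn
    (by simpa using lam 1 (by simpa using h4)) fun x e => e0 (by rw [← e1, e, map_smul, mul_smul_comm, sq0 nn, smul_zero])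
  exact ⟨k3, fun s hs => k s (lam s hs)⟩

end Fr

theorem hyp2 [IsAlgClosed K] {u v : V} (h : D.B u u * D.B v v - D.B u v ^ 2 ≠ 0) : ∃ (m m' : V) (p q r s p' q' r' s' : K),
    D.B m m = 0 ∧ D.B m' m' = 0 ∧ D.B m m' = 1 ∧ u = p • m + q • m' ∧ v = r • m + s • m' ∧ m = p' • u + q' • v ∧
      m' = r' • u + s' • v := by
  have h2 := D.two
  have key : ∀ m w : V, D.B m m = 0 → D.B m w ≠ 0 → ∃ (m' : V) (x y : K), D.B m' m' = 0 ∧ D.B m m' = 1 ∧
      w = x • m + D.B m w • m' ∧ m' = y • m + (D.B m w)⁻¹ • w := fun m w h0 h1 =>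
    ⟨(-(D.B w w / 2) / D.B m w ^ 2) • m + (D.B m w)⁻¹ • w, D.B w w / 2 / D.B m w, _, by
      simp only [map_add, map_smul, LinearMap.add_apply, LinearMap.smul_apply, smul_eq_mul, h0, D.symm w m]
      field_simp; ring, by simp [h0, h1], by match_scalars <;> field_simp; ring, rfl⟩
  by_cases u0 : D.B u u = 0
  · obtain ⟨m', x, y, k1, k2, k3, k4⟩ := key u v u0 fun e => h (by simp [u0, e])
    exact ⟨u, m', 1, 0, x, _, 1, 0, y, _, u0, k1, k2, by simp, k3, by simp, k4⟩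
  · obtain ⟨d, hd⟩ := IsAlgClosed.exists_eq_mul_self (D.B u v ^ 2 - D.B u u * D.B v v)
    have d0 : d ≠ 0 := by rintro rfl; exact h (by linear_combination -hd)
    obtain ⟨t, ht⟩ : ∃ t, t = (d - D.B u v) / D.B u u := ⟨_, rfl⟩
    have e : D.B (t • u + v) u = d := by simp [ht, D.symm v u, u0]
    obtain ⟨m', x, y, k1, k2, k3, k4⟩ := key (t • u + v) u (by
      simp only [map_add, map_smul, LinearMap.add_apply, LinearMap.smul_apply, smul_eq_mul, D.symm v u, ht]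
      field_simp; linear_combination -hd) (by rwa [e])
    rw [e] at k3 k4
    refine ⟨t • u + v, m', x, d, 1 - t * x, -(t * d), t, 1, y * t + d⁻¹, y, ?_, k1, k2, k3, ?_, by simp, by rw [k4]; module⟩
    · simp only [map_add, map_smul, LinearMap.add_apply, LinearMap.smul_apply, smul_eq_mul, D.symm v u, ht]
      field_simp; linear_combination -hd
    · linear_combination (norm := module) (-t) • k3

variable (D) in
/-- half the Gram determinant of three roots -/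
def G (a b c : V) : K := 4 - D.B a b ^ 2 - D.B a c ^ 2 - D.B b c ^ 2 + D.B a b * D.B a c * D.B b c

variable (D) in
/-- the icosahedral frame -/
def H3 : Prop := ∃ (φ : K) (e₁ e₂ e₃ : V), φ ^ 2 = φ + 1 ∧ D.Rt e₁ ∧ D.Rt e₂ ∧ D.Rt e₃ ∧ D.B e₁ e₂ = 0 ∧ D.B e₁ e₃ = 0 ∧
  D.B e₂ e₃ = 0 ∧ D.Rt ((2 : K)⁻¹ • (φ • e₁ + e₂ + (φ - 1) • e₃))

theorem rank3 [IsAlgClosed K] (ha : D.Rt a) (hb : D.Rt b) (hc : D.Rt c) (hG : D.G a b c ≠ 0) :
    (D.B a b = 0 ∧ D.B a c = 0) ∨ (D.B a b = 0 ∧ D.B b c = 0) ∨ (D.B a c = 0 ∧ D.B b c = 0) ∨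
    (T4 (D.B a b ^ 2) ∧ T4 (D.B a c ^ 2) ∧ T4 (D.B b c ^ 2) ∧ (T4 (D.G a b c) ∨ D.B a b = 0)) ∨
    (T5 (D.B a b) ∧ T5 (D.B a c) ∧ T5 (D.B b c) ∧ D.H3) := by
  have h2 := D.two
  have := Fact.mk D.prime
  have := D.char
  obtain ⟨m, m', p, q, r, s, p', q', r', s', k1, k2, k3, k4, k5, k6, k7⟩ :=
    hyp2 (D := D) (u := b - (D.B a b / 2) • a) (v := c - (D.B a c / 2) • a) fun e => hG (by
      simp only [map_sub, map_smul, LinearMap.sub_apply, LinearMap.smul_apply, smul_eq_mul, ha.1, hb.1, hc.1,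
        D.symm b a, D.symm c a] at e
      rw [G, ← e]; field_simp; ring)
  have h : D.Fr a m m' := ⟨ha.1, k1, k2, k3, by rw [k6]; simp [ha.1, h2], by rw [k7]; simp [ha.1, h2]⟩
  obtain ⟨x, hx, ex⟩ := h.exists_r2 ha (s := 1) (t := 0) (u := 0) (by simp)
  obtain ⟨y, hy, ey⟩ := h.exists_r2 hb (s := D.B a b / 2) (t := p) (u := q) (by rw [add_assoc, ← k4]; abel)
  obtain ⟨z, hz, ez⟩ := h.exists_r2 hc (s := D.B a c / 2) (t := r) (u := s) (by rw [add_assoc, ← k5]; abel)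
  have b1 := h.B_th hx.2.1 hy.2.1
  have b2 := h.B_th hx.2.1 hz.2.1
  have b3 := h.B_th hy.2.1 hz.2.1
  rw [ex, ey] at b1
  rw [ex, ez] at b2
  rw [ey, ez] at b3
  have b4 : D.G a b c = -(x.val * y.val * z.val).trace ^ 2 := by
    rw [G, b1, b2, b3, gram2 hx.2.1 hy.2.1 hz.2.1 hx.2.2 hy.2.2 hz.2.2]
  have := h.finite_grp
  rw [b1, b2, b3, b4]
  refine (gm D.p h2 h.neg_mem (fun g hg => by rcases hg with ⟨d, -⟩ | ⟨d, -⟩ <;> simp [d]) h.wild hx hy hz
    fun e => hG (by simp [b4, e])).imp_right (.imp_right (.imp_right (.imp_right fun ⟨f1, f2, f3, f4⟩ => ⟨f1, f2, f3, ?_⟩)))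
  obtain ⟨φ, e₁, e₂, e₃, g, g1, g2, g3, g4, g5, g6, g7, g8, g9⟩ := f4
  refine ⟨φ, _, _, _, g1, h.rt_of g2, h.rt_of g3, h.rt_of g4, by rw [h.B_th g2.2.1 g3.2.1, g6],
    by rw [h.B_th g2.2.1 g4.2.1, g7], by rw [h.B_th g3.2.1 g4.2.1, g8], (h.rt_of g5).congr ?_⟩
  simp only [g9, th, Matrix.smul_apply, Matrix.add_apply, smul_eq_mul]
  module

/-- a degenerate triple over a non-degenerate pair -/
theorem deg_triple (ha : D.Rt a) (hb : D.Rt b) (hc : D.Rt c) (h4 : D.B a b ^ 2 ≠ 4) (hG : D.G a b c = 0)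
    (hcs : ∀ x y : K, c ≠ x • a + y • b) : ∃ n w, n ≠ 0 ∧ D.B n n = 0 ∧ D.B a n = 0 ∧ D.B b n = 0 ∧ D.Lam n w ∧
      (D.B a w ≠ 0 ∨ D.B b w ≠ 0) ∧ ∀ x y z : K, x • n + y • a + z • b = 0 → x = 0 ∧ y = 0 ∧ z = 0 := by
  have h2 := D.two
  have d0 : 4 - D.B a b ^ 2 ≠ 0 := sub_ne_zero.2 h4.symm
  obtain ⟨t, ht⟩ : ∃ t, D.B a b = t := ⟨_, rfl⟩
  have ht' : D.B b a = t := by rw [D.symm, ht]
  obtain ⟨x, y, n, rfl, n1, n2⟩ : ∃ (x y : K) (n : V), c = x • a + y • b + n ∧ D.B a n = 0 ∧ D.B b n = 0 :=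
    ⟨(2 * D.B a c - t * D.B b c) / (4 - t ^ 2), (2 * D.B b c - t * D.B a c) / (4 - t ^ 2), c - _, (add_sub_cancel _ _).symm,
      by rw [ht] at d0; simp only [map_sub, map_add, map_smul, smul_eq_mul, ha.1, ht]; field_simp; ring,
      by rw [ht] at d0; simp only [map_sub, map_add, map_smul, smul_eq_mul, hb.1, ht']; field_simp; ring⟩
  have n1' : D.B n a = 0 := by rw [D.symm, n1]
  have n2' : D.B n b = 0 := by rw [D.symm, n2]
  have nm := hc.1
  simp only [G, map_add, map_smul, LinearMap.add_apply, LinearMap.smul_apply, smul_eq_mul, ha.1, hb.1, ht, ht', n1, n2,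
    n1', n2'] at nm hG d0
  have q : x ^ 2 + y ^ 2 + t * x * y = 1 := mul_left_cancel₀ d0 (by linear_combination -hG)
  have nn : D.B n n = 0 := by linear_combination nm - 2 * q
  refine ⟨n, (t * y + t ^ 2 * x - 2 * x) • a + (-(t * x) - 2 * y) • b, fun e => hcs x y (by simp [e]),
    nn, n1, n2, ⟨by simp [n1', n2'], (((ha.2.mul hb.2).mul hc.2).mul ((ha.2.mul hb.2).mul hc.2)).congr ?_⟩, ?_,
    fun p q' r e => ?_⟩
  · have e1 : D.ι b * D.ι a = t • 1 - D.ι a * D.ι b := by rw [D.swap, ht]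
    nc [e1, ass e1, anti n1', ass (anti n1'), anti n2', ass (anti n2'), sq0 nn, ass (sq0 nn), sq1 ha.1, ass (sq1 ha.1),
      sq1 hb.1, ass (sq1 hb.1), map_zero, neg_zero]
    match_scalars <;> first | ring1 | linear_combination q
  · by_contra! k
    simp only [map_add, map_smul, smul_eq_mul, ha.1, hb.1, ht, ht'] at k
    have x0 : x = 0 := (mul_eq_zero.1 (show (4 - t ^ 2) * x = 0 by linear_combination -k.1)).resolve_left d0
    have y0 : y = 0 := (mul_eq_zero.1 (show (4 - t ^ 2) * y = 0 by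
      linear_combination -k.2 - (4 - t ^ 2) * t * x0)).resolve_left d0
    simp [x0, y0] at q
  · have e1 := congrArg (D.B a) e
    have e2 := congrArg (D.B b) e
    simp only [map_add, map_smul, smul_eq_mul, ha.1, hb.1, ht, ht', n1, n2, map_zero] at e1 e2
    have q0 : q' = 0 := (mul_eq_zero.1 (show (4 - t ^ 2) * q' = 0 by linear_combination 2 * e1 - t * e2)).resolve_left d0
    have r0 : r = 0 := (mul_eq_zero.1 (show (4 - t ^ 2) * r = 0 by linear_combination 2 * e2 - t * e1)).resolve_left d0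
    refine ⟨by_contra fun p0 => hcs x y ?_, q0, r0⟩
    simpa [q0, r0, p0] using e

theorem exists_third (a b : V) (h0 : a ≠ 0) : ∃ c, D.Rt c ∧ (∀ x y : K, c ≠ x • a + y • b) ∧ D.B a c ≠ 0 := by
  obtain ⟨c, hc, h1, h2⟩ := span_ne_top' (D := D) ![a, b] (by simp) h0
  exact ⟨c, hc, fun x y e => h1 (e ▸ Submodule.add_mem _ (Submodule.smul_mem _ _ (Submodule.subset_span ⟨0, rfl⟩))
    (Submodule.smul_mem _ _ (Submodule.subset_span ⟨1, rfl⟩))), by rwa [D.symm]⟩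

theorem deg_val (ha : D.Rt a) (hb : D.Rt b) (hc : D.Rt c) (h4 : D.B a b ^ 2 ≠ 4) (hG : D.G a b c = 0)
    (hcs : ∀ x y : K, c ≠ x • a + y • b) : (3 : K) = 0 ∧ (D.B a b ^ 2) ^ 3 = D.B a b ^ 2 := by
  obtain ⟨n, w, h0, hn, h1, h2, hl, hw | hw, -⟩ := deg_triple ha hb hc h4 hG hcs
  · exact deg3 h0 hn hl ha hb h1 h2 hw
  · rw [D.symm]; exact deg3 h0 hn hl hb ha h2 h1 hw

theorem sq_four (ha : D.Rt a) (hb : D.Rt b) (h : D.B a b ^ 2 = 4) : b = a ∨ b = -a ∨ (3 : K) = 0 := by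
  rcases sq_eq_sq_iff_eq_or_eq_neg.1 (show D.B a b ^ 2 = 2 ^ 2 by rw [h]; norm_num) with k | k
  · exact (two_eq ha hb k).imp_right Or.inr
  · exact Or.inr (two_eq ha.neg hb (by simp [k]))

variable [IsAlgClosed K]

theorem tlem (ha : D.Rt a) (hb : D.Rt b) : b = a ∨ b = -a ∨ T5 (D.B a b) ∨ D.B a b ^ 2 = 2 := by
  by_cases h4 : D.B a b ^ 2 = 4
  · exact (sq_four ha hb h4).imp_right (.imp_right fun h3 => Or.inl (Or.inr (Or.inl (by linear_combination h4 + h3))))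
  refine Or.inr (Or.inr ?_)
  have t4 : T4 (D.B a b ^ 2) → T5 (D.B a b) ∨ D.B a b ^ 2 = 2 := by
    rintro (k | k | k)
    exacts [Or.inl (Or.inl (pow_eq_zero_iff two_ne_zero |>.1 k)), Or.inl (Or.inr (Or.inl k)), Or.inr k]
  obtain ⟨c, hc, h1, h2⟩ := exists_third (D := D) a b ha.ne_zero
  by_cases hG : D.G a b c = 0
  · obtain ⟨h3, k⟩ := deg_val ha hb hc h4 hG h1
    rcases H98.D3.eq_of_cube k with k | k | k
    exacts [t4 (Or.inl k), t4 (Or.inr (Or.inl k)), Or.inr (by linear_combination k - h3)]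
  rcases rank3 ha hb hc hG with k | k | k | k | k
  exacts [Or.inl (Or.inl k.1), Or.inl (Or.inl k.1), (h2 k.1).elim, t4 k.1, Or.inl k.1]

theorem five_aux (h5 : (5 : K) ≠ 0) (ha : D.Rt a) (hb : D.Rt b) (h : D.B a b ^ 4 - 3 * D.B a b ^ 2 + 1 = 0) (hc : D.Rt c)
    (hcs : ∀ x y : K, c ≠ x • a + y • b) : D.B a c = 0 ∨ (T5 (D.B a c) ∧ D.H3) := by
  have h4 : D.B a b ^ 2 ≠ 4 := fun e => h5 (by linear_combination h - (D.B a b ^ 2 + 1) * e)
  have h0 : D.B a b ≠ 0 := fun e => by simp [e] at h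
  by_cases hG : D.G a b c = 0
  · obtain ⟨h3, k⟩ := deg_val ha hb hc h4 hG hcs
    refine (mul_ne_zero D.two (pow_ne_zero 2 h0) ?_).elim
    linear_combination D.B a b ^ 2 * h - k + D.B a b ^ 4 * h3
  rcases rank3 ha hb hc hG with k | k | k | ⟨k | k | k, -⟩ | k
  · exact (h0 k.1).elim
  · exact (h0 k.1).elim
  · exact Or.inl k.1
  · exact (h0 (pow_eq_zero_iff two_ne_zero |>.1 k)).elim
  · exact (one_ne_zero (α := K) (by linear_combination -h + (D.B a b ^ 2 - 2) * k)).elim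
  · exact (one_ne_zero (α := K) (by linear_combination -h + (D.B a b ^ 2 - 1) * k)).elim
  · exact Or.inr ⟨k.2.1, k.2.2.2⟩

theorem i5lem (h5 : (5 : K) ≠ 0) (ha : D.Rt a) (hb : D.Rt b) (h : D.B a b ^ 4 - 3 * D.B a b ^ 2 + 1 = 0) (hc : D.Rt c)
    (hcs : ∀ x y : K, c ≠ x • a + y • b) : T5 (D.B a c) :=
  (five_aux h5 ha hb h hc hcs).elim Or.inl And.left

theorem h3frame (h5 : (5 : K) ≠ 0) (ha : D.Rt a) (hb : D.Rt b) (h : D.B a b ^ 4 - 3 * D.B a b ^ 2 + 1 = 0) :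
    ∃ (φ : K) (e₁ e₂ e₃ : V), φ ^ 2 = φ + 1 ∧ D.Rt e₁ ∧ D.Rt e₂ ∧ D.Rt e₃ ∧ D.B e₁ e₂ = 0 ∧ D.B e₁ e₃ = 0 ∧
      D.B e₂ e₃ = 0 ∧ D.Rt ((2 : K)⁻¹ • (φ • e₁ + e₂ + (φ - 1) • e₃)) := by
  obtain ⟨c, hc, h1, h2⟩ := exists_third (D := D) a b ha.ne_zero
  exact ((five_aux h5 ha hb h hc h1).resolve_left h2).2

theorem b2aux (h5 : D.No5) (ha : D.Rt a) (hb : D.Rt b) (h : D.B a b ^ 2 = 2) (hc : D.Rt c)
    (hcs : ∀ x y : K, c ≠ x • a + y • b) : (D.B a c = 0 ∧ D.B b c = 0) ∨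
      (T4 (D.B a c ^ 2) ∧ T4 (D.B b c ^ 2) ∧ (D.G a b c = 1 ∨ D.G a b c = 2)) := by
  have h2 := D.two
  have h4 : D.B a b ^ 2 ≠ 4 := fun e => h2 (by linear_combination h - e)
  have h0 : D.B a b ≠ 0 := fun e => h2 (by simpa [e] using h.symm)
  by_cases hG : D.G a b c = 0
  · exfalso
    obtain ⟨n, w, n0, hn, h1, h2', hl, hw, li⟩ := deg_triple ha hb hc h4 hG hcs
    obtain ⟨x, y, x0, y0, l1, l2⟩ : ∃ x y : K, x ≠ 0 ∧ y ≠ 0 ∧ D.Lam n (x • a) ∧ D.Lam n (y • b) := by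
      rcases hw with hw | hw
      · exact ⟨_, _, hw, by simp [D.symm b, hw, h0], hl.root hn ha h1, (hl.root hn ha h1).root hn hb h2'⟩
      · exact ⟨_, _, by simp [hw, h0], hw, (hl.root hn hb h2').root hn ha h1, hl.root hn hb h2'⟩
    refine lemK2 h5 hn l1 l2 (Fintype.linearIndependent_iff.2 fun g e => ?_)
    obtain ⟨k1, k2, k3⟩ := li (g 0) (g 1 * x) (g 2 * y) (by simpa [Fin.sum_univ_succ, add_assoc, mul_smul] using e)
    intro i
    fin_cases i
    exacts [k1, (mul_eq_zero.1 k2).resolve_right x0, (mul_eq_zero.1 k3).resolve_right y0]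
  rcases rank3 ha hb hc hG with k | k | k | ⟨-, k1, k2, k3 | k3⟩ | ⟨k | k | k, -⟩
  · exact (h0 k.1).elim
  · exact (h0 k.1).elim
  · exact Or.inl k
  · exact Or.inr ⟨k1, k2, k3.resolve_left hG⟩
  · exact (h0 k3).elim
  · exact (h0 k).elim
  · exact (one_ne_zero (α := K) (by linear_combination k - h)).elim
  · exact (one_ne_zero (α := K) (by linear_combination -k + (D.B a b ^ 2 - 1) * h)).elim

theorem b2lem (h5 : D.No5) {s : K} (hs : s ^ 2 = 2) (he : D.Rt e) (he' : D.Rt e') (h0 : D.B e e' = 0)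
    (hb : D.Rt (s⁻¹ • (e + e'))) (hc : D.Rt c) : (∃ x y : K, c = x • e + y • e') ∨
      (D.B e c ^ 2 = 0 ∧ D.B e' c ^ 2 = 0) ∨ (D.B e c ^ 2 = 0 ∧ D.B e' c ^ 2 = 2) ∨
      (D.B e c ^ 2 = 2 ∧ D.B e' c ^ 2 = 0) ∨ (D.B e c ^ 2 = 1 ∧ D.B e' c ^ 2 = 1) := by
  have h2 := D.two
  have s0 : s ≠ 0 := by rintro rfl; exact h2 (by simpa using hs.symm)
  have si : s⁻¹ = s / 2 := by field_simp; linear_combination -hs
  refine or_iff_not_imp_left.2 fun hcs => ?_
  push Not at hcs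
  have b1 : D.B e (s⁻¹ • (e + e')) = s := by simp [he.1, h0, si, h2]
  have b2 : D.B e' (s⁻¹ • (e + e')) = s := by simp [he'.1, h0, D.symm e' e, si, h2]
  have b3 : D.B (s⁻¹ • (e + e')) c = s / 2 * (D.B e c + D.B e' c) := by simp [si, mul_add]
  have k1 := b2aux h5 he hb (by rw [b1, hs]) hc fun x y k => hcs (x + y * s⁻¹) (y * s⁻¹) (by rw [k]; module)
  have k2 := b2aux h5 he' hb (by rw [b2, hs]) hc fun x y k => hcs (y * s⁻¹) (x + y * s⁻¹) (by rw [k]; module)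
  rw [G, b1, b3] at k1
  rw [b3] at k2
  generalize D.B e c = y at *
  generalize D.B e' c = y' at *
  have z : ∀ {u v : K}, u = 0 → s / 2 * (u + v) = 0 → v = 0 := fun k k' => by simpa [k, s0, h2] using k'
  rcases k1 with ⟨k, k'⟩ | ⟨t1, t3, g⟩
  · simp [k, z k k']
  rcases k2 with ⟨k, k'⟩ | ⟨t2, -, -⟩
  · simp [k, z k (by rwa [add_comm])]
  have g' : y ^ 2 + y' ^ 2 = 2 ∨ y ^ 2 + y' ^ 2 = 0 := by
    refine g.imp (fun g => ?_) fun g => ?_ <;> refine mul_left_cancel₀ h2 ?_ <;> field_simp at g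
    · linear_combination -g + (-4 - (y + y') ^ 2 + 2 * y * (y + y')) * hs
    · linear_combination -g + (-4 - (y + y') ^ 2 + 2 * y * (y + y')) * hs
  have bad : y ^ 2 * y' ^ 2 = 2 → (3 : K) = 0 → y ^ 2 + y' ^ 2 = 0 → False := fun p1 p2 p3 => by
    have e : (s / 2 * (y + y')) ^ 2 = y * y' := by field_simp; linear_combination (y + y') ^ 2 * hs + 2 * p3
    rw [e] at t3
    rcases t3 with k | k | k
    · exact h2 (by linear_combination -p1 + y * y' * k)
    · exact one_ne_zero (α := K) (by linear_combination -p1 + (y * y' + 1) * k)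
    · exact h2 (by linear_combination p1 - (y * y' + 2) * k)
  rcases t1 with a | a | a <;> rcases t2 with b | b | b <;> rcases g' with g | g <;>
    first
    | exact Or.inl ⟨a, b⟩
    | exact Or.inr (Or.inl ⟨a, b⟩)
    | exact Or.inr (Or.inr (Or.inl ⟨a, b⟩))
    | exact Or.inr (Or.inr (Or.inr ⟨a, b⟩))
    | exact (one_ne_zero (α := K) (by linear_combination a + b - g)).elim
    | exact (one_ne_zero (α := K) (by linear_combination g - a - b)).elim
    | exact (h2 (by linear_combination g - a - b)).elim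
    | exact (mul_ne_zero h2 h2 (by linear_combination g - a - b)).elim
    | exact (bad (by rw [a, b]; ring) (by linear_combination g - a - b) g).elim

end Cx

end H97s
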