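import Mathlib
import Cfsg.Agent.Lib.Sp4R.R3
import Cfsg.Agent.Lib.Sp4R.SysN

/-!
# Systems containing `B₂`
-/

set_option autoImplicit false

namespace H97s

namespace Sys

open Cx

variable {K V A : Type*} [Field K] [AddCommGroup V] [Module K V] [Ring A] [Algebra K A] {D : Cx K V A}
  {s : K} {J : Type*} {e : J → V} {c : V}

variable (D) in
/-- a frame of type `B` -/
structure FB (s : K) {J : Type*} (e : J → V) : Prop where
  hs : s ^ 2 = 2
  r1 : ∀ i, D.Rt (e i)
  o0 : ∀ i j, i ≠ j → D.B (e i) (e j) = 0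
  r2 : ∀ i j, i ≠ j → D.Rt (s⁻¹ • (e i + e j))

theorem s_ne (D : Cx K V A) (hs : s ^ 2 = 2) : s ≠ 0 := fun k => D.two (by rw [← hs, k]; ring)

theorem FB.rt (F : FB D s e) {i j : J} (h : i ≠ j) {x y : K} (hx : x ^ 2 = 1) (hy : y ^ 2 = 1) :
    D.Rt (s⁻¹ • (x • e i + y • e j)) := by
  have m : D.Rt (s⁻¹ • (e i - e j)) := (F.r1 j).of (F.r2 i j h) (t := s⁻¹ * 2)
    (by simp [(F.r1 j).1, F.o0 _ _ h.symm]) (by module)
  rcases sq_eq_one_iff.1 hx with rfl | rfl <;> rcases sq_eq_one_iff.1 hy with rfl | rfl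
  exacts [(F.r2 i j h).congr (by module), m.congr (by module), m.neg.congr (by module),
    (F.r2 i j h).neg.congr (by module)]

/-- a new orthogonal root linked with one vector of the frame extends the frame -/
theorem FB.cons {n : ℕ} {e : Fin n → V} (F : FB D s e) {w : V} (hw : D.Rt w) (h0 : ∀ i, D.B (e i) w = 0) {i : Fin n}
    {x : K} (hx : x ^ 2 = 1) (h1 : D.Rt (s⁻¹ • (x • e i + w))) : FB D s (Fin.cons w e : Fin (n + 1) → V) := by
  have s0 := s_ne D F.hs
  have k0 : D.Rt (s⁻¹ • (e i + w)) := by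
    rcases sq_eq_one_iff.1 hx with rfl | rfl
    · exact h1.congr (by module)
    · exact (F.r1 i).of h1 (t := s⁻¹ * -2) (by simp [(F.r1 i).1, h0]) (by module)
  have k : ∀ j, D.Rt (s⁻¹ • (e j + w)) := fun j => by
    by_cases h : i = j
    · exact h ▸ k0
    refine (F.rt h (x := 1) (y := -1) (by ring) (by ring)).of k0 (t := 1) ?_ (by module)
    simp [(F.r1 i).1, h0, F.o0 _ _ (Ne.symm h)]
    rw [← F.hs]; field_simp
  refine ⟨F.hs, Fin.cases hw F.r1, fun i j => ?_, fun i j => ?_⟩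
  · refine Fin.cases (Fin.cases (fun h => absurd rfl h) (fun j _ => ?_) j)
      (fun i => Fin.cases (fun _ => h0 i) (fun j h => F.o0 i j fun k => h (by rw [k])) j) i
    rw [D.symm]; exact h0 j
  · exact Fin.cases (Fin.cases (fun h => absurd rfl h) (fun j _ => (k j).congr (by simp [add_comm])) j)
      (fun i => Fin.cases (fun _ => k i) (fun j h => F.r2 i j fun k => h (by rw [k])) j) i

theorem FB.ext {n : ℕ} {e : Fin n → V} (F : FB D s e) (hc : D.Rt c) {i : Fin n} (h1 : D.B (e i) c ^ 2 = 2)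
    (h0 : ∀ j, j ≠ i → D.B (e j) c = 0) : ∃ e : Fin (n + 1) → V, FB D s e := by
  have s0 := s_ne D F.hs
  wlog h : D.B (e i) c = s generalizing c
  · refine this hc.neg (by simpa using h1) (fun j hj => by simp [h0 j hj]) ?_
    rw [map_neg, (sq_eq_sq_iff_eq_or_eq_neg.1 (h1.trans F.hs.symm)).resolve_left h, neg_neg]
  refine ⟨_, F.cons (w := s • c - e i) ((hc.of (F.r1 i) (t := s) (by rw [D.symm, h]) rfl).neg.congr (neg_sub _ _))
    (fun j => ?_) (i := i) (x := 1) (by ring) (hc.congr ?_)⟩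
  · by_cases hj : j = i
    · simp [hj, h, (F.r1 i).1, ← pow_two, F.hs]
    · simp [h0 j hj, F.o0 _ _ hj]
  · simp [smul_smul, s0]

variable [IsAlgClosed K]

theorem FB.cases (h5 : D.No5) (F : FB D s e) (hc : D.Rt c) (ho : ∀ i j, i ≠ j → ∀ x y : K, c ≠ x • e i + y • e j)
    [Nontrivial J] {i : J} (hi : D.B (e i) c ≠ 0) :
    (D.B (e i) c ^ 2 = 2 ∧ ∀ j, j ≠ i → D.B (e j) c = 0) ∨ ∀ j, D.B (e j) c ^ 2 = 1 := by
  have k : ∀ j, j ≠ i → (D.B (e i) c ^ 2 = 2 ∧ D.B (e j) c = 0) ∨ (D.B (e i) c ^ 2 = 1 ∧ D.B (e j) c ^ 2 = 1) :=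
    fun j hj => by
      rcases b2lem h5 F.hs (F.r1 i) (F.r1 j) (F.o0 i j hj.symm) (F.r2 i j hj.symm) hc with ⟨x, y, l⟩ | l | l | l | l
      · exact absurd l (ho i j hj.symm x y)
      · exact absurd (pow_eq_zero_iff two_ne_zero |>.1 l.1) hi
      · exact absurd (pow_eq_zero_iff two_ne_zero |>.1 l.1) hi
      · exact Or.inl ⟨l.1, pow_eq_zero_iff two_ne_zero |>.1 l.2⟩
      · exact Or.inr l
  have n : ¬ (D.B (e i) c ^ 2 = 2 ∧ D.B (e i) c ^ 2 = 1) := fun l =>
    one_ne_zero (α := K) (by linear_combination l.2 - l.1)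
  obtain ⟨j, hj⟩ := exists_ne i
  rcases k j hj with l | l
  · exact Or.inl ⟨l.1, fun m hm => ((k m hm).resolve_right fun p => n ⟨l.1, p.1⟩).2⟩
  · refine Or.inr fun m => ?_
    by_cases hm : m = i
    · exact hm ▸ l.1
    · exact ((k m hm).resolve_left fun p => n ⟨p.1, l.1⟩).2

theorem FB.out (h5 : D.No5) {n : ℕ} {e : Fin (n + 2) → V} (F : FB D s e) (hn : n ≤ 2) :
    (∃ e : Fin (n + 3) → V, FB D s e) ∨
      ∃ c, D.Rt c ∧ c ∉ Submodule.span K (Set.range e) ∧ ∀ j, D.B (e j) c ^ 2 = 1 := by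
  obtain ⟨c, hc, h1, h0⟩ := D.exists_out (D.span_ne_top e (by simp; omega)) (ker_ne_top (D := D) (F.r1 0).ne_zero)
  rcases F.cases h5 hc (fun i j _ x y k => h1 (k ▸ Submodule.add_mem _
    (Submodule.smul_mem _ _ (Submodule.subset_span ⟨i, rfl⟩)) (Submodule.smul_mem _ _ (Submodule.subset_span ⟨j, rfl⟩))))
    h0 with ⟨k1, k2⟩ | k
  · exact Or.inl (F.ext hc k1 k2)
  · exact Or.inr ⟨c, hc, h1, k⟩

theorem FB.five (h5 : D.No5) {e : Fin 5 → V} (F : FB D s e) : False := by
  have h2 := D.two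
  have z := F.o0
  have o : ∀ i, D.B (e i) (e i) = 2 := fun i => (F.r1 i).1
  have pp : ∀ w, (∀ i, D.B (e i) w = 0) → w = 0 := fun w => perp5 e z fun i => by rw [o]; exact h2
  have inv : ∀ c, D.Rt c → ∀ k, ∃ l, D.r c (e k) = e l ∨ D.r c (e k) = -e l := fun c hc k => by
    by_cases h0 : D.B c (e k) = 0
    · exact ⟨k, Or.inl (r_of h0)⟩
    rw [D.symm] at h0
    by_cases ho : ∀ i j, i ≠ j → ∀ x y : K, c ≠ x • e i + y • e j
    · exfalso
      have ec : (2 : K) • c = ∑ j, D.B (e j) c • e j := sub_eq_zero.1 (pp _ fun k => by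
        simp only [map_sub, map_sum, map_smul, smul_eq_mul]
        rw [Finset.sum_eq_single k (fun j _ hj => by rw [z k j hj.symm, mul_zero]) (by simp), o]; ring)
      have nc : 2 * 2 = ∑ j, D.B (e j) c ^ 2 := by
        have := congrArg (D.B c) ec
        simpa [hc.1, D.symm c, pow_two] using this
      rcases F.cases h5 hc ho h0 with ⟨k1, k2⟩ | k
      · rw [Finset.sum_eq_single k (fun j _ hj => by rw [k2 j hj]; ring) (by simp), k1] at nc
        exact h2 (by linear_combination nc)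
      · rw [Fin.sum_univ_five] at nc
        exact one_ne_zero (α := K) (by linear_combination -nc - k 0 - k 1 - k 2 - k 3 - k 4)
    push Not at ho
    obtain ⟨i, j, hij, x, y, ec⟩ := ho
    wlog hk : k = i generalizing i j x y
    · refine this j i hij.symm y x (ec.trans (add_comm _ _)) (by_contra fun l => h0 ?_)
      simp [ec, z _ _ hk, z _ _ l]
    subst hk
    have b1 : D.B (e k) c = x * 2 := by simp [ec, o, z _ _ hij]
    have n : x ^ 2 + y ^ 2 = 1 := mul_left_cancel₀ h2 (by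
      have := hc.1
      simp [ec, o, z _ _ hij, z _ _ hij.symm] at this
      linear_combination this)
    obtain ⟨l, hl⟩ : ∃ l, l ∉ ({k, j} : Finset (Fin 5)) := by
      by_contra! m
      have := Finset.card_le_card (show Finset.univ ⊆ {k, j} from fun l _ => m l)
      have := this.trans Finset.card_le_two
      simp at this
    simp only [Finset.mem_insert, Finset.mem_singleton, not_or] at hl
    have b2 : D.B (e l) c = 0 := by simp [ec, z _ _ hl.1, z _ _ hl.2]
    have er : D.r c (e k) = (1 - 2 * x ^ 2) • e k + (-(2 * x * y)) • e j := by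
      rw [r, D.symm, b1, ec]; module
    rcases b2lem h5 F.hs (F.r1 k) (F.r1 l) (z _ _ (Ne.symm hl.1)) (F.r2 _ _ (Ne.symm hl.1)) hc with
      ⟨u, v, m⟩ | m | m | m | m
    · have y0 : y = 0 := by
        have := congrArg (D.B (e j)) (ec.symm.trans m)
        simpa [o, z _ _ hij.symm, z _ _ (Ne.symm hl.2), h2] using this
      refine ⟨k, Or.inr ?_⟩
      rw [er, y0, show 1 - 2 * x ^ 2 = -1 by rw [y0] at n; linear_combination -2 * n]; module
    · exact absurd (pow_eq_zero_iff two_ne_zero |>.1 m.1) h0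
    · exact absurd (pow_eq_zero_iff two_ne_zero |>.1 m.1) h0
    · have x2 : 1 - 2 * x ^ 2 = 0 := mul_left_cancel₀ h2 (by have := m.1; rw [b1] at this; linear_combination -this)
      have : (-(2 * x * y)) ^ 2 = 1 := by linear_combination (4 * x ^ 2) * n + (2 * x ^ 2 - 1) * x2
      refine ⟨j, ?_⟩
      rw [er, x2]
      rcases sq_eq_one_iff.1 this with l | l <;> rw [l]
      exacts [Or.inl (by module), Or.inr (by module)]
    · rw [b2] at m
      exact absurd m.2 (by simp)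
  have h1 : D.X ≤ stab {D.ι (e 0), -D.ι (e 0)} := le_of_refl (Z := {v | ∃ l, v = e l ∨ v = -e l})
    (by rintro _ ⟨l, rfl | rfl⟩; exacts [F.r1 l, (F.r1 l).neg]) ⟨_, 0, Or.inl rfl⟩
    (by
      rintro c hc _ ⟨k, rfl | rfl⟩
      · exact inv c hc k
      · obtain ⟨l, m⟩ := inv c hc k
        exact ⟨l, m.symm.imp (fun m => by rw [r_neg, m, neg_neg]) fun m => by rw [r_neg, m]⟩)
    (neg_one_mem_stab _) fun a ha => un_mem_stab _ (by
      have k : D.ι a * D.ι (e 0) * D.ι a = D.ι (e 0) ∨ D.ι a * D.ι (e 0) * D.ι a = -D.ι (e 0) := by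
        have k : ∀ l, D.ι (e l) * D.ι (e 0) * D.ι (e l) = D.ι (e 0) ∨
            D.ι (e l) * D.ι (e 0) * D.ι (e l) = -D.ι (e 0) := fun l => by
          by_cases h : l = 0
          · left; rw [h, sq1 (o 0), one_mul]
          · right; rw [mul_assoc, anti (z _ _ h), mul_neg, ← mul_assoc, sq1 (o l), one_mul]
        obtain ⟨l, rfl | rfl⟩ := ha
        · exact k l
        · simpa using k l
      rintro _ (rfl | rfl)
      · exact k
      · simpa [neg_eq_iff_eq_neg, or_comm] using k)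
  have h3 := (h1 (F.r2 0 1 (by decide)).un_mem _).1 (Or.inl rfl)
  change D.ι _ * D.ι _ * D.ι _ ∈ _ at h3
  rw [mul_assoc, ← neg_neg (D.ι _ * _), ← r_eq (F.r2 0 1 (by decide)).1, ← map_neg, ← map_neg] at h3
  have s0 := s_ne D F.hs
  have e1 : D.B (e 0) (-D.r (s⁻¹ • (e 0 + e 1)) (e 0)) = 0 := by
    simp [B_r', o, z]
    rw [← F.hs]; field_simp; ring
  rcases h3 with k | k <;> rw [inj k] at e1
  · exact h2 (by rw [← o 0, e1])
  · exact h2 (by simpa [o] using e1)

theorem FB.four (h5 : D.No5) {e : Fin 4 → V} (F : FB D s e) : False := by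
  rcases F.out h5 le_rfl with ⟨e, F⟩ | ⟨c, hc, h1, k⟩
  · exact F.five h5
  have h2 := D.two
  have z := F.o0
  have o : ∀ i, D.B (e i) (e i) = 2 := fun i => (F.r1 i).1
  have p : ∀ i, D.B (e i) ((2 : K) • c - ∑ j, D.B (e j) c • e j) = 0 := fun k => by
    simp only [map_sub, map_sum, map_smul, smul_eq_mul]
    rw [Finset.sum_eq_single k (fun j _ hj => by rw [z k j hj.symm, mul_zero]) (by simp), o]; ring
  have := perp4 e z (fun i => by rw [o]; exact h2) p (by
    nth_rewrite 1 [LinearMap.map_sub₂]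
    simp only [map_sum, LinearMap.sum_apply, map_smul, LinearMap.smul_apply, p]
    simp [hc.1, D.symm c, ← pow_two, k]; norm_num)
  refine h1 ((Submodule.smul_mem_iff _ h2).1 ?_)
  rw [sub_eq_zero.1 this]
  exact Submodule.sum_mem _ fun j _ => Submodule.smul_mem _ _ (Submodule.subset_span ⟨j, rfl⟩)

theorem FB.three (h5 : D.No5) {e : Fin 3 → V} (F : FB D s e) : False := by
  rcases F.out h5 (by norm_num) with ⟨e, F⟩ | ⟨c, hc, -, k⟩
  · exact F.four h5
  have z := F.o0
  have o : ∀ i, D.B (e i) (e i) = 2 := fun i => (F.r1 i).1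
  obtain ⟨y, hy⟩ : ∃ y : Fin 3 → K, ∀ j, D.B (e j) c = y j := ⟨_, fun _ => rfl⟩
  have hy' : ∀ j, D.B c (e j) = y j := fun j => by rw [D.symm, hy]
  simp only [hy] at k
  have c1 : D.Rt (c - y 0 • e 0 - y 1 • e 1 - y 2 • e 2) :=
    (F.r1 2).of ((F.r1 1).of ((F.r1 0).of hc (hy 0) rfl) (t := y 1) (by simp [hy, z]) rfl) (by simp [hy, z]) rfl
  refine (F.cons (w := (2 : K) • c - y 0 • e 0 - y 1 • e 1 - y 2 • e 2) (hc.of c1 (t := -1) ?_ (by module)) (fun i => ?_)
    (i := 0) (k 0) ((hc.of (F.rt (i := 1) (j := 2) (by decide) (k 1) (k 2)) (t := s⁻¹ * 2) ?_ rfl).neg.congr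
      (by module))).four h5
  · simp [hc.1, hy', ← pow_two, k]; norm_num
  · fin_cases i <;> simp [hy, o, z] <;> ring
  · simp [hy', ← pow_two, k]; ring

theorem FB.two (h5 : D.No5) {e : Fin 2 → V} (F : FB D s e) : False := by
  rcases F.out h5 (by norm_num) with ⟨e, F⟩ | ⟨c, hc, -, k⟩
  · exact F.three h5
  have z := F.o0
  have o : ∀ i, D.B (e i) (e i) = 2 := fun i => (F.r1 i).1
  have s0 := s_ne D F.hs
  obtain ⟨y, hy⟩ : ∃ y : Fin 2 → K, ∀ j, D.B (e j) c = y j := ⟨_, fun _ => rfl⟩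
  simp only [hy] at k
  have m : D.Rt (y 0 • e 0) := by
    rcases sq_eq_one_iff.1 (k 0) with l | l <;> rw [l]
    exacts [(F.r1 0).congr (by module), (F.r1 0).neg.congr (by module)]
  have a : D.B (s⁻¹ • (y 0 • e 0 + y 1 • e 1)) (s⁻¹ • (y 0 • e 0 + -y 1 • e 1)) = 0 := by
    simp [o, z]; linear_combination (s⁻¹ ^ 2 * 2) * k 0 - (s⁻¹ ^ 2 * 2) * k 1
  have b : D.Rt (s⁻¹ • (s⁻¹ • (y 0 • e 0 + y 1 • e 1) + s⁻¹ • (y 0 • e 0 + -y 1 • e 1))) := m.congr (by
    have : s⁻¹ * s⁻¹ * 2 = 1 := by rw [← F.hs]; field_simp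
    match_scalars
    · linear_combination -(y 0) * this
    · ring)
  have F' : FB D s ![s⁻¹ • (y 0 • e 0 + y 1 • e 1), s⁻¹ • (y 0 • e 0 + -y 1 • e 1)] := by
    refine ⟨F.hs, fun i => ?_, fun i j h => ?_, fun i j h => ?_⟩
    · fin_cases i
      exacts [F.rt (by decide) (k 0) (k 1), F.rt (by decide) (k 0) (by rw [← k 1]; ring)]
    · fin_cases i <;> fin_cases j
      exacts [absurd rfl h, a, (D.symm _ _).trans a, absurd rfl h]
    · fin_cases i <;> fin_cases j
      exacts [absurd rfl h, b, b.congr (by simp [add_comm]), absurd rfl h]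
  obtain ⟨e, F⟩ := F'.ext hc (i := 0) (by
    simp [hy, ← pow_two, k]; field_simp; linear_combination -2 * F.hs) (fun j hj => by
    fin_cases j
    · exact absurd rfl hj
    · simp [hy, ← pow_two, k])
  exact F.three h5

end Sys

namespace Cx

open Sys

variable {K V A : Type*} [Field K] [IsAlgClosed K] [AddCommGroup V] [Module K V] [Ring A] [Algebra K A] {D : Cx K V A}

theorem b_case (h5 : D.No5) {a b : V} (ha : D.Rt a) (hb : D.Rt b) (h : D.B a b ^ 2 = 2) : False := by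
  have s0 := s_ne D h
  have z : D.B a (D.B a b • b - a) = 0 := by simp [ha.1, ← pow_two, h]
  have r : D.Rt ((D.B a b)⁻¹ • (a + (D.B a b • b - a))) := hb.congr (by simp [smul_smul, s0])
  refine FB.two h5 (s := D.B a b) (e := ![a, D.B a b • b - a]) ⟨h, fun i => ?_, fun i j h => ?_, fun i j h => ?_⟩
  · fin_cases i
    exacts [ha, (hb.of ha (D.symm _ _) rfl).neg.congr (neg_sub _ _)]
  · fin_cases i <;> fin_cases j
    exacts [absurd rfl h, z, (D.symm _ _).trans z, absurd rfl h]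
  · fin_cases i <;> fin_cases j
    exacts [absurd rfl h, r, r.congr (by simp), absurd rfl h]

end Cx

end H97s
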