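import Mathlib
import Cfsg.Prelude.Def_GeometricClasses
import Cfsg.Agent.Lib.Sp.Basic
import Cfsg.Agent.Lib.Sp4R.Cl

/-!
# The Clifford system of self-adjoint traceless matrices of degree four
-/

set_option autoImplicit false

namespace H97s

open Cfsg Cfsg.Geo Matrix Module

namespace Mt

variable {K : Type*} [Field K]

/-- self-adjoint traceless matrices -/
def io : (Fin 5 → K) →ₗ[K] Matrix (Fin 2 ⊕ Fin 2) (Fin 2 ⊕ Fin 2) K where
  toFun v := fromBlocks !![v 0, v 1; v 2, -v 0] !![0, v 3; -v 3, 0] !![0, v 4; -v 4, 0] !![v 0, v 2; v 1, -v 0]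
  map_add' v w := by
    ext (i | i) (j | j) <;> fin_cases i <;> fin_cases j <;> simp [add_comm]
  map_smul' c v := by
    ext (i | i) (j | j) <;> fin_cases i <;> fin_cases j <;> simp

theorem io_apply (v : Fin 5 → K) : io v =
    fromBlocks !![v 0, v 1; v 2, -v 0] !![0, v 3; -v 3, 0] !![0, v 4; -v 4, 0] !![v 0, v 2; v 1, -v 0] := rfl

/-- the invariant form -/
def bf : LinearMap.BilinForm K (Fin 5 → K) :=
  LinearMap.mk₂ K (fun v w => 2 * v 0 * w 0 + v 1 * w 2 + v 2 * w 1 - v 3 * w 4 - v 4 * w 3)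
    (fun _ _ _ => by simp only [Pi.add_apply]; ring) (fun _ _ _ => by simp only [Pi.smul_apply, smul_eq_mul]; ring)
    (fun _ _ _ => by simp only [Pi.add_apply]; ring) (fun _ _ _ => by simp only [Pi.smul_apply, smul_eq_mul]; ring)

theorem bf_apply (v w : Fin 5 → K) : bf v w = 2 * v 0 * w 0 + v 1 * w 2 + v 2 * w 1 - v 3 * w 4 - v 4 * w 3 := rfl

theorem io_cl (v w : Fin 5 → K) : io v * io w + io w * io v = bf v w • 1 := by
  ext (i | i) (j | j) <;> fin_cases i <;> fin_cases j <;>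
    simp [io_apply, bf_apply, Matrix.mul_apply, Fintype.sum_sum_type] <;> ring

theorem bf_nd (h2 : (2 : K) ≠ 0) (v : Fin 5 → K) (h : ∀ w, bf v w = 0) : v = 0 := by
  have h0 := h (Pi.single 0 1)
  have h1 := h (Pi.single 1 1)
  have h2 := h (Pi.single 2 1)
  have h3 := h (Pi.single 3 1)
  have h4 := h (Pi.single 4 1)
  ext i
  fin_cases i <;> simp_all [bf_apply]

theorem io_adj (v : Fin 5 → K) : (io v)ᵀ * J (Fin 2) K = J (Fin 2) K * io v := by
  ext (i | i) (j | j) <;> fin_cases i <;> fin_cases j <;> simp [io_apply, J, Matrix.mul_apply, Fintype.sum_sum_type]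

theorem io_trace (v : Fin 5 → K) : (io v).trace = 0 := by
  simp [io_apply, trace, Fintype.sum_sum_type]

theorem exists_io (h2 : (2 : K) ≠ 0) {x : Matrix (Fin 2 ⊕ Fin 2) (Fin 2 ⊕ Fin 2) K}
    (h : xᵀ * J (Fin 2) K = J (Fin 2) K * x) : ∃ (t : K) (v : Fin 5 → K), x = t • 1 + io v := by
  have e := fun i j => congrFun (congrFun h i) j
  have e1 := e (.inl 0) (.inl 0)
  have e2 := e (.inl 0) (.inl 1)
  have e3 := e (.inl 1) (.inl 1)
  have e4 := e (.inr 0) (.inr 0)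
  have e5 := e (.inr 0) (.inr 1)
  have e6 := e (.inr 1) (.inr 1)
  have e7 := e (.inl 0) (.inr 0)
  have e8 := e (.inl 0) (.inr 1)
  have e9 := e (.inl 1) (.inr 0)
  have e10 := e (.inl 1) (.inr 1)
  simp [J, Matrix.mul_apply, Fintype.sum_sum_type, eq_neg_iff_add_eq_zero, neg_eq_iff_add_eq_zero, ← two_mul, h2]
    at e1 e2 e3 e4 e5 e6 e7 e8 e9 e10
  refine ⟨(x (.inl 0) (.inl 0) + x (.inl 1) (.inl 1)) / 2, ![(x (.inl 0) (.inl 0) - x (.inl 1) (.inl 1)) / 2,
    x (.inl 0) (.inl 1), x (.inl 1) (.inl 0), x (.inl 0) (.inr 1), x (.inr 0) (.inl 1)], ?_⟩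
  ext (i | i) (j | j) <;> fin_cases i <;> fin_cases j <;> simp [io_apply, *] <;> first
    | (field_simp; ring1) | linear_combination e2 | linear_combination e5 | (field_simp; linear_combination 2 * e7)
    | (field_simp; linear_combination 2 * e10) | linear_combination e8 | linear_combination e9

theorem exists_io' (h2 : (2 : K) ≠ 0) {x : Matrix (Fin 2 ⊕ Fin 2) (Fin 2 ⊕ Fin 2) K}
    (h : xᵀ * J (Fin 2) K = J (Fin 2) K * x) (h0 : x.trace = 0) : ∃ v : Fin 5 → K, x = io v := by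
  obtain ⟨t, v, rfl⟩ := exists_io h2 h
  have : t * (2 * 2) = 0 := by
    rw [← h0]; simp [io_trace]; norm_num
  exact ⟨v, by simp [(mul_eq_zero.1 this).resolve_right (mul_ne_zero h2 h2)]⟩

theorem ker_le {n m : Matrix (Fin 2 ⊕ Fin 2) (Fin 2 ⊕ Fin 2) K} {c : K} (hc : c ≠ 0) (h : n * m + m * n = c • 1) :
    finrank K (LinearMap.ker n.mulVecLin) ≤ 2 := by
  have h1 : LinearMap.ker n.mulVecLin ≤ LinearMap.range n.mulVecLin := fun x hx => ⟨c⁻¹ • (m *ᵥ x), by
    have := congrArg (· *ᵥ x) h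
    simp only [add_mulVec, ← mulVec_mulVec, show n *ᵥ x = 0 from hx, mulVec_zero, add_zero, smul_mulVec, one_mulVec] at this
    rw [map_smul, mulVecLin_apply, this, smul_smul, inv_mul_cancel₀ hc, one_smul]⟩
  have h2 := Submodule.finrank_mono h1
  have h3 := n.mulVecLin.finrank_range_add_finrank_ker
  simp only [finrank_fintype_fun_eq_card, Fintype.card_sum, Fintype.card_fin] at h3
  omega

theorem minors (h2 : (2 : K) ≠ 0) {n w : Fin 5 → K} (hn : bf n n = 0) (hw : bf w w = 0) (h : bf n w = 0) (i j k l) :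
    (io n * io w) i k * (io n * io w) l j = (io n * io w) l k * (io n * io w) i j := by
  by_cases h0 : io n * io w = 0
  · simp [h0]
  have sq : ∀ v : Fin 5 → K, bf v v = 0 → io v * io v = 0 := fun v hv => by
    have := io_cl v v
    rwa [hv, zero_smul, ← two_smul K, smul_eq_zero_iff_right h2] at this
  have kr : ∀ v : Fin 5 → K, v ≠ 0 → finrank K (LinearMap.ker (io v).mulVecLin) ≤ 2 := fun v hv => by
    obtain ⟨m, hm⟩ := not_forall.1 (mt (bf_nd h2 v) hv)
    exact ker_le hm (io_cl v m)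
  have an : io w * io n = -(io n * io w) := by rw [eq_neg_iff_add_eq_zero, add_comm, io_cl, h, zero_smul]
  have k1 := kr n (by rintro rfl; simp at h0)
  have k2 := kr w (by rintro rfl; simp at h0)
  have k3 : finrank K ↥(LinearMap.ker (io n).mulVecLin ⊓ LinearMap.ker (io w).mulVecLin) ≤ 1 := by
    by_contra! k3
    have e : LinearMap.ker (io n).mulVecLin ⊓ LinearMap.ker (io w).mulVecLin = LinearMap.ker (io w).mulVecLin :=
      Submodule.eq_of_le_of_finrank_le inf_le_right (by omega)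
    refine h0 (ext_of_mulVec_single fun i => ?_)
    have : io w *ᵥ Pi.single i 1 ∈ LinearMap.ker (io w).mulVecLin := by
      rw [LinearMap.mem_ker, mulVecLin_apply, mulVec_mulVec, sq w hw, zero_mulVec]
    rw [← e] at this
    rw [← mulVec_mulVec, zero_mulVec]; exact this.1
  obtain ⟨v, hv⟩ := finrank_le_one_iff.1 k3
  have col : ∀ j, ∃ c : K, ∀ i, (io n * io w) i j = c * v.1 i := fun j => by
    obtain ⟨c, hc⟩ := hv ⟨(io n * io w) *ᵥ Pi.single j 1, by
      change io n *ᵥ _ = 0; rw [mulVec_mulVec, ← mul_assoc, sq n hn, zero_mul, zero_mulVec], by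
      change io w *ᵥ _ = 0; rw [mulVec_mulVec, ← mul_assoc, an, neg_mul, mul_assoc, sq w hw, mul_zero, neg_zero, zero_mulVec]⟩
    exact ⟨c, fun i => by simpa using (congrFun (congrArg Subtype.val hc) i).symm⟩
  obtain ⟨c, hc⟩ := col k
  obtain ⟨d, hd⟩ := col j
  rw [hc, hc, hd, hd]; ring

theorem rank_le_of_minors {ι : Type*} [Fintype ι] {M : Matrix ι ι K} (h : ∀ i j k l, M i k * M l j = M l k * M i j) :
    M.rank ≤ 1 := by
  by_cases h0 : M = 0
  · simp [h0]
  obtain ⟨l, k, hl⟩ : ∃ l k, M l k ≠ 0 := by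
    by_contra! e
    exact h0 (Matrix.ext e)
  rw [show M = vecMulVec (fun i => M i k) (fun j => M l j / M l k) by
    ext i j; rw [vecMulVec_apply, ← mul_div_assoc, h, mul_div_cancel_left₀ _ hl]]
  exact rank_vecMulVec_le _ _

theorem sp_iff {g : GL (Fin 2 ⊕ Fin 2) K} (h : g ∈ spGL 2 K) : g.valᵀ * J (Fin 2) K * g.val = J (Fin 2) K :=
  SymplecticGroup.mem_iff'.1 (H11.Sp.mem_iff_form.2 h)

theorem scalar_sp {g : GL (Fin 2 ⊕ Fin 2) K} (h : g ∈ spGL 2 K) (hs : g ∈ scalars (Fin 2 ⊕ Fin 2) K) : g = 1 ∨ g = -1 := by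
  obtain ⟨c, hc⟩ := (mem_scalars_iff _).1 hs
  have := congrFun (congrFun (sp_iff h) (.inr 0)) (.inl 0)
  simp [hc, J] at this
  exact (mul_self_eq_one_iff.1 this).imp (fun e => Units.ext (by simp [hc, e])) fun e => Units.ext (by simp [hc, e])

variable {F : Type*} [Field F] {H P : Subgroup (GL (Fin 2 ⊕ Fin 2) F)}

/-- extension of scalars to the algebraic closure -/
noncomputable abbrev ex : GL (Fin 2 ⊕ Fin 2) F →* GL (Fin 2 ⊕ Fin 2) (AlgebraicClosure F) :=
  GeneralLinearGroup.map (algebraMap F (AlgebraicClosure F))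

theorem ex_val (g : GL (Fin 2 ⊕ Fin 2) F) : (ex g).val = g.val.map (algebraMap F (AlgebraicClosure F)) := rfl

theorem ex_inj : Function.Injective (ex (F := F)) := fun _ _ e =>
  Units.ext (Matrix.map_injective (algebraMap F (AlgebraicClosure F)).injective (congrArg Units.val e))

theorem ex_neg (g : GL (Fin 2 ⊕ Fin 2) F) : ex (-g) = -ex g := Units.ext (by simp [Matrix.map_neg])

theorem ex_sp {g : GL (Fin 2 ⊕ Fin 2) F} (h : g ∈ spGL 2 F) :
    (ex g).valᵀ * J (Fin 2) (AlgebraicClosure F) * (ex g).val = J (Fin 2) (AlgebraicClosure F) := by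
  have := congrArg (·.map (algebraMap F (AlgebraicClosure F))) (sp_iff h)
  simpa only [Matrix.map_mul, transpose_map, map_J, ex_val] using this

/-- the group `±P` over the algebraic closure -/
def pm (P : Subgroup (GL (Fin 2 ⊕ Fin 2) F)) : Subgroup (GL (Fin 2 ⊕ Fin 2) (AlgebraicClosure F)) where
  carrier := {u | ∃ g ∈ P, u = ex g ∨ u = -ex g}
  one_mem' := ⟨1, P.one_mem, Or.inl (map_one _).symm⟩
  mul_mem' := by
    rintro _ _ ⟨g, hg, rfl | rfl⟩ ⟨h, hh, rfl | rfl⟩ <;> exact ⟨g * h, P.mul_mem hg hh, by simp⟩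
  inv_mem' := by
    rintro _ ⟨g, hg, rfl | rfl⟩ <;> exact ⟨g⁻¹, P.inv_mem hg, by simp [inv_neg]⟩

theorem le_of_gen (hH : H ≤ spGL 2 F) (hP : IsResidualCore H P) {N : Subgroup (GL (Fin 2 ⊕ Fin 2) F)}
    (hn : ∀ g ∈ P, ∀ n ∈ N, g * n * g⁻¹ ∈ N) (h1 : -1 ∈ N) {n : GL (Fin 2 ⊕ Fin 2) F} (h2 : n ∈ N) (h3 : n ∈ P)
    (h4 : n ≠ 1) (h5 : n ≠ -1) : P ≤ N := by
  have := hP.simple
  have : (N.subgroupOf P).Normal := ⟨fun n h g => hn g g.2 n h⟩
  rcases ((inferInstance : (N.subgroupOf P).Normal).map _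
    (QuotientGroup.mk'_surjective ((scalars (Fin 2 ⊕ Fin 2) F).subgroupOf P))).eq_bot_or_eq_top with e | e
  · have : (QuotientGroup.mk' ((scalars (Fin 2 ⊕ Fin 2) F).subgroupOf P)) ⟨n, h3⟩ = 1 :=
      Subgroup.mem_bot.1 (e ▸ Subgroup.mem_map_of_mem _ h2)
    exact ((scalar_sp (hH (hP.le h3)) ((QuotientGroup.eq_one_iff (⟨n, h3⟩ : P)).1 this)).elim h4 h5).elim
  · intro g hg
    obtain ⟨m, hm, e'⟩ : (QuotientGroup.mk' ((scalars (Fin 2 ⊕ Fin 2) F).subgroupOf P)) ⟨g, hg⟩ ∈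
      (N.subgroupOf P).map (QuotientGroup.mk' _) := e ▸ Subgroup.mem_top _
    have k := scalar_sp (g := m.1⁻¹ * g) (hH (hP.le (P.mul_mem (P.inv_mem m.2) hg))) 
      ((QuotientGroup.eq (s := (scalars (Fin 2 ⊕ Fin 2) F).subgroupOf P) (a := m) (b := ⟨g, hg⟩)).1 e')
    have : m.1⁻¹ * g ∈ N := by
      rcases k with k | k <;> rw [k]
      exacts [N.one_mem, h1]
    exact (N.mul_mem_cancel_left (N.inv_mem hm)).1 this

end Mt

theorem two_ne_of_odd {F : Type*} [Field F] [Fintype F] (hodd : Odd (Fintype.card F)) : (2 : F) ≠ 0 := fun e =>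
  (Nat.not_even_iff_odd.2 hodd) (Nat.even_iff.2 (FiniteField.even_card_of_char_two (by
    have : CharP F 2 := CharTwo.of_one_ne_zero_of_two_eq_zero one_ne_zero e
    exact ringChar.eq F 2)))

end H97s
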