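import Mathlib
import Cfsg.Agent.Lib.Sp4R.W5
import Cfsg.Agent.Lib.Sp4R.SysA
import Cfsg.Agent.Lib.Sp4R.SysB
import Cfsg.Agent.Lib.Sp4R.SysH

/-!
# `-1` is the only involution of a residual core without transvections
-/

set_option autoImplicit false

namespace H97s

open Cfsg Cfsg.Geo Matrix Module Mt

theorem Cx.false {K V A : Type*} [Field K] [IsAlgClosed K] [AddCommGroup V] [Module K V] [Ring A] [Algebra K A]
    (D : Cx K V A) : False := by
  have h5 := D.h_case
  refine D.simply_laced fun a b ha hb => ?_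
  rcases Cx.tlem ha hb with k | k | (k | k | k) | k
  exacts [Or.inl k, Or.inr (Or.inl k), Or.inr (Or.inr (Or.inl k)), Or.inr (Or.inr (Or.inr k)),
    (h5 a b ha hb k).imp_right Or.inl, (Cx.b_case h5 ha hb k).elim]

variable {F : Type*} [Field F] [Fintype F] {H P : Subgroup (GL (Fin 2 ⊕ Fin 2) F)}

theorem rt_case (hodd : Odd (Fintype.card F)) (hH : H ≤ spGL 2 F) (hP : IsResidualCore H P)
    (htv : ∀ t ∈ H, (t.1 - 1).rank ≤ 1 → t = 1) : ∀ g ∈ P, g * g = 1 → g = 1 ∨ g = -1 := by
  intro g hg hgg
  by_contra! hne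
  have f2 := two_ne_of_odd hodd
  have inj := (algebraMap F (AlgebraicClosure F)).injective
  have h2 : (2 : AlgebraicClosure F) ≠ 0 := fun e => f2 (inj (by rw [map_ofNat, e, map_zero]))
  obtain ⟨p, hp⟩ := CharP.exists F
  have sp : ∀ u ∈ pm P, u.valᵀ * J (Fin 2) (AlgebraicClosure F) * u.val = J (Fin 2) (AlgebraicClosure F) := by
    rintro _ ⟨g, hg, rfl | rfl⟩ <;> simpa using ex_sp (hH (hP.le hg))
  have m1 : -1 ∈ pm P := ⟨1, P.one_mem, Or.inr (by rw [map_one])⟩
  have le : ∀ Y, -1 ∈ Y → P ≤ Y.comap ex → pm P ≤ Y := by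
    rintro Y h1 h _ ⟨g, hg, rfl | rfl⟩
    · exact h hg
    · rw [← neg_one_mul]; exact Y.mul_mem h1 (h hg)
  refine Cx.false (K := AlgebraicClosure F)
    { ι := io, B := bf, X := pm P, p := p, prime := CharP.char_is_prime F p,
      char := charP_of_injective_algebraMap inj p, two := h2, symm := fun v w => by rw [bf_apply, bf_apply]; ring,
      cl := io_cl, nd := bf_nd h2, dim := by simp, nt := one_ne_zero, fin := ?_, neg := m1, nrm := fun u hu v => ?_,
      gen := ?_, perf := fun Y h1 hY => le Y h1 ?_, notv := ?_, ex := ?_ }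
  · refine Set.Finite.subset ((Set.finite_range ex).union (Set.finite_range fun g => -ex g)) ?_
    rintro _ ⟨g, -, rfl | rfl⟩
    exacts [Or.inl ⟨g, rfl⟩, Or.inr ⟨g, rfl⟩]
  · refine exists_io' h2 ?_ (by rw [trace_units_conj, io_trace])
    have e1 : u.valᵀ * J (Fin 2) (AlgebraicClosure F) = J (Fin 2) _ * (u⁻¹).val := by
      rw [← sp u hu, Units.mul_inv_cancel_right, sp u hu]
    have e2 : (u⁻¹).valᵀ * J (Fin 2) (AlgebraicClosure F) = J (Fin 2) _ * u.val := by
      rw [← sp _ ((pm P).inv_mem hu), Units.inv_mul_cancel_right, sp _ ((pm P).inv_mem hu)]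
    simp only [transpose_mul, mul_assoc, e1, ass (io_adj v), ass e2]
  · rintro N hN hn h1 ⟨n, h3, h4, h5⟩
    obtain ⟨g, hg, e⟩ := hN h3
    refine le N h1 (le_of_gen hH hP (fun a ha b hb => ?_) (by simpa [ex_neg] using h1) (n := g) ?_ hg ?_ ?_)
    · simpa using hn _ ⟨a, ha, Or.inl rfl⟩ _ hb
    · rcases e with rfl | rfl
      · exact h3
      · simpa using N.mul_mem h1 h3
    · rintro rfl; rcases e with rfl | rfl <;> simp at h4 h5
    · rintro rfl; rcases e with rfl | rfl <;> simp [ex_neg] at h4 h5
  · rw [← hP.perfect, Subgroup.commutator_le]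
    intro a ha b hb
    simpa [commutatorElement_def] using hY _ ⟨a, ha, Or.inl rfl⟩ _ ⟨b, hb, Or.inl rfl⟩
  · rintro n w hn hw h ⟨u, ⟨g, hg, e⟩, hu⟩
    have sq : io n * io n = 0 := by
      have := io_cl n n
      rwa [hn, zero_smul, ← two_smul (AlgebraicClosure F), smul_eq_zero_iff_right h2] at this
    have an : io w * io n = -(io n * io w) := by rw [eq_neg_iff_add_eq_zero, add_comm, io_cl, h, zero_smul]
    have e1 : ((g * g).val - 1).map (algebraMap F (AlgebraicClosure F)) = (2 : AlgebraicClosure F) • (io n * io w) := by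
      have : (ex (g * g)).val = u.val * u.val := by rcases e with rfl | rfl <;> simp
      rw [Matrix.map_sub _ (map_sub _), Matrix.map_one _ (map_zero _) (map_one _), ← ex_val, this, hu]
      nc [ass an, ass sq, neg_zero]; module
    have := htv _ (hP.le (P.mul_mem hg hg)) (rank_le_of_minors fun i j k' l => inj (by
      have k := fun i j => congrFun (congrFun e1 i) j
      simp only [Matrix.map_apply, Matrix.smul_apply, smul_eq_mul] at k
      rw [map_mul, map_mul, k, k, k, k]; linear_combination 4 * minors h2 hn hw h i j k' l))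
    rw [this, Units.val_one, sub_self, Matrix.map_zero _ (map_zero _)] at e1
    exact (smul_eq_zero_iff_right h2).1 e1.symm
  · have e0 : (ex g).val * (ex g).val = 1 := by rw [← Units.val_mul, ← map_mul, hgg, map_one, Units.val_one]
    obtain ⟨t, v, e⟩ := exists_io h2 (x := (ex g).val) (by
      nth_rewrite 2 [← ex_sp (hH (hP.le hg))]
      rw [mul_assoc, e0, mul_one])
    have sq : io v * io v = (bf v v / 2) • 1 := smul_right_injective _ h2 (by
      simp only [smul_smul]; rw [two_smul, io_cl, mul_div_cancel₀ _ h2])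
    have e1 : (2 * t) • io v = (1 - t ^ 2 - bf v v / 2) • 1 := by
      rw [e] at e0
      simp only [mul_add, add_mul, smul_mul_assoc, mul_smul_comm, mul_one, one_mul, sq] at e0
      linear_combination (norm := module) e0
    have e2 : 1 - t ^ 2 - bf v v / 2 = 0 := by
      have := congrArg Matrix.trace e1
      rw [trace_smul, io_trace, smul_zero, trace_smul, trace_one] at this
      refine (mul_eq_zero.1 (show _ * (2 * 2 : AlgebraicClosure F) = 0 from ?_)).resolve_right (mul_ne_zero h2 h2)
      rw [this]; simp; norm_num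
    rw [e2, zero_smul, smul_eq_zero, mul_eq_zero] at e1
    rcases e1 with (k | rfl) | k
    · exact (h2 k).elim
    · exact ⟨v, by field_simp at e2; linear_combination -e2, ex g, ⟨g, hg, Or.inl rfl⟩, by simpa using e⟩
    · rw [e, k, add_zero, smul_mul_assoc, one_mul, smul_smul] at e0
      have : t * t = 1 := by simpa using congrFun (congrFun e0 (.inl 0)) (.inl 0)
      rcases mul_self_eq_one_iff.1 this with rfl | rfl
      · exact (hne.1 (ex_inj (Units.ext (by simp [e, k])))).elim
      · exact (hne.2 (ex_inj (Units.ext (by simp [e, k, ex_neg])))).elim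

end H97s
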