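import Mathlib
import Cfsg.Agent.Lib.Sp4R.Five
import Cfsg.Agent.Lib.Asch.ProperCl

/-!
# Residual cores with socle `A₆` in `Sp₄(q)`, `q` prime to six
-/

set_option autoImplicit false

namespace H97s

open Cfsg Cfsg.Geo Matrix Module Mt Subgroup

namespace Mt

variable {F : Type*} [Field F] {H P : Subgroup (GL (Fin 2 ⊕ Fin 2) F)} {G : Type*} [Group G]

/-- the fixed space has dimension at least three -/
def Big (A : Module.End F (Fin 5 → F)) : Prop := ∃ S : Submodule F (Fin 5 → F), 3 ≤ finrank F S ∧ ∀ v ∈ S, A v = v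

theorem Big.conj {A B C : Module.End F (Fin 5 → F)} (h : Big A) (hC : Function.Injective C) (e : ∀ v, B (C v) = C (A v)) :
    Big B := by
  obtain ⟨S, d, k⟩ := h
  refine ⟨S.map C, d.trans (Submodule.equivMapOfInjective C hC S).finrank_eq.le, ?_⟩
  rintro _ ⟨v, hv, rfl⟩
  rw [e, k v hv]

theorem hom_inj {X : Type*} [Group X] (ψ : X →* Module.End F (Fin 5 → F)) (u : X) : Function.Injective (ψ u) :=
  Function.LeftInverse.injective (g := ψ u⁻¹) fun v => by rw [← Module.End.mul_apply, ← map_mul, inv_mul_cancel, map_one]; rfl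

theorem Big.cj {ψ : G →* Module.End F (Fin 5 → F)} {g g' u : G} (e : u * g * u⁻¹ = g') : Big (ψ g) ↔ Big (ψ g') := by
  have k : ∀ u g, Big (ψ g) → Big (ψ (u * g * u⁻¹)) := fun u g h => h.conj (hom_inj ψ u) fun v => by
    rw [← Module.End.mul_apply, ← map_mul, inv_mul_cancel_right, map_mul, Module.End.mul_apply]
  exact ⟨e ▸ k u g, fun h => by simpa [← e, mul_assoc] using k u⁻¹ _ h⟩

theorem cube (h2 : (2 : F) ≠ 0) (h3 : (3 : F) ≠ 0) (g : spGL 2 F) (hg : g.1 ^ 3 = 1) :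
    Big (ad h2 g) ∨ ∃ w, bf w w = 2 * 9 ∧ (2 : F) • (g.1.val + (g.1⁻¹).val) = 1 + io w := by
  have e1 : g.1.val * g.1.val = (g.1⁻¹).val := by
    rw [← Units.val_mul, eq_inv_of_mul_eq_one_left (a := g.1 * g.1) (b := g.1) (by rw [← hg, pow_three'])]
  have e2 : (g.1⁻¹).val * (g.1⁻¹).val = g.1.val := by
    rw [← Units.val_mul, ← _root_.mul_inv_rev, ← eq_inv_of_mul_eq_one_left (a := g.1) (by rw [← hg, pow_three])]
  have e3 := g.1.mul_inv
  have e4 := g.1.inv_mul
  have t1 := sp_T g.2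
  have t2 := sp_T (inv_mem g.2)
  rw [inv_inv] at t2
  have k : (∀ v, ad h2 g v = v ↔ g.1.val * io v = io v * g.1.val) := fun v => ad_fix_iff h2
  generalize g.1.val = a at *
  generalize (g.1⁻¹).val = b at *
  obtain ⟨t, v, hz⟩ := exists_io h2 (x := a + b) (by rw [transpose_add, add_mul, t1, t2, mul_add, add_comm])
  have sq := io_sq h2 (v := v) (c := bf v v / 2) (by field_simp)
  have z2 : (a + b) * (a + b) = a + b + (2 : F) • 1 := by
    rw [add_mul, mul_add, mul_add, e1, e2, e3, e4, two_smul]; abel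
  have z3 : io ((2 * t - 1) • v) = (t + 2 - t * t - bf v v / 2) • 1 := by
    rw [hz] at z2
    simp only [add_mul, mul_add, smul_mul_assoc, mul_smul_comm, one_mul, mul_one, sq] at z2
    rw [map_smul]
    linear_combination (norm := module) z2
  have z4 := io_scalar h2 z3
  rw [z4, map_zero, ← zero_smul F 1] at z3
  replace z3 := smul_one_inj z3
  rcases smul_eq_zero.1 z4 with e | rfl
  · refine .inr ⟨(2 : F) • v, ?_, ?_⟩
    · simp only [map_smul, LinearMap.smul_apply, smul_eq_mul]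
      field_simp at z3
      linear_combination 4 * z3 + (2 - 4 * t) * e
    · rw [hz, map_smul, smul_add, smul_smul, show 2 * t = 1 by linear_combination e, one_smul]
  rw [map_zero, add_zero] at hz
  rcases mul_eq_zero.1 (show (t - 2) * (t + 1) = 0 by simp at z3; linear_combination z3) with e | e
  · have := congrArg (a * ·) hz
    simp only [mul_add, e1, e3, mul_smul_comm, mul_one, sub_eq_zero.1 e] at this hz
    obtain rfl : a = 1 := smul_right_injective _ h3 (by
      linear_combination (norm := module) hz - this)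
    exact .inl ⟨⊤, by simp, fun v _ => (k v).2 (by simp)⟩
  · rw [eq_neg_of_add_eq_zero_left e] at hz
    obtain ⟨S, -, d, -, hS, -⟩ := three_le h2 (y := a - b) (c := -3) (neg_ne_zero.2 h3)
      (by rw [transpose_sub, sub_mul, t1, t2, mul_sub, neg_sub]) (by
        rw [sub_mul, mul_sub, mul_sub, e1, e2, e3, e4]
        linear_combination (norm := module) hz)
    refine .inl ⟨S, d, fun v hv => (k v).2 (smul_right_injective _ h2 ?_)⟩
    have : (2 : F) • a = a - b - 1 := by linear_combination (norm := module) hz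
    change (2 : F) • (a * io v) = (2 : F) • (io v * a)
    rw [← smul_mul_assoc, ← mul_smul_comm, this, sub_mul, mul_sub _ _ 1, (hS v).1 hv, one_mul, mul_one]

theorem Cv.big {h2 : (2 : F) ≠ 0} {hs : P ≤ spGL 2 F} {q : P →* G} {ψ : G →* Module.End F (Fin 5 → F)} (h : Cv h2 hs q ψ)
    (h3 : (3 : F) ≠ 0) {a b : G} (ha : a ^ 3 = 1) (hb : b ^ 3 = 1) (hab : a * b = b * a) :
    Big (ψ a) ∨ Big (ψ b) ∨ Big (ψ (a * b)) ∨ Big (ψ (a * b⁻¹)) := by
  have l : ∀ g : G, g ^ 3 = 1 → ∃ x : P, q x = g ∧ x.1 ^ 3 = 1 := fun g hg => by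
    obtain ⟨x, rfl⟩ := h.surj g
    refine ⟨x ^ 4, by rw [map_pow, pow_succ, hg, one_mul], ?_⟩
    rw [coe_pow, pow_right_comm]
    rcases (h.ker (x ^ 3)).1 (by rw [map_pow, hg]) with k | k <;> rw [← coe_pow, k]
    exacts [one_pow _, Even.neg_one_pow (by decide)]
  obtain ⟨x, rfl, hx⟩ := l a ha
  obtain ⟨y, rfl, hy⟩ := l b hb
  have c : Commute x.1 y.1 := by
    rcases (h.ker (x * y * (y * x)⁻¹)).1 (by rw [map_mul, map_inv, map_mul, map_mul, hab, mul_inv_cancel]) with k | k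
    · exact mul_inv_eq_one.1 k
    · have e : x.1 * y.1 * x.1⁻¹ = -y.1 := by
        rw [mul_inv_eq_iff_eq_mul, neg_mul, ← neg_one_mul, ← k]; simp [mul_assoc]
      have := congrArg (fun u : GL (Fin 2 ⊕ Fin 2) F => (u ^ 3).val (.inl 0) (.inl 0)) e
      simp only [conj_pow, hy, Odd.neg_pow (show Odd 3 by decide)] at this
      exact (h2 (by simp at this; linear_combination this)).elim
  have k := fun (z : P) hz => cube h2 h3 ⟨z.1, hs z.2⟩ hz
  rw [← map_inv, ← map_mul, ← map_mul]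
  simp only [h.act]
  refine (k x hx).imp_right fun ⟨w1, a1, b1⟩ => (k y hy).imp_right fun ⟨w2, a2, b2⟩ =>
    (k (x * y) (by rw [coe_mul, c.mul_pow, hx, hy, mul_one])).imp_right fun ⟨w3, _, b3⟩ =>
    (k (x * y⁻¹) (by rw [coe_mul, coe_inv, c.inv_right.mul_pow, hx, inv_pow, hy, mul_inv_cancel])).resolve_right
      fun ⟨w4, _, b4⟩ => ?_
  simp only [coe_mul, coe_inv, _root_.mul_inv_rev, inv_inv, Units.val_mul] at b1 b2 b3 b4
  have c1 := c.units_val
  have c2 := c.inv_right.units_val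
  have c3 := c.inv_left.units_val
  have c4 := c.inv_inv.units_val
  have cc : Commute (1 + io w1) (1 + io w2) := by
    rw [← b1, ← b2]
    exact (((c1.add_right c2).add_left (c3.add_right c4)).smul_left _).smul_right _
  have m : (1 + io w1) * (1 + io w2) = (2 : F) • (1 + io w3 + (1 + io w4)) := by
    rw [← b1, ← b2, ← b3, ← b4, ← c3.eq, ← c4.eq]
    simp only [smul_mul_assoc, mul_smul_comm, add_mul, mul_add, smul_add]
    abel
  have c5 : io w1 * io w2 = io w2 * io w1 := by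
    have := cc.eq
    simp only [add_mul, mul_add, one_mul, mul_one] at this
    linear_combination (norm := module) this
  have t := congrArg trace m
  simp only [add_mul, mul_add, one_mul, mul_one, trace_add, trace_smul, io_trace, io_tr, trace_one] at t
  have c6 : io w1 * io w2 = (3 : F) • 1 := smul_right_injective _ h2 (by
    have := io_cl w1 w2
    rw [← c5, show bf w1 w2 = 6 from mul_left_cancel₀ h2 (by simp at t; linear_combination t)] at this
    linear_combination (norm := module) this)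
  have : io w1 * (io w2 * io w2) * io w1 = io w1 * io w2 * (io w2 * io w1) := by simp only [mul_assoc]
  rw [← c5, c6, io_sq h2 a2] at this
  simp only [mul_smul_comm, smul_mul_assoc, mul_one, io_sq h2 a1, smul_smul] at this
  exact mul_ne_zero (pow_ne_zero 3 h2) (pow_ne_zero 2 h3) (by linear_combination smul_one_inj this)

theorem ad_ker (h2 : (2 : F) ≠ 0) {g : spGL 2 F} (k : ∀ v, ad h2 g v = v) : g.1 = 1 ∨ g.1 = -1 := by
  obtain ⟨c, hc⟩ := scalar_of_comm h2 fun v => (ad_fix_iff h2).1 (k v)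
  refine scalar_sp g.2 ((mem_scalars_iff _).2 ⟨Units.mk0 c ?_, hc⟩)
  rintro rfl
  exact g.1.ne_zero (by rw [hc, zero_smul])

theorem AS.trace_mem {J : Type*} [DecidableEq J] {ν : F} {g : J → Fin 5 → F} (h : AS ν g) (hH : H ≤ spGL 2 F)
    (hP : IsResidualCore H P) (inv : ∀ x ∈ P, ∀ a b, a ≠ b → ∃ c d, c ≠ d ∧ x.val * io (g a - g b) * (x⁻¹).val = io (g c - g d))
    {i j l : J} (hij : i ≠ j) (hjl : j ≠ l) {u : GL (Fin 2 ⊕ Fin 2) F} (hu : u ∈ P) (u1 : u ≠ 1) (u2 : u ≠ -1)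
    (e : u = h.tri hij hjl ∨ u = -h.tri hij hjl) (k : Subfield F) : ∀ x ∈ P, x.val.trace ∈ k := by
  let A : Set (Fin 5 → F) := {v | ∃ a b, a ≠ b ∧ v = g a - g b}
  let T : Set (GL (Fin 2 ⊕ Fin 2) F) := {x | ∃ a ∈ A, ∃ b ∈ A, x.val = ν⁻¹ • (io a * io b)}
  have sq : ∀ a ∈ A, io a * io a = ν • 1 := by rintro _ ⟨a, b, hab, rfl⟩; exact h.sq hab
  have m1 : -1 ∈ closure T := subset_closure ⟨_, ⟨i, j, hij, rfl⟩, _, ⟨j, i, hij.symm, rfl⟩, by
    rw [← neg_sub, map_neg, neg_mul, h.sq hij.symm]; simp [h.ne]⟩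
  have m2 : h.tri hij hjl ∈ closure T := subset_closure ⟨_, ⟨i, j, hij, rfl⟩, _, ⟨j, l, hjl, rfl⟩, rfl⟩
  have nm : ∀ x ∈ P, closure T ≤ (closure T).comap (MulAut.conj x).toMonoidHom := fun x hx => (closure_le _).2 (by
    rintro n ⟨_, ⟨a, b, hab, rfl⟩, _, ⟨c, d, hcd, rfl⟩, hn⟩
    obtain ⟨a', b', h1, h2⟩ := inv x hx a b hab
    obtain ⟨c', d', h3, h4⟩ := inv x hx c d hcd
    refine subset_closure (k := T) ⟨_, ⟨a', b', h1, rfl⟩, _, ⟨c', d', h3, rfl⟩, ?_⟩
    rw [← h2, ← h4]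
    simp [hn, mul_assoc])
  have le := le_of_gen hH hP (N := closure T) nm m1 (n := u) (by
    rcases e with rfl | rfl
    exacts [m2, neg_one_mul (h.tri hij hjl) ▸ mul_mem m1 m2]) hu u1 u2
  intro x hx
  replace hx := le hx
  obtain ⟨m, L, h1, h2, h3⟩ : ∃ (m : ℕ) (L : List (Fin 5 → F)), (∀ a ∈ L, a ∈ A) ∧ L.length = 2 * m ∧
      x.val = ν⁻¹ ^ m • (L.map io).prod := by
    induction hx using closure_induction'' with
    | one => exact ⟨0, [], by simp, rfl, by simp⟩
    | mem y hy => obtain ⟨a, ha, b, hb, e⟩ := hy; exact ⟨1, [a, b], by simp [ha, hb], rfl, by simp [e]⟩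
    | inv_mem y hy =>
      obtain ⟨a, ha, b, hb, e⟩ := hy
      refine ⟨1, [b, a], by simp [ha, hb], rfl, Units.inv_eq_of_mul_eq_one_right ?_⟩
      have := congrArg (· * io a) (sq b hb)
      simp only [mul_assoc, smul_mul_assoc, one_mul] at this
      simp [e, mul_assoc, this, sq a ha, smul_smul, h.ne]
    | mul y z _ _ hy hz =>
      obtain ⟨m, L, h1, h2, h3⟩ := hy
      obtain ⟨m', L', h4, h5, h6⟩ := hz
      exact ⟨m + m', L ++ L', List.forall_mem_append.2 ⟨h1, h4⟩, by simp [h2, h5, mul_add], by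
        simp [h3, h6, pow_add, smul_smul, mul_comm]⟩
  rw [h3, trace_smul]
  refine trace_prod_mem h.two k (A := A) ?_ m L h1 h2
  rintro _ ⟨a, b, -, rfl⟩ _ ⟨c, d, -, rfl⟩
  have : ∀ a b : J, (dl a b : F) ∈ k := fun a b => by unfold dl; split_ifs; exacts [k.one_mem, k.zero_mem]
  rw [h.gram, inv_mul_cancel_left₀ h.ne]
  exact add_mem (sub_mem (sub_mem (this _ _) (this _ _)) (this _ _)) (this _ _)

open H10.Asch Kronecker in
theorem span_abs {ι : Type} [Fintype ι] [DecidableEq ι] [Nontrivial ι] {F : Type*} [Field F] [Finite F]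
    {P : Subgroup (GL ι F)} (h : ActsAbsolutelyIrreducibly (matrixSet P)) : spanA F P = ⊤ := by
  have hI : H10.Asch.Irr P := irr_iff.2 h.1
  rcases hI.scalar_or_top_or_tensor (nrm_spanA (nrmS_self P)) (fun x hx => h.2 x (by
    rintro _ ⟨g, hg, rfl⟩
    exact ((mem_cen.1 hx).2 _ (coe_mem_spanA hg)).symm)) with h1 | h1 | ⟨n₁, n₂, ψ, e, Q, h1, h2, h3, h4⟩
  · exact absurd (le_scalars_of_spanA h1) (not_le_scalars hI)
  · exact h1
  obtain ⟨n, rfl⟩ := Nat.exists_eq_add_of_le' h1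
  obtain ⟨m, rfl⟩ := Nat.exists_eq_add_of_le' h2
  obtain ⟨c, hc⟩ := h.2 (tr e Q (1 ⊗ₖ single 0 1 1)) (by
    rintro _ ⟨g, hg, rfl⟩
    obtain ⟨a, ha⟩ := h3.ge (coe_mem_spanA hg)
    rw [show (fun g : GL ι F => g.val) g = ψ a from ha.symm, h4, ← map_mul, ← map_mul, ← mul_kronecker_mul,
      ← mul_kronecker_mul]
    simp)
  have := congrFun (congrFun ((tr e Q).injective (hc.trans (by rw [map_smul, map_one] : _ = tr e Q (c • 1)))) (0, 0))
    (0, 1)
  simp at this

theorem card_of_trace [Fintype F] (hP : IsResidualCore H P) (p : ℕ) [Fact p.Prime] [CharP F p]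
    (h : ∀ k : Subfield F, ∀ x ∈ P, x.val.trace ∈ k) : Fintype.card F = p := by
  have : Nontrivial (Fin 2 ⊕ Fin 2) := ⟨⟨.inl 0, .inl 1, by decide⟩⟩
  have e : H10.Asch.fixSub F p 1 = ⊤ := by_contra fun hne => hP.no_subfield _ hne (H10.Asch.realisableOver_iff.2
    (H10.Asch.realisableOver_of_trace (span_abs hP.absIrred) (h _)))
  obtain ⟨n, pp, hn⟩ := FiniteField.card F p
  have := H10.Asch.card_le_of_forall_pow_eq (F := F) pp.one_lt fun a => by
    simpa using H10.Asch.mem_fixSub.1 (e.ge (Subfield.mem_top a))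
  exact le_antisymm this (hn ▸ Nat.le_self_pow n.ne_zero p)

theorem as_seven (h2 : (2 : F) ≠ 0) (h7 : (7 : F) = 0) {β : F} (hβ : β ≠ 0) {f : Fin 6 → Fin 5 → F}
    (gr : ∀ i j, bf (f i) (f j) = β - 6 * β * dl i j) : AS β fun o : Option (Fin 6) => o.elim 0 f := by
  have gr' : ∀ i j : Option (Fin 6), bf (i.elim 0 f) (j.elim 0 f) =
      β * dl i j + β * i.elim 3 (fun _ => 4) + β * j.elim 3 fun _ => 4 := by
    rintro (_ | i) (_ | j) <;> simp only [dl, gr, Option.elim, map_zero, LinearMap.zero_apply, Option.some.injEq] <;>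
      split_ifs <;> grind
  exact ⟨h2, hβ, fun i j k l => by simp only [map_sub, LinearMap.sub_apply, gr']; ring⟩

set_option maxHeartbeats 1000000 in
theorem nine [Fintype F] (h2 : (2 : F) ≠ 0) (h3 : (3 : F) ≠ 0) (hH : IsMaximalIn (spGL 2 F) H) (hP : IsResidualCore H P)
    (e : (P ⧸ (scalars (Fin 2 ⊕ Fin 2) F).subgroupOf P) ≃* alternatingGroup (Fin 6)) (p : ℕ) [Fact p.Prime] [CharP F p] :
    Fintype.card F = p ∧ p ≠ 7 := by
  have hs := hP.le.trans hH.1.le
  obtain ⟨q, ψ, h⟩ := exists_cv h2 hs e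
  obtain ⟨f1, f2, f3, f4, -, -, f7, f8, f9, c1, c2, c3, c4⟩ := six_facts
  obtain ⟨gs, hg, b0, b1⟩ : ∃ gs, (gs = g6 ∨ gs = g6') ∧ Big (ψ (gs 0)) ∧ Big (ψ (gs 1)) := by
    have := h.big h3 f1 f2 f3
    rw [← Big.cj c1, ← Big.cj c3, ← f4, or_self, ← or_assoc, or_self] at this
    rcases this with k | k
    exacts [⟨_, .inl rfl, (Big.cj c2).1 k, (Big.cj c1).1 k⟩, ⟨_, .inr rfl, k, (Big.cj c4).1 k⟩]
  obtain ⟨g1, g2, g3, g4, g5⟩ : gs 0 ^ 3 = 1 ∧ gs 1 ^ 3 = 1 ∧ gs 0 ≠ 1 ∧ gs 1 ≠ 1 ∧ (gs 0 * gs 1) ^ 5 = 1 := by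
    rcases hg with rfl | rfl <;> decide +kernel
  obtain ⟨r, m⟩ := md6 hg
  have sx := h.sx hP m
  have gen := m.gen 0
  generalize gs 0 = s at *
  generalize gs 1 = t at *
  obtain ⟨v, v0, hv⟩ : ∃ v, v ≠ 0 ∧ ∀ b ∈ closure {s, t}, ψ b v = v := by
    obtain ⟨S, d1, k1⟩ := b0
    obtain ⟨T, d2, k2⟩ := b1
    have d := S.finrank_sup_add_finrank_inf_eq T
    have d' := (S ⊔ T).finrank_le
    rw [finrank_fin_fun] at d'
    obtain ⟨u, hu, u0⟩ := Submodule.exists_mem_ne_zero_of_ne_bot (p := S ⊓ T) fun e => by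
      rw [e, finrank_bot] at d; omega
    exact ⟨u, u0, fix_closure (k1 u hu.1) (k2 u hu.2)⟩
  obtain ⟨β, -, as, gr, sp, un⟩ := sx.main hv v0
  have ac : ∀ g, ∃ π, Act ψ (fun i => ψ (r i) v) g π := fun g => (sx.all g).imp fun π k => k.act hv
  refine ⟨card_of_trace hP p fun k => ?_, ?_⟩
  · obtain ⟨u, rfl⟩ := h.surj s
    have a := (gen.act hv : Act ψ (fun i => ψ (r i) v) (q u) (p6 0))
    have := ad_ker h2 (g := (⟨_, as.tri_sp (i := 1) (j := 2) (k := 3) (by decide) (by decide)⟩ : spGL 2 F)⁻¹ * ⟨u.1, hs u.2⟩)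
      fun w => by
        obtain ⟨c, rfl⟩ := sp w
        refine hom_inj (ad h2) ⟨_, as.tri_sp (i := 1) (j := 2) (k := 3) (by decide) (by decide)⟩ ?_
        rw [← Module.End.mul_apply, ← map_mul, mul_inv_cancel_left, ← h.act]
        simp only [map_sum, map_smul]
        refine Finset.sum_congr rfl fun i _ => congrArg _ (io_inj ?_)
        rw [io_ad, map_sub (ψ _), a, a, f9]
        exact (as.tri_conj (by decide) (by decide) i 0).symm
    refine as.trace_mem hH.1.le hP (fun x hx a b hab => ?_) (i := 1) (j := 2) (l := 3) (by decide) (by decide) u.2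
      (fun k => g3 ((h.ker u).2 (.inl k))) (fun k => g3 ((h.ker u).2 (.inr k))) (this.imp (fun k => ?_) fun k => ?_) k
    · obtain ⟨π, k⟩ := ac (q ⟨x, hx⟩)
      exact ⟨π a, π b, π.injective.ne hab, (h.io_act ⟨x, hx⟩ _).symm.trans (by rw [map_sub (ψ _), k, k])⟩
    · exact (inv_mul_eq_one.1 k).symm
    · exact (inv_mul_eq_iff_eq_mul.1 k).trans (mul_neg_one _)
  rintro rfl
  have h7 : (7 : F) = 0 := CharP.cast_eq_zero F 7
  have inv : ∀ y (hy : y ∈ H), ∃ (c : F) (τ : Fin 6 → Fin 6), (c = 1 ∨ c = -1) ∧ Function.Injective τ ∧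
      ∀ i, ad h2 ⟨y, hH.1.le hy⟩ (ψ (r i) v) = c • ψ (r (τ i)) v := fun y hy => by
    obtain ⟨σ, s1, -, s3⟩ := h.sigma hH.1.le hP hy
    have k : ∀ g π, g ^ 3 = 1 → g ≠ 1 → Big (ψ g) → Act ψ (fun i => ψ (r i) v) (σ g) π → π ^ 3 = 1 ∧ π.support.card = 3 :=
      fun g π e1 e2 e3 a => by
        have e4 := (a.pow 3).eq_one as.inj (by rw [← map_pow, e1, map_one])
        refine ⟨e4, ?_⟩
        rcases ord_three π e4 with rfl | k | ⟨i, j, k⟩
        · refine (e2 (s1 ((h.faith fun u => ?_).trans σ.map_one.symm))).elim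
          obtain ⟨c, rfl⟩ := sp u
          simp only [map_sum, map_smul, map_sub, show ∀ i, ψ (σ g) (ψ (r i) v) = ψ (r i) v from a]
        · exact k
        obtain ⟨S, d, hS⟩ := e3.conj (hom_inj _ _) (s3 g)
        have := ((bf.flip (ψ (r i) v)).prod (bf.flip (ψ (r j) v)) ∘ₗ S.subtype).finrank_le_finrank_of_injective
          ((injective_iff_map_eq_zero _).2 fun u hu => Subtype.ext (bf_nd h2 _ fun w => by
            have e : ∀ l, bf u.1 (ψ (r (π l)) v) = bf u.1 (ψ (r l) v) := fun l => by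
              rw [← sx.inv (σ g) _ (ψ (r l) v), hS u u.2]; exact congrArg _ (a l).symm
            have e1 : bf u.1 (ψ (r i) v) = 0 := congrArg Prod.fst hu
            have e2 : bf u.1 (ψ (r j) v) = 0 := congrArg Prod.snd hu
            have e3 : ∀ l, bf u.1 (ψ (r l) v) = 0 := fun l => by
              rcases k l with k | k | k | k | k | k <;> simp only [k, e, e1, e2]
            obtain ⟨c, rfl⟩ := sp w
            simp [e3]))
        simp at this
        omega
    obtain ⟨π, a1⟩ := ac (σ s)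
    obtain ⟨π', a2⟩ := ac (σ t)
    obtain ⟨j, j1, j2⟩ := common_fix (k s π g1 g3 b0 a1).2 (k t π' g2 g4 b1 a2).2 (k s π g1 g3 b0 a1).1
      (((a1.mul a2).pow 5).eq_one as.inj (by rw [← map_mul, ← map_pow, g5, map_one]))
    exact perm_of sx hv as un s3 (j := j) ((a1 j).trans (by rw [j1])) ((a2 j).trans (by rw [j2]))
  have as' := as_seven h2 h7 (fun e => as.ne (by simp [e])) gr
  have hm := as'.tri_mem h3 hH (i := some 0) (j := none) (k := some 1) (fun y hy => by
    obtain ⟨c, τ, k1, k2, k3⟩ := inv y hy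
    exact inv_of (y := ⟨y, hH.1.le hy⟩) (τ := Option.map τ) k1 (Option.map_injective k2) (by
      rintro (_ | i)
      exacts [by simp, k3 i])) (by decide) (by decide)
  obtain ⟨c, τ, k1, k2, k3⟩ := inv _ hm
  obtain ⟨a, b, -, k⟩ := inv_of k1 k2 k3 0 2 (by decide)
  have := as'.eq_of' h3 (k := some a) (l := some b) (by decide)
    (io_inj (k.symm.trans (as'.tri_conj (by decide) (by decide) (some 0) (some 2))))
  exact (by decide : ∀ a : Fin 6, some a ≠ Equiv.swap (some 0) none (Equiv.swap none (some 1) (some (0 : Fin 6)))) a this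

end Mt

end H97s
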