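import Mathlib
import Cfsg.Statements.S5788
import Cfsg.Agent.Lib.Sp4R.W5
import Cfsg.Agent.Lib.ModRep.Sg

/-!
# Cross characteristic subgroups `SL₂(k)` of `Sp₄`
-/

set_option autoImplicit false

namespace H97s

open Cfsg Cfsg.Geo Matrix MatrixGroups

namespace NrC

variable {F : Type*} [Field F] {ι : Type*} [Fintype ι] [DecidableEq ι]

/-- weights -/
def Wt {A : Type*} [Monoid A] (σ : A →* Matrix ι ι F) (χ : A → F) : Prop := ∃ v ≠ 0, ∀ a, σ a *ᵥ v = χ a • v

theorem wt_le {A κ : Type*} [Monoid A] [Fintype κ] (σ : A →* Matrix ι ι F) (χ : κ → A →* F)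
    (hχ : Function.Injective χ) (h : ∀ i, Wt σ (χ i)) : Fintype.card κ ≤ Fintype.card ι := by
  choose v hv h using h
  have : LinearIndependent F v := by
    rw [Fintype.linearIndependent_iff]
    intro c hc i
    by_contra h0
    refine hv i (funext fun l => (mul_eq_zero.1 ?_).resolve_left h0)
    refine Fintype.linearIndependent_iff.1 ((linearIndependent_monoidHom A F).comp χ hχ)
      (fun j => c j * v j l) (funext fun a => ?_) i
    have := congrFun (congrArg (σ a *ᵥ ·) hc) l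
    simp only [mulVec_sum, mulVec_smul, h, mulVec_zero, Finset.sum_apply, Pi.smul_apply, smul_eq_mul,
      Pi.zero_apply] at this
    simp only [Finset.sum_apply, Pi.smul_apply, smul_eq_mul, Pi.zero_apply, Function.comp_apply, ← this]
    exact Finset.sum_congr rfl fun j _ => by ring
  simpa using this.fintype_card_le_finrank

theorem wt_inv {A : Type*} [CommGroup A] [Fintype A] (hA : (Fintype.card A : F) ≠ 0) {σ : A →* Matrix ι ι F}
    {M : Matrix ι ι F} (hM : IsUnit M.det) (h : ∀ a, (σ a)ᵀ * M * σ a = M) {χ : A →* F} (k : Wt σ χ) :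
    Wt σ fun a => χ a⁻¹ := by
  obtain ⟨v, v0, hv⟩ := k
  obtain ⟨w, hw⟩ : ∃ w, v ⬝ᵥ M *ᵥ w ≠ 0 := by
    obtain ⟨i, hi⟩ := Function.ne_iff.1 v0
    exact ⟨M⁻¹ *ᵥ Pi.single i 1, by rwa [mulVec_mulVec, mul_nonsing_inv _ hM, one_mulVec, dotProduct_single_one]⟩
  refine ⟨∑ a, χ a • σ a *ᵥ w, fun e => hA ?_, fun b => ?_⟩
  · have := congrArg (fun u => v ⬝ᵥ M *ᵥ u) e
    have k : ∀ a, v ⬝ᵥ M *ᵥ (χ a • σ a *ᵥ w) = v ⬝ᵥ M *ᵥ w := fun a => by
      rw [mulVec_smul, dotProduct_smul, ← smul_dotProduct, ← hv]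
      nth_rewrite 2 [← h a]
      rw [← mulVec_mulVec, ← mulVec_mulVec, dotProduct_mulVec v (σ a)ᵀ, vecMul_transpose]
    simp only [mulVec_sum, dotProduct_sum, k, mulVec_zero, dotProduct_zero, Finset.sum_const, Finset.card_univ,
      nsmul_eq_mul] at this
    exact (mul_eq_zero.1 this).resolve_right hw
  · rw [mulVec_sum, Finset.smul_sum, ← Equiv.sum_comp (Equiv.mulLeft b⁻¹)]
    refine Finset.sum_congr rfl fun a _ => ?_
    rw [mulVec_smul, mulVec_mulVec, ← map_mul, Equiv.coe_mulLeft, mul_inv_cancel_left, map_mul, mul_smul]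

theorem exists_wt [IsAlgClosed F] {A : Type*} [CommGroup A] [Fintype A] (hA : (Fintype.card A : F) ≠ 0)
    {σ : A →* Matrix ι ι F} {a : A} (h : σ a ≠ 1) : ∃ χ : A →* F, Wt σ χ ∧ ∃ a, χ a ≠ 1 := by
  have N : ∀ b v, (∑ a, σ a) *ᵥ (σ b *ᵥ v) = (∑ a, σ a) *ᵥ v := fun b v => by
    rw [mulVec_mulVec, Finset.sum_mul, ← Equiv.sum_comp (Equiv.mulRight b) σ]
    simp
  obtain ⟨w, hw⟩ : ∃ w, σ a *ᵥ w ≠ w := by
    by_contra! k
    exact h (toLin'.injective (LinearMap.ext fun w => by simp [k]))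
  obtain ⟨v, hN, v0, hv⟩ := H64.MR.exists_common_eigen (S := Set.range fun a => toLin' (σ a))
    (W := LinearMap.ker (toLin' (∑ a, σ a))) (by
      rintro _ ⟨a, rfl⟩ _ ⟨b, rfl⟩
      exact ((Commute.all a b).map σ).map toLinAlgEquiv')
    ((Submodule.ne_bot_iff _).2 ⟨σ a *ᵥ w - w, by rw [LinearMap.mem_ker, toLin'_apply, mulVec_sub, N, sub_self],
      sub_ne_zero.2 hw⟩) (by
      rintro _ ⟨a, rfl⟩ v hv
      exact (N a v).trans hv)
  choose c hc using fun a => hv _ ⟨a, rfl⟩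
  simp only [toLin'_apply, LinearMap.mem_ker] at hc hN
  refine ⟨⟨⟨c, smul_left_injective F v0 (by simp only [← hc, map_one, one_mulVec, one_smul])⟩,
    fun a b => smul_left_injective F v0 (by
      simp only [← hc, map_mul, ← mulVec_mulVec, mul_smul]
      rw [hc b, mulVec_smul, hc a, smul_comm])⟩, ⟨v, v0, hc⟩, not_forall.1 fun e => v0 ?_⟩
  rw [sum_mulVec, Finset.sum_congr rfl fun a _ => (hc a).trans (by rw [show c a = 1 from e a, one_smul]),
    Finset.sum_const, ← Nat.cast_smul_eq_nsmul F] at hN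
  exact (smul_eq_zero_iff_right hA).1 hN

theorem cross [IsAlgClosed F] (h4 : Fintype.card ι ≤ 4) {X : Type*} [Group X] {ρ : X →* Matrix ι ι F}
    (hi : Function.Injective ρ) {M : Matrix ι ι F} (hM : IsUnit M.det) (h : ∀ a, (ρ a)ᵀ * M * ρ a = M)
    {K : Type*} [Field K] [Fintype K] (ho : Odd (Fintype.card K)) (hp : (Fintype.card K : F) ≠ 0)
    (ψ : Multiplicative K →* X) {a : Multiplicative K} (h1 : ψ a ≠ 1) {s : K} (s0 : s ≠ 0) {t : X}
    (ht : ∀ a : K, t * ψ (.ofAdd a) * t⁻¹ = ψ (.ofAdd (s * a))) : s ^ 4 = 1 := by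
  by_contra s4
  have hA : (Fintype.card (Multiplicative K) : F) ≠ 0 := by rwa [Fintype.card_multiplicative]
  obtain ⟨χ, w, b, hb⟩ := exists_wt hA (σ := ρ.comp ψ) (a := a) fun e => h1 (hi (e.trans (map_one _).symm))
  let χ' := fun c : K => χ.comp (AddMonoidHom.toMultiplicative (AddMonoidHom.mulLeft c))
  have inj : Function.Injective χ' := fun c d e => by_contra fun ne => hb (by
    have := DFunLike.congr_fun e (.ofAdd (b.toAdd / (c - d)))
    change χ (.ofAdd (c * (b.toAdd / (c - d)))) = χ (.ofAdd (d * (b.toAdd / (c - d)))) at this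
    have ne := sub_ne_zero.2 ne
    rw [show b = .ofAdd (c * (b.toAdd / (c - d))) * (Multiplicative.ofAdd (d * (b.toAdd / (c - d))))⁻¹ by
      rw [← ofAdd_neg, ← ofAdd_add, ← ofAdd_toAdd b, toAdd_ofAdd]; congr 1; field_simp; ring,
      map_mul, this, ← map_mul, mul_inv_cancel, map_one])
  have w1 : Wt (ρ.comp ψ) (χ' 1) := by
    rwa [show χ' 1 = χ from MonoidHom.ext fun a => congrArg (fun u => χ (.ofAdd u)) (one_mul a.toAdd)]
  have wn : ∀ c, Wt (ρ.comp ψ) (χ' c) → Wt (ρ.comp ψ) (χ' (-c)) := fun c k => by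
    rw [show ⇑(χ' (-c)) = fun a => χ' c a⁻¹ from funext fun a =>
      congrArg (fun u => χ (.ofAdd u)) (neg_mul_comm c a.toAdd)]
    exact wt_inv hA (σ := ρ.comp ψ) hM (fun a => h (ψ a)) k
  have ws : ∀ c, Wt (ρ.comp ψ) (χ' c) → Wt (ρ.comp ψ) (χ' (c * s)) := by
    rintro c ⟨v, v0, hv⟩
    refine ⟨ρ t⁻¹ *ᵥ v, fun e => v0 (by
      rw [← one_mulVec v, ← map_one ρ, ← mul_inv_cancel t, map_mul, ← mulVec_mulVec, e, mulVec_zero]), fun a => ?_⟩
    have := hv (.ofAdd (s * a.toAdd))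
    rw [MonoidHom.comp_apply, ← ht] at this
    rw [MonoidHom.comp_apply, mulVec_mulVec, ← map_mul,
      show ψ a * t⁻¹ = t⁻¹ * (t * ψ (.ofAdd a.toAdd) * t⁻¹) by simp [mul_assoc],
      map_mul, ← mulVec_mulVec, this, mulVec_smul]
    congr 1
    exact congrArg (fun u => χ (.ofAdd u)) (mul_assoc _ _ _).symm
  have h2 : (2 : K) ≠ 0 := two_ne_of_odd ho
  have := wt_le _ (χ' ∘ ![1, -1, 1 * s, -1 * s, 1 * s * s]) (inj.comp fun i j e => by
    fin_cases i <;> fin_cases j <;> simp at e ⊢ <;> grind) fun i => by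
    fin_cases i
    exacts [w1, wn _ w1, ws _ w1, ws _ (wn _ w1), ws _ (ws _ w1)]
  simp at this
  omega

/-- the weight argument for subgroups of `Sp₄` -/
theorem cross_sp {P : Subgroup (GL (Fin 2 ⊕ Fin 2) F)} (hH : P ≤ spGL 2 F) {K : Type*} [Field K] [Fintype K]
    (ho : Odd (Fintype.card K)) (hp : (Fintype.card K : F) ≠ 0)
    (ψ : Multiplicative K →* P) {a : Multiplicative K} (h1 : ψ a ≠ 1) {s : K} (s0 : s ≠ 0) {t : P}
    (ht : ∀ a : K, t * ψ (.ofAdd a) * t⁻¹ = ψ (.ofAdd (s * a))) : s ^ 4 = 1 :=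
  cross (F := AlgebraicClosure F) (by simp) (ρ := (Units.coeHom _).comp (Mt.ex.comp P.subtype))
    (Units.val_injective.comp (Mt.ex_inj.comp P.subtype_injective)) (isUnit_det_J _ _) (fun a => Mt.ex_sp (hH a.2)) ho
    (fun e => hp ((algebraMap F (AlgebraicClosure F)).injective (by simpa using e))) ψ h1 s0 ht

end NrC

variable {F : Type*} [Field F] [Fintype F] {H P : Subgroup (GL (Fin 2 ⊕ Fin 2) F)}

open H98.D3 in
omit [Fintype F] in
theorem nr_cross (hH : P ≤ spGL 2 F) {k : Type} [Field k] [Fintype k] (hk : Odd (Fintype.card k))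
    (h3 : 3 < Fintype.card k) (hp : (Fintype.card k : F) ≠ 0) (e : P ≃* SL(2, k)) :
    Fintype.card k = 5 ∨ Fintype.card k = 9 := by
  obtain ⟨a, ha⟩ := IsCyclic.exists_ofOrder_eq_natCard (α := kˣ)
  rw [Nat.card_units, Nat.card_eq_fintype_card] at ha
  let u : Multiplicative k →* SL(2, k) := ⟨⟨fun t => up t.toAdd, up_zero⟩, fun _ _ => up_add _ _⟩
  let d : SL(2, k) := ⟨!![(a : k), 0; 0, (a : k)⁻¹], by simp [det_fin_two]⟩
  have := NrC.cross_sp hH hk hp (e.symm.toMonoidHom.comp u) (a := .ofAdd 1) (fun h => by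
      have : up (1 : k) = 1 := e.symm.map_eq_one_iff.1 h
      simpa [up, H29.mkSL_val] using congrArg (fun g : SL(2, k) => g.1 0 1) this)
    (s := a ^ 2) (by simp) (t := e.symm d) fun x => by
      change e.symm d * e.symm (up x) * (e.symm d)⁻¹ = e.symm (up _)
      rw [← map_inv, ← map_mul, ← map_mul, mul_inv_eq_iff_eq_mul.2]
      apply Subtype.ext
      change d.1 * (up x).1 = (up _).1 * d.1
      simp [d, up, H29.mkSL_val]
      field_simp
  have := orderOf_dvd_of_pow_eq_one (x := a) (n := 8) (Units.ext (by simpa [← pow_mul] using this))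
  rw [ha] at this
  have h8 := Nat.le_of_dvd (by norm_num) this
  obtain ⟨m, hm⟩ := hk
  rw [hm] at h3 h8 this ⊢
  have : m ≤ 4 := by omega
  interval_cases m <;> omega

end H97s
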