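import Cfsg.Statements.S5788
import Cfsg.Agent.Lib.Sp4R.NrD4

/-!
Package NRD: a residual core `SL₂(k)` of a maximal subgroup of `Sp₄(F)` in the defining
characteristic.
-/

set_option autoImplicit false

open Cfsg Cfsg.Geo MatrixGroups Matrix

namespace H97s.NrD

variable {k : Type*} [Field k] {F : Type*} [Field F] {ρ : SL(2, k) →* Matrix I4 I4 F}

theorem mem_sp_iff {g : GL I4 F} : g ∈ spGL 2 F ↔ g.1ᵀ * JJ F * g.1 = JJ F := by
  have key : ∀ u v, sympForm 2 F (g.1 *ᵥ u) (g.1 *ᵥ v) = u ⬝ᵥ ((g.1ᵀ * JJ F * g.1) *ᵥ v) := by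
    intro u v
    rw [sympForm, ← mulVec_mulVec, ← mulVec_mulVec, dotProduct_mulVec u, vecMul_transpose]
  constructor
  · intro h
    ext i j
    have := (key (Pi.single i 1) (Pi.single j 1)).symm.trans (h _ _)
    simpa [sympForm] using this
  · intro h u v
    exact (key u v).trans (by rw [h]; rfl)

namespace Fr

variable (f : Fr ρ)

theorem pm (A B : Matrix I4 I4 F) :
    f.C' * (A * B) * f.C = (f.C' * A * f.C) * (f.C' * B * f.C) := by
  simp only [Matrix.mul_assoc]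
  rw [← Matrix.mul_assoc f.C f.C', f.cc, Matrix.one_mul]

theorem back (A : Matrix (Fin 4) (Fin 4) F) : f.C' * (f.C * A * f.C') * f.C = A := by
  simp only [Matrix.mul_assoc]
  rw [f.cc', ← Matrix.mul_assoc, f.cc', Matrix.one_mul, Matrix.mul_one]

theorem sp_iff (Z : Matrix I4 I4 F) : Zᵀ * JJ F * Z = JJ F ↔
    (f.C' * Z * f.C)ᵀ * J0 F * (f.C' * Z * f.C) = J0 F := by
  have e : f.m • ((f.C' * Z * f.C)ᵀ * J0 F * (f.C' * Z * f.C)) = f.Cᵀ * (Zᵀ * JJ F * Z) * f.C := by
    rw [← Matrix.smul_mul, ← Matrix.mul_smul, ← f.gram, transpose_mul, transpose_mul]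
    simp only [Matrix.mul_assoc]
    rw [← Matrix.mul_assoc f.C f.C', f.cc, Matrix.one_mul, ← Matrix.mul_assoc f.C'ᵀ,
      ← transpose_mul, f.cc, transpose_one, Matrix.one_mul]
  have canc : ∀ A : Matrix I4 I4 F, f.C'ᵀ * (f.Cᵀ * A * f.C) * f.C' = A := fun A => by
    simp only [Matrix.mul_assoc]
    rw [f.cc, ← Matrix.mul_assoc, ← transpose_mul, f.cc]; simp
  constructor
  · intro h
    rw [h, f.gram] at e
    exact smul_right_injective _ f.m0 e
  · intro h
    rw [h, ← f.gram] at e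
    rw [← canc (Zᵀ * JJ F * Z), ← e, canc]

theorem entries (g : SL(2, k)) (i j : Fin 4) : (f.C' * ρ g * f.C) i j ∈ f.ψ.fieldRange := by
  revert i j
  refine sl_ind (Q := fun g => ∀ i j, (f.C' * ρ g * f.C) i j ∈ f.ψ.fieldRange) (fun c i j => ?_)
    (fun i j => ?_) (fun g g' h h' i j => ?_) g
  · have h1 : f.ψ c ∈ f.ψ.fieldRange := ⟨c, rfl⟩
    have h2 : f.ψ c ^ 2 / 2 ∈ f.ψ.fieldRange := div_mem (pow_mem h1 _) (ofNat_mem _ _)
    have h3 : f.ψ c ^ 3 / 6 ∈ f.ψ.fieldRange := div_mem (pow_mem h1 _) (ofNat_mem _ _)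
    rw [f.hup]
    fin_cases i <;> fin_cases j <;>
      first | exact h1 | exact h2 | exact h3 | exact one_mem _ | exact zero_mem _
  · rw [f.hww]
    fin_cases i <;> fin_cases j <;>
      first | exact zero_mem _ | exact ofNat_mem _ 2 | exact neg_mem (ofNat_mem _ 6)
            | exact inv_mem (ofNat_mem _ 6) | exact neg_mem (inv_mem (ofNat_mem _ 2))
  · rw [map_mul, f.pm, Matrix.mul_apply]
    exact sum_mem fun r _ => mul_mem (h _ _) (h' _ _)

theorem realisable : RealisableOver f.ψ.fieldRange (Set.range ρ) := by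
  let e : I4 ≃ Fin 4 := finSumFinEquiv
  have h1 : f.C'.submatrix e id * f.C.submatrix id e = 1 := by
    have : f.C'.submatrix e id * f.C.submatrix id e = (f.C' * f.C).submatrix e e := rfl
    rw [this, f.cc', submatrix_one_equiv]
  refine ⟨⟨f.C'.submatrix e id, f.C.submatrix id e, h1, mul_eq_one_comm.mp h1⟩, ?_⟩
  rintro _ ⟨g, rfl⟩ i j
  exact f.entries g (e i) (e j)

variable (θ : ZMod 7 →+* F)

/-- the stabiliser of a set of vectors -/
def stab [Finite F] (m : ℕ) : Subgroup (GL I4 F) :=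
  let S : Submonoid (GL I4 F) :=
    { carrier := {g | g ∈ spGL 2 F ∧ ∃ A, Pres m A ∧ f.C' * g.1 * f.C = A.map θ}
      one_mem' := ⟨one_mem _, 1, pres_one m, by
        rw [Units.val_one, Matrix.mul_one, f.cc', Matrix.map_one _ θ.map_zero θ.map_one]⟩
      mul_mem' := by
        rintro g g' ⟨h1, A, hA, e⟩ ⟨h1', A', hA', e'⟩
        exact ⟨mul_mem h1 h1', A * A', hA.mul hA', by
          rw [Units.val_mul, f.pm, e, e', Matrix.map_mul]⟩ }
  { S with
    inv_mem' := fun {g} hg => (Submonoid.powers_le.mpr (show g ∈ S from hg))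
      ((isOfFinOrder_of_finite g).mem_powers_iff_mem_zpowers.mpr (inv_mem (Subgroup.mem_zpowers g))) }

theorem mem_stab [Finite F] {m : ℕ} {g : GL I4 F} :
    g ∈ f.stab θ m ↔ g ∈ spGL 2 F ∧ ∃ A, Pres m A ∧ f.C' * g.1 * f.C = A.map θ := Iff.rfl

theorem pres_of_mem [Finite F] {m : ℕ} {g : GL I4 F} (hg : g ∈ f.stab θ m)
    {A : Matrix (Fin 4) (Fin 4) (ZMod 7)} (e : f.C' * g.1 * f.C = A.map θ) : Pres m A := by
  haveI : Fact (Nat.Prime 7) := ⟨by norm_num⟩
  obtain ⟨-, A', h, e'⟩ := hg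
  rwa [Matrix.map_injective θ.injective (e.symm.trans e')]

omit f in
theorem J7_map : J7.map θ = J0 F := by
  ext i j; fin_cases i <;> fin_cases j <;> simp [J7, J0]

theorem exists_gl {A : Matrix (Fin 4) (Fin 4) (ZMod 7)} (h : Aᵀ * J7 * A = J7) :
    ∃ g ∈ spGL 2 F, f.C' * g.1 * f.C = A.map θ := by
  have h1 : (f.C * A.map θ * f.C')ᵀ * JJ F * (f.C * A.map θ * f.C') = JJ F := by
    rw [f.sp_iff, f.back, ← J7_map θ, ← transpose_map, ← Matrix.map_mul, ← Matrix.map_mul, h]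
  have h2 : adj (f.C * A.map θ * f.C') * (f.C * A.map θ * f.C') = 1 := by
    rw [adj, neg_mul, mul_assoc, mul_assoc, ← mul_assoc _ (JJ F), h1, JJ_JJ, neg_neg]
  exact ⟨⟨_, _, mul_eq_one_comm.mp h2, h2⟩, mem_sp_iff.mpr h1, f.back _⟩

end Fr

theorem seven_eq (θ : ZMod 7 →+* F) : (7 : F) = 0 := by
  rw [← map_ofNat θ 7, show (OfNat.ofNat 7 : ZMod 7) = 0 from rfl, map_zero]

theorem Um_map (θ : ZMod 7 →+* F) (h2 : (2 : F) ≠ 0) (h3 : (3 : F) ≠ 0) (a : ZMod 7) :
    Um (θ a) = (U7 a).map θ := by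
  have h6 : (6 : F) ≠ 0 := by rw [show (6 : F) = 2 * 3 by norm_num]; exact mul_ne_zero h2 h3
  have h7 := seven_eq θ
  have e1 : θ a ^ 2 / 2 = 4 * θ a ^ 2 := by field_simp; linear_combination (-θ a ^ 2) * h7
  have e2 : θ a ^ 3 / 6 = 6 * θ a ^ 3 := by field_simp; linear_combination (-5 * θ a ^ 3) * h7
  rw [Um, e1, e2]
  ext i j; fin_cases i <;> fin_cases j <;> simp [U7, evm, map_ofNat]

theorem Wm_map (θ : ZMod 7 →+* F) (h2 : (2 : F) ≠ 0) (h3 : (3 : F) ≠ 0) : Wm F = W7.map θ := by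
  have h6 : (6 : F) ≠ 0 := by rw [show (6 : F) = 2 * 3 by norm_num]; exact mul_ne_zero h2 h3
  have h7 := seven_eq θ
  have e1 : -(2 : F)⁻¹ = 3 := by field_simp; linear_combination -h7
  have e2 : (6 : F)⁻¹ = 6 := by field_simp; linear_combination -5 * h7
  have e3 : (-6 : F) = 1 := by linear_combination -h7
  rw [Wm, e1, e2, e3]
  ext i j; fin_cases i <;> fin_cases j <;> simp [W7, map_ofNat]

/-- an injective endomorphism of `SL₂(k)` can be adjusted to preserve the two root groups -/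
theorem adjust {p : ℕ} [Fact p.Prime] [CharP k p] (τ : SL(2, k) →* SL(2, k))
    (hτ : Function.Injective τ) : ∃ (g : SL(2, k)) (c b : k), b ≠ 0 ∧
      g * τ (up 1) * g⁻¹ = up c ∧ g * τ (lo 1) * g⁻¹ = lo b := by
  have hu : (up (1 : k)) ^ p = 1 := by rw [up_pow]; simp [up_zero]
  have hl : (lo (1 : k)) ^ p = 1 := by
    have : lo (1 : k) = ww * up (-1) * ww⁻¹ := by rw [ww_up, neg_neg, mul_inv_cancel_right]
    rw [this, conj_pow, up_pow]; simp [up_zero]
  have inv : ∀ c : k, (up c)⁻¹ = up (-c) := fun c => by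
    rw [inv_eq_iff_mul_eq_one, ← up_add, add_neg_cancel, up_zero]
  obtain ⟨g, c, hg⟩ : ∃ (g : SL(2, k)) (c : k), g * τ (up 1) * g⁻¹ = up c := by
    rcases unip (p := p) (g := τ (up 1)) (by rw [← map_pow, hu, map_one]) with ⟨c, h⟩ | ⟨a, b, -, h⟩
    · exact ⟨1, c, by simpa using h⟩
    · refine ⟨(up a * ww)⁻¹, -b, ?_⟩
      have := ww_up (-b)
      rw [neg_neg] at this
      rw [h, ← inv, inv_inv, show (up a * ww)⁻¹ * (up a * lo b * (up a)⁻¹) * (up a * ww) =
        ww⁻¹ * (lo b * ww) by group, ← this, inv_mul_cancel_left]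
  rcases unip (p := p) (g := g * τ (lo 1) * g⁻¹) (by
    rw [conj_pow, ← map_pow, hl, map_one, mul_one, mul_inv_cancel]) with ⟨d, h⟩ | ⟨a, b, b0, h⟩
  · exfalso
    have e : up c * up d = up d * up c := by rw [← up_add, ← up_add, add_comm]
    rw [← hg, ← h, conj_mul, conj_mul, ← map_mul, ← map_mul] at e
    have e2 := hτ (mul_left_cancel (mul_right_cancel e))
    have := congrArg (fun x : SL(2, k) => x.1 0 0) e2
    simp [up, lo, mk_val, Matrix.mul_apply, Fin.sum_univ_two] at this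
  · refine ⟨(up a)⁻¹ * g, c, b, b0, ?_, ?_⟩
    · rw [show (up a)⁻¹ * g * τ (up 1) * ((up a)⁻¹ * g)⁻¹ = (up a)⁻¹ * (g * τ (up 1) * g⁻¹) * up a by
        group, hg, inv, ← up_add, ← up_add]
      congr 1; ring
    · rw [show (up a)⁻¹ * g * τ (lo 1) * ((up a)⁻¹ * g)⁻¹ = (up a)⁻¹ * (g * τ (lo 1) * g⁻¹) * up a by
        group, h, ← inv]
      group

variable {H P : Subgroup (GL I4 F)}

/-- the representation given by an isomorphism onto `P` -/
def rep (e : SL(2, k) ≃* P) : SL(2, k) →* Matrix I4 I4 F :=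
  (Units.coeHom _).comp (P.subtype.comp e.toMonoidHom)

theorem rep_apply (e : SL(2, k) ≃* P) (g : SL(2, k)) : rep e g = (e g).1.1 := rfl

theorem range_rep (e : SL(2, k) ≃* P) : Set.range (rep e) = matrixSet P := by
  ext x
  constructor
  · rintro ⟨g, rfl⟩
    exact ⟨_, (e g).2, rfl⟩
  · rintro ⟨g, hg, rfl⟩
    exact ⟨e.symm ⟨g, hg⟩, by rw [rep_apply, e.apply_symm_apply]⟩

theorem central_invol (hk : (2 : k) ≠ 0) {z : SL(2, k)} (h1 : z * z = 1) (h2 : z ≠ 1)
    (hc : ∀ g, z * g = g * z) : z = -1 := by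
  have a1 := congrArg (fun x : SL(2, k) => x.1 0 0) (hc (up 1))
  have a2 := congrArg (fun x : SL(2, k) => x.1 0 1) (hc (up 1))
  have a3 := congrArg (fun x : SL(2, k) => x.1 0 0) (hc (lo 1))
  have a4 := congrArg (fun x : SL(2, k) => x.1 0 0) h1
  simp [up, lo, mk_val, Matrix.mul_apply, Fin.sum_univ_two] at a1 a2 a3 a4
  rw [a3] at a2 a4
  simp only [add_zero, zero_add, zero_mul] at a2 a4
  rcases mul_self_eq_one_iff.mp a4 with h | h
  · exact absurd (by apply sl_ext <;> simp [a1, a3, h, ← a2]) h2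
  · apply sl_ext <;> simp [a1, a3, h, ← a2]

theorem rp_rep (hk : (2 : k) ≠ 0) (h2 : (2 : F) ≠ 0) (hH : H ≤ spGL 2 F) (hP : IsResidualCore H P)
    (hm : -1 ∈ P) (e : SL(2, k) ≃* P) : Rp (rep e) where
  sp g := mem_sp_iff.mp (hH (hP.le (e g).2))
  neg := by
    have : e.symm ⟨-1, hm⟩ = -1 := central_invol hk
      (by rw [← map_mul, map_eq_one_iff _ e.symm.injective]; ext1; simp)
      (by
        rw [Ne, map_eq_one_iff _ e.symm.injective]
        intro h
        have h3 := congrArg (fun x : P => x.1.1 (Sum.inl 0) (Sum.inl 0)) h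
        simp only [Units.val_neg, Units.val_one, Matrix.neg_apply, one_apply_eq,
          OneMemClass.coe_one] at h3
        exact h2 (by linear_combination -h3))
      (fun g => by
        rw [← e.symm_apply_apply g, ← map_mul, ← map_mul]; congr 1; ext1; simp)
    rw [← this, rep_apply, e.apply_symm_apply]; rfl
  irr W hW := hP.absIrred.1 W (by
    rw [← range_rep e]
    rintro _ ⟨g, rfl⟩ _ ⟨v, hv, rfl⟩
    exact hW g v hv)
  com M hM := hP.absIrred.2 M (by
    rw [← range_rep e]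
    rintro _ ⟨g, rfl⟩
    exact hM g)

theorem le_stab [Finite F] {p : ℕ} [Fact p.Prime] [CharP k p] (h2 : (2 : F) ≠ 0) (h3 : (3 : F) ≠ 0)
    (hH : H ≤ spGL 2 F) (hP : IsResidualCore H P) (e : SL(2, k) ≃* P) (f : Fr (rep e))
    (θ : ZMod 7 →+* F) (hθ : Function.Surjective θ) {m : ℕ} (hm : Good m) : H ≤ f.stab θ m := by
  have hPm : ∀ g, (e g).1 ∈ f.stab θ m := by
    refine sl_ind (fun c => ?_) ?_ (fun g g' a a' => ?_)
    · obtain ⟨a, ha⟩ := hθ (f.ψ c)
      exact ⟨hH (hP.le (e _).2), U7 a, hm.u a, by rw [← Um_map θ h2 h3, ha, ← f.hup]; rfl⟩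
    · exact ⟨hH (hP.le (e _).2), W7, hm.w, by rw [← Wm_map θ h2 h3, ← f.hww]; rfl⟩
    · rw [map_mul]; exact mul_mem a a'
  intro h hh
  let τ : SL(2, k) →* SL(2, k) := MonoidHom.mk'
    (fun g => e.symm ⟨h * (e g).1 * h⁻¹, hP.normal h hh _ (e g).2⟩) (fun g g' => by
      rw [← map_mul]; congr 1; ext1; simp)
  have hτ : ∀ g, (e (τ g)).1 = h * (e g).1 * h⁻¹ := fun g => by
    simp [τ]
  obtain ⟨g, c, b, b0, g1, g2⟩ := adjust (p := p) τ (fun x y hxy => by
    have := hτ x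
    rw [hxy, hτ] at this
    exact e.injective (Subtype.ext (mul_left_cancel (mul_right_cancel this))).symm)
  have key : ∀ x y, g * τ x * g⁻¹ = y →
      ((e g).1 * h).1 * rep e x = rep e y * ((e g).1 * h).1 := by
    intro x y hxy
    rw [← hxy, rep_apply, rep_apply, ← Units.val_mul, ← Units.val_mul]
    congr 1
    simp only [map_mul, map_inv, Subgroup.coe_mul, Subgroup.coe_inv, hτ]
    group
  obtain ⟨μ, hμ⟩ := f.norm _ c b b0 (key _ _ g1) (key _ _ g2)
  have hsp : (e g).1 * h ∈ spGL 2 F := mul_mem (hH (hP.le (e g).2)) (hH hh)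
  have a1 := (f.sp_iff _).mp (mem_sp_iff.mp hsp)
  rw [hμ, diagonal_transpose] at a1
  have a2 := congrFun (congrFun a1 0) 3
  rw [mul_diagonal, diagonal_mul] at a2
  simp [J0] at a2
  obtain ⟨μ', rfl⟩ := hθ μ
  obtain ⟨s, hs⟩ := hθ (f.ψ c)
  haveI : Fact (Nat.Prime 7) := ⟨by norm_num⟩
  have a3 : μ' ^ 2 * s ^ 3 = 1 := θ.injective (by
    rw [map_mul, map_pow, map_pow, hs, map_one]; linear_combination a2)
  have a4 : (e g).1 * h ∈ f.stab θ m := ⟨hsp, _, hm.d μ' s a3, by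
    rw [hμ, diagonal_map θ.map_zero, ← hs]
    congr 1
    ext i; fin_cases i <;> simp⟩
  exact (Subgroup.mul_mem_cancel_left _ (hPm g)).mp a4

end H97s.NrD

namespace H97s

open NrD

variable {F : Type*} [Field F] [Fintype F] {H P : Subgroup (GL (Fin 2 ⊕ Fin 2) F)}

/-- package NRD -/
theorem nr_def (hodd : Odd (Fintype.card F)) (hH : IsMaximalIn (spGL 2 F) H) (hP : IsResidualCore H P)
    (htv : ∀ t ∈ H, (t.1 - 1).rank ≤ 1 → t = 1) (hm : -1 ∈ P) {k : Type} [Field k] [Fintype k] (p : ℕ) [Fact p.Prime]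
    [CharP F p] [CharP k p] (h5 : 5 < Fintype.card k) (e : P ≃* SL(2, k)) :
    5 ≤ p ∧ Fintype.card k = Fintype.card F ∧ 7 < Fintype.card F := by
  classical
  have hp : p.Prime := Fact.out
  have p2 : p ≠ 2 := by
    rintro rfl
    obtain ⟨n, -, hn⟩ := FiniteField.card F 2
    rw [hn] at hodd
    exact absurd hodd (Nat.not_odd_iff_even.mpr ((Nat.even_pow' n.ne_zero).mpr even_two))
  have two : ∀ (K : Type _) [Field K] [CharP K p], (2 : K) ≠ 0 := fun K _ _ h =>
    p2 ((Nat.prime_dvd_prime_iff_eq hp Nat.prime_two).mp ((CharP.cast_eq_zero_iff K p 2).mp h))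
  have h2 : (2 : F) ≠ 0 := fun h =>
    p2 ((Nat.prime_dvd_prime_iff_eq hp Nat.prime_two).mp ((CharP.cast_eq_zero_iff F p 2).mp h))
  have hk : (2 : k) ≠ 0 := two k
  have r0 := rp_rep hk h2 hH.1.le hP hm e.symm
  obtain ⟨c, hc⟩ : ∃ c, (rep e.symm (up c) - 1) * (rep e.symm (up c) - 1) *
      (rep e.symm (up c) - 1) ≠ 0 := by
    by_contra hc
    push Not at hc
    refine r0.quad h2 fun c => sq_of_cube h2 (hc c) ?_
    rw [adj_sub, adj_one, r0.adj_eq]
    have a1 : rep e.symm (up c)⁻¹ * rep e.symm (up c) = 1 := by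
      rw [← map_mul, inv_mul_cancel, map_one]
    have a2 := hc c
    generalize rep e.symm (up c)⁻¹ = A at a1
    generalize rep e.symm (up c) = B at a1 a2
    linear_combination (norm := noncomm_ring) a1 * ((B - 1) * (B - 1) - (B - 1) + 1) - A * a2
  have p3 : p ≠ 3 := by
    rintro rfl
    exact hc (by rw [← pow_three']; exact up_nil _ c)
  have h3 : (3 : F) ≠ 0 := fun h =>
    p3 ((Nat.prime_dvd_prime_iff_eq hp Nat.prime_three).mp ((CharP.cast_eq_zero_iff F p 3).mp h))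
  have c0 : c ≠ 0 := by
    rintro rfl
    simp [up_zero] at hc
  let E : SL(2, k) ≃* SL(2, k) := MulEquiv.ofBijective (tw (Units.mk0 c c0))
    (Finite.surjective_iff_bijective.mp fun g => ⟨_, tw_tw _ g⟩)
  let e' : SL(2, k) ≃* P := E.trans e.symm
  have r1 := rp_rep hk h2 hH.1.le hP hm e'
  obtain ⟨t, t0, t4⟩ : ∃ t : k, t ≠ 0 ∧ t ^ 4 ≠ 1 := by
    by_contra hc
    push Not at hc
    have hne := FiniteField.X_pow_card_sub_X_ne_zero k (p := 5) (by norm_num)
    have hdeg := FiniteField.X_pow_card_sub_X_natDegree_eq k (p := 5) (by norm_num)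
    have := Polynomial.card_le_degree_of_subset_roots (p := (Polynomial.X ^ 5 - Polynomial.X :
      Polynomial k)) (Z := Finset.univ) (fun x _ => by
        rw [Polynomial.mem_roots hne]
        by_cases hx : x = 0
        · simp [hx]
        · simp [pow_succ x 4, hc x hx])
    rw [hdeg, Finset.card_univ] at this
    omega
  obtain ⟨f⟩ := r1.exists_fr (p := p) h2 h3 hk t0 t4 (by
    have : rep e' (up 1) = rep e.symm (up c) := by
      change rep e.symm (tw (Units.mk0 c c0) (up 1)) = _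
      rw [tw_up]; simp
    rwa [this])
  have hs : f.ψ.fieldRange = ⊤ := by
    by_contra hne
    exact hP.no_subfield _ hne (range_rep e' ▸ f.realisable)
  have hcard : Fintype.card k = Fintype.card F :=
    Fintype.card_of_bijective ⟨f.ψ.injective, RingHom.fieldRange_eq_top_iff.mp hs⟩
  have p5 : 5 ≤ p := by
    have := hp.two_le
    by_contra h
    interval_cases p
    · exact p2 rfl
    · exact p3 rfl
    · exact absurd hp (by norm_num)
  refine ⟨p5, hcard, ?_⟩
  by_contra h7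
  have h7' : Fintype.card F = 7 := by
    obtain ⟨j, hj⟩ := hodd
    omega
  have p7 : p = 7 := by
    obtain ⟨n, -, hn⟩ := FiniteField.card F p
    have : p ∣ 7 := by rw [← h7', hn]; exact dvd_pow_self _ n.ne_zero
    exact (Nat.prime_dvd_prime_iff_eq hp (by norm_num)).mp this
  subst p7
  let θ : ZMod 7 →+* F := ZMod.castHom (dvd_refl 7) F
  have hθ : Function.Surjective θ :=
    ((Fintype.bijective_iff_injective_and_card θ).mpr ⟨θ.injective, by simp [h7']⟩).2
  have l1 := le_stab (p := 7) h2 h3 hH.1.le hP e' f θ hθ good1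
  have l2 := le_stab (p := 7) h2 h3 hH.1.le hP e' f θ hθ good2
  obtain ⟨g, g1, g2⟩ := f.exists_gl θ G7_sp
  obtain ⟨t, t1, t2⟩ := f.exists_gl θ T7_sp
  rcases hH.2 _ l1 (fun x hx => hx.1) with h | h
  · have : g ∈ H := h ▸ (show g ∈ f.stab θ m1 from ⟨g1, _, pres_G7, g2⟩)
    exact not_pres_G7 (f.pres_of_mem θ (l2 this) g2)
  · exact not_pres_T7 (f.pres_of_mem θ (h.symm ▸ t1) t2)

end H97s
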