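import Mathlib

/-!
Four dimensional symplectic representations of `SL₂(k)` in the defining characteristic:
generators of `SL₂(k)`.
-/

set_option autoImplicit false

namespace H97s.NrD

open Matrix MatrixGroups

section SL2

variable {k : Type*} [Field k]

/-- a matrix of determinant one -/
def mk (a b c d : k) (h : a * d - b * c = 1) : SL(2, k) :=
  ⟨!![a, b; c, d], by rw [Matrix.det_fin_two_of]; exact h⟩

theorem mk_val (a b c d : k) (h : a * d - b * c = 1) : (mk a b c d h).1 = !![a, b; c, d] := rfl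

theorem val_mul (g g' : SL(2, k)) : (g * g').1 = g.1 * g'.1 := rfl

theorem val_neg : (-1 : SL(2, k)).1 = -1 := rfl

theorem sl_ext {g g' : SL(2, k)} (h1 : g.1 0 0 = g'.1 0 0) (h2 : g.1 0 1 = g'.1 0 1)
    (h3 : g.1 1 0 = g'.1 1 0) (h4 : g.1 1 1 = g'.1 1 1) : g = g' := by
  ext i j; fin_cases i <;> fin_cases j <;> assumption

theorem sl_det (g : SL(2, k)) : g.1 0 0 * g.1 1 1 - g.1 0 1 * g.1 1 0 = 1 := by
  rw [← Matrix.det_fin_two]; exact g.2

def up (a : k) : SL(2, k) := mk 1 a 0 1 (by ring)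
def lo (a : k) : SL(2, k) := mk 1 0 a 1 (by ring)
def ww : SL(2, k) := mk 0 1 (-1) 0 (by ring)
def dg (t : kˣ) : SL(2, k) := mk t 0 0 (t⁻¹ : kˣ) (by simp)
def nn (t : kˣ) : SL(2, k) := mk 0 t (-(t⁻¹ : kˣ)) 0 (by simp)

/-- entrywise proof of an identity in `SL₂(k)` -/
macro "nrd_sl2" : tactic => `(tactic| (apply sl_ext <;>
  simp [up, lo, ww, dg, nn, mk_val, val_mul, val_neg, Matrix.mul_apply, Fin.sum_univ_two] <;> (try field_simp) <;> (try ring)))

theorem up_add (a b : k) : up (a + b) = up a * up b := by nrd_sl2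
theorem up_zero : up (0 : k) = 1 := by nrd_sl2
theorem lo_zero : lo (0 : k) = 1 := by nrd_sl2
theorem ww_up (a : k) : ww * up a = lo (-a) * ww := by nrd_sl2
theorem ww_ww : (ww * ww : SL(2, k)) = -1 := by nrd_sl2
theorem nn_eq (t : kˣ) : nn t = up (t : k) * lo (-(t⁻¹ : kˣ) : k) * up (t : k) := by nrd_sl2
theorem nn_nn (t : kˣ) : nn t * nn t = -1 := by nrd_sl2
theorem dg_eq (t : kˣ) : dg t = -1 * (nn t * nn 1) := by nrd_sl2
theorem dg_mul (s t : kˣ) : dg (s * t) = dg s * dg t := by nrd_sl2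
theorem dg_up (t : kˣ) (c : k) : dg t * up c = up (t ^ 2 * c) * dg t := by nrd_sl2
theorem dg_ww_dg (t : kˣ) : dg t * ww * dg t = ww := by nrd_sl2
theorem ww_rel : (ww * up 1 * ww : SL(2, k)) = -1 * (up (-1) * ww * up (-1)) := by nrd_sl2
theorem nn_one : nn (1 : kˣ) = ww := by nrd_sl2
theorem lo_eq (a : k) : lo a = ww * up (-a) * (ww * ww * ww) := by nrd_sl2
theorem dg_eq' (t : kˣ) : dg t = nn t * (ww * ww * ww) := by nrd_sl2

theorem up_pow (a : k) (n : ℕ) : up a ^ n = up (n * a) := by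
  induction n with
  | zero => simp [up_zero]
  | succ n ih => rw [pow_succ, ih, ← up_add]; congr 1; push_cast; ring

theorem bruhat (g : SL(2, k)) : (∃ a t, g = up a * dg t) ∨ ∃ a t b, g = up a * ww * dg t * up b := by
  have h := sl_det g
  by_cases hc : g.1 1 0 = 0
  · rw [hc, mul_zero, sub_zero] at h
    have h0 : g.1 0 0 ≠ 0 := left_ne_zero_of_mul_eq_one h
    refine Or.inl ⟨g.1 0 1 * g.1 0 0, Units.mk0 _ h0, ?_⟩
    apply sl_ext <;> simp [up, dg, mk_val, Matrix.mul_apply, Fin.sum_univ_two, hc, h0]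
    exact eq_inv_of_mul_eq_one_right h
  · refine Or.inr ⟨g.1 0 0 / g.1 1 0, Units.mk0 _ (neg_ne_zero.mpr hc), g.1 1 1 / g.1 1 0, ?_⟩
    apply sl_ext <;> simp [up, dg, ww, mk_val, Matrix.mul_apply, Fin.sum_univ_two, hc]
    all_goals field_simp
    linear_combination -h

theorem sl_ind {Q : SL(2, k) → Prop} (hu : ∀ c, Q (up c)) (hw : Q ww)
    (hm : ∀ g g', Q g → Q g' → Q (g * g')) (g : SL(2, k)) : Q g := by
  have h3 : Q (ww * ww * ww) := hm _ _ (hm _ _ hw hw) hw
  have hl : ∀ c, Q (lo c) := fun c => by rw [lo_eq]; exact hm _ _ (hm _ _ hw (hu _)) h3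
  have hd : ∀ t, Q (dg t) := fun t => by
    rw [dg_eq', nn_eq]; exact hm _ _ (hm _ _ (hm _ _ (hu _) (hl _)) (hu _)) h3
  rcases bruhat g with ⟨a, t, rfl⟩ | ⟨a, t, b, rfl⟩
  · exact hm _ _ (hu _) (hd _)
  · exact hm _ _ (hm _ _ (hm _ _ (hu _) hw) (hd _)) (hu _)

/-- the elements of order `p` -/
theorem unip {p : ℕ} [Fact p.Prime] [CharP k p] {g : SL(2, k)} (h : g ^ p = 1) :
    (∃ c, g = up c) ∨ ∃ a b, b ≠ 0 ∧ g = up a * lo b * up (-a) := by
  have h1 : IsNilpotent (g.1 - 1) := ⟨p, by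
    rw [sub_pow_char_of_commute _ (Commute.one_right _), ← Matrix.SpecialLinearGroup.coe_pow, h]
    simp⟩
  have h2 := (Matrix.isNilpotent_trace_of_isNilpotent h1).eq_zero
  rw [Matrix.trace_sub, Matrix.trace_fin_two, Matrix.trace_fin_two] at h2
  simp only [one_apply_eq] at h2
  have hd := sl_det g
  by_cases hc : g.1 1 0 = 0
  · rw [hc] at hd
    have h3 : g.1 0 0 = 1 := by
      have : (g.1 0 0 - 1) ^ 2 = 0 := by linear_combination g.1 0 0 * h2 - hd
      exact sub_eq_zero.mp (pow_eq_zero_iff two_ne_zero |>.mp this)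
    refine Or.inl ⟨g.1 0 1, ?_⟩
    apply sl_ext <;> simp [up, mk_val, hc, h3]
    linear_combination h2 - h3
  · refine Or.inr ⟨(g.1 0 0 - 1) / g.1 1 0, g.1 1 0, hc, ?_⟩
    apply sl_ext <;> simp [up, lo, mk_val, Matrix.mul_apply, Fin.sum_univ_two]
    all_goals field_simp
    · ring
    · linear_combination g.1 0 0 * h2 - hd
    · linear_combination h2

/-- conjugation by a diagonal matrix of `GL₂(k)` -/
def tw (c : kˣ) : SL(2, k) →* SL(2, k) where
  toFun g := mk (g.1 0 0) (c * g.1 0 1) ((c⁻¹ : kˣ) * g.1 1 0) (g.1 1 1) (by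
    have := sl_det g
    simp only [Units.val_inv_eq_inv_val]; field_simp; linear_combination this)
  map_one' := by apply sl_ext <;> simp [mk_val]
  map_mul' g g' := by
    apply sl_ext <;> simp [mk_val, Matrix.mul_apply, Fin.sum_univ_two] <;> field_simp

theorem tw_tw (c : kˣ) (g : SL(2, k)) : tw c (tw c⁻¹ g) = g := by
  apply sl_ext <;> simp [tw, mk_val]

theorem tw_up (c : kˣ) (a : k) : tw c (up a) = up (c * a) := by
  apply sl_ext <;> simp [tw, mk_val, up]

theorem tw_neg (c : kˣ) : tw c (-1) = -1 := by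
  apply sl_ext <;> simp [tw, mk_val]

end SL2

end H97s.NrD
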