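import Cfsg.Agent.Lib.Sp4R.NrD0

/-!
Four dimensional symplectic representations of `SL₂(k)` in the defining characteristic:
the quadratic case.
-/

set_option autoImplicit false

namespace H97s.NrD

open Matrix MatrixGroups

/-- the index set -/
abbrev I4 := Fin 2 ⊕ Fin 2

variable {k : Type*} [Field k] {F : Type*} [Field F]

/-- the matrix of the form -/
abbrev JJ (F : Type*) [Field F] : Matrix I4 I4 F := Matrix.J (Fin 2) F

/-- an absolutely irreducible symplectic representation, with `-1` acting as `-1` -/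
structure Rp (ρ : SL(2, k) →* Matrix I4 I4 F) : Prop where
  sp : ∀ g, (ρ g)ᵀ * JJ F * ρ g = JJ F
  neg : ρ (-1) = -1
  irr : ∀ W : Submodule F (I4 → F), (∀ g, ∀ v ∈ W, ρ g *ᵥ v ∈ W) → W = ⊥ ∨ W = ⊤
  com : ∀ M : Matrix I4 I4 F, (∀ g, M * ρ g = ρ g * M) → ∃ c : F, M = c • 1

variable {ρ : SL(2, k) →* Matrix I4 I4 F}

theorem Rp.tw (h : Rp ρ) (c : kˣ) : Rp (ρ.comp (tw c)) where
  sp g := h.sp _
  neg := by rw [MonoidHom.comp_apply, tw_neg, h.neg]
  irr W hW := h.irr W fun g v hv => by rw [← tw_tw c g]; exact hW _ v hv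
  com M hM := h.com M fun g => by rw [← tw_tw c g]; exact hM _

/-- the adjoint with respect to the form -/
def adj (A : Matrix I4 I4 F) : Matrix I4 I4 F := -(JJ F * Aᵀ * JJ F)

theorem JJ_JJ : JJ F * JJ F = -1 := Matrix.J_squared _ _

theorem adj_mul (A B : Matrix I4 I4 F) : adj (A * B) = adj B * adj A := by
  simp only [adj, transpose_mul, neg_mul, mul_neg, neg_neg]
  rw [show JJ F * Bᵀ * JJ F * (JJ F * Aᵀ * JJ F) = JJ F * Bᵀ * (JJ F * JJ F) * Aᵀ * JJ F by
    simp only [mul_assoc], JJ_JJ]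
  simp [mul_assoc]

theorem adj_add (A B : Matrix I4 I4 F) : adj (A + B) = adj A + adj B := by
  simp only [adj, transpose_add, mul_add, add_mul, neg_add]

theorem adj_sub (A B : Matrix I4 I4 F) : adj (A - B) = adj A - adj B := by
  simp only [adj, transpose_sub, mul_sub, sub_mul]; abel

theorem adj_smul (c : F) (A : Matrix I4 I4 F) : adj (c • A) = c • adj A := by
  simp [adj]

theorem adj_one : adj (1 : Matrix I4 I4 F) = 1 := by simp [adj, JJ_JJ]

theorem JJ_adj (A : Matrix I4 I4 F) : JJ F * adj A = Aᵀ * JJ F := by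
  rw [adj, mul_neg, ← mul_assoc, ← mul_assoc, JJ_JJ]; simp

theorem Rp.adj_eq (h : Rp ρ) (g : SL(2, k)) : adj (ρ g) = ρ g⁻¹ := by
  have : adj (ρ g) * ρ g = 1 := by
    rw [adj, neg_mul, mul_assoc, mul_assoc, ← mul_assoc _ (JJ F), h.sp, JJ_JJ, neg_neg]
  rw [← mul_one (adj (ρ g)), ← map_one ρ, ← mul_inv_cancel g, map_mul, ← mul_assoc, this, one_mul]

/-- the form -/
def fm (u v : I4 → F) : F := u ⬝ᵥ (JJ F *ᵥ v)

theorem fm_adj (A : Matrix I4 I4 F) (u v : I4 → F) : fm (A *ᵥ u) v = fm u (adj A *ᵥ v) := by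
  rw [fm, fm, mulVec_mulVec, JJ_adj, ← mulVec_mulVec, dotProduct_mulVec u, vecMul_transpose]

theorem fm_swap (u v : I4 → F) : fm u v = -fm v u := by
  simp [fm, Matrix.J, mulVec, dotProduct, Fintype.sum_sum_type, Fin.sum_univ_two, Matrix.one_apply]
  ring

theorem fm_self (u : I4 → F) : fm u u = 0 := by
  simp [fm, Matrix.J, mulVec, dotProduct, Fintype.sum_sum_type, Fin.sum_univ_two, Matrix.one_apply]
  ring

theorem fm_add_left (u u' v : I4 → F) : fm (u + u') v = fm u v + fm u' v := by
  simp [fm]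

theorem fm_add_right (u v v' : I4 → F) : fm u (v + v') = fm u v + fm u v' := by
  simp [fm, mulVec_add]

theorem fm_smul_left (c : F) (u v : I4 → F) : fm (c • u) v = c * fm u v := by
  simp [fm]

theorem fm_smul_right (c : F) (u v : I4 → F) : fm u (c • v) = c * fm u v := by
  simp [fm, mulVec_smul]

theorem fm_zero_left (v : I4 → F) : fm 0 v = 0 := by simp [fm]

theorem fm_zero_right (v : I4 → F) : fm v 0 = 0 := by simp [fm]

theorem fm_nondeg {u : I4 → F} (h : ∀ v, fm u v = 0) : u = 0 := by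
  apply dotProduct_eq_zero
  intro w
  have := h (-(JJ F *ᵥ w))
  rwa [fm, mulVec_neg, mulVec_mulVec, JJ_JJ, neg_mulVec, one_mulVec, neg_neg] at this

theorem pow_four {N : Matrix I4 I4 F} (h : IsNilpotent N) : N ^ 4 = 0 := by
  have h1 := (Matrix.isNilpotent_charpoly_sub_pow_of_isNilpotent h).eq_zero
  have h2 := Matrix.aeval_self_charpoly N
  rw [sub_eq_zero.mp h1] at h2
  simpa using h2

theorem up_nil {p : ℕ} [Fact p.Prime] [CharP F p] [CharP k p] (ρ : SL(2, k) →* Matrix I4 I4 F)
    (c : k) : (ρ (up c) - 1) ^ p = 0 := by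
  rw [sub_pow_char_of_commute _ (Commute.one_right _), ← map_pow, up_pow]
  simp [up_zero]

/-- in the symplectic group a unipotent element with `N ^ 3 = 0` has `N ^ 2 = 0` -/
theorem sq_of_cube (h2 : (2 : F) ≠ 0) {N : Matrix I4 I4 F} (h3 : N * N * N = 0)
    (ha : adj N = N * N - N) : N * N = 0 := by
  have a2 : adj (N * N) = N * N := by
    rw [adj_mul, ha, sub_mul, mul_sub, mul_sub, ← mul_assoc (N * N), h3, ← mul_assoc N, h3]; simp
  have alt : ∀ x, fm ((N * N) *ᵥ x) x = 0 := fun x => by
    have := fm_adj (N * N) x x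
    rw [a2, fm_swap x] at this
    apply mul_left_cancel₀ h2
    linear_combination this
  by_contra hne
  obtain ⟨x, hx⟩ : ∃ x, (N * N) *ᵥ x ≠ 0 := by
    by_contra hc
    push Not at hc
    exact hne (Matrix.toLin'.injective (LinearMap.ext fun x => by simpa using hc x))
  obtain ⟨y, hy⟩ : ∃ y, fm ((N * N) *ᵥ x) y ≠ 0 := by
    by_contra hc
    push Not at hc
    exact hx (fm_nondeg hc)
  have hyx : fm ((N * N) *ᵥ y) x = -fm ((N * N) *ᵥ x) y := by
    rw [fm_adj, a2, fm_swap]
  have two : ∀ a b : F, a • (N * N) *ᵥ x + b • (N * N) *ᵥ y = 0 → a = 0 ∧ b = 0 := by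
    intro a b hab
    have e1 := congrArg (fm · y) hab
    have e2 := congrArg (fm · x) hab
    simp only [fm_add_left, fm_smul_left, alt, fm_zero_left, hyx] at e1 e2
    constructor
    · exact (mul_eq_zero.mp (by linear_combination e1)).resolve_right hy
    · exact (mul_eq_zero.mp (by linear_combination -e2)).resolve_right hy
  have h4 : N * N * (N * N) = 0 := by rw [← mul_assoc, h3, zero_mul]
  have h3' : N * (N * N) = 0 := by rw [← mul_assoc, h3]
  have li : LinearIndependent F ![x, y, N *ᵥ x, N *ᵥ y, (N * N) *ᵥ x, (N * N) *ᵥ y] := by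
    rw [Fintype.linearIndependent_iff]
    intro g hg
    simp only [Fin.sum_univ_six] at hg
    simp only [Matrix.cons_val_zero, Matrix.cons_val_one, Matrix.cons_val] at hg
    have e1 := congrArg ((N * N) *ᵥ ·) hg
    simp only [mulVec_add, mulVec_smul, mulVec_mulVec, h3, h4, zero_mulVec, smul_zero, add_zero,
      mulVec_zero] at e1
    obtain ⟨g0, g1⟩ := two _ _ e1
    have e2 := congrArg (N *ᵥ ·) hg
    simp only [mulVec_add, mulVec_smul, mulVec_mulVec, h3', zero_mulVec, smul_zero, add_zero,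
      mulVec_zero, g0, g1, zero_smul, zero_add] at e2
    obtain ⟨g2, g3⟩ := two _ _ e2
    simp only [g0, g1, g2, g3, zero_smul, zero_add] at hg
    obtain ⟨g4, g5⟩ := two _ _ hg
    intro i; fin_cases i <;> assumption
  have := li.fintype_card_le_finrank
  simp at this

/-- a pair of matrix units has a non-scalar centraliser -/
theorem no_units (h2 : (2 : F) ≠ 0) {N M : Matrix I4 I4 F} (hN : N * N = 0) (hM : M * M = 0)
    (h : N * M + M * N = -1)
    (hc : ∀ Z : Matrix I4 I4 F, Z * N = N * Z → Z * M = M * Z → ∃ c : F, Z = c • 1) : False := by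
  set E := -(N * M) with hE
  have hMN : M * N = -1 - N * M := by rw [← h]; abel
  have NMN : N * M * N = -N := by rw [mul_assoc, hMN, mul_sub, ← mul_assoc, hN]; simp
  have MNM : M * N * M = -M := by rw [hMN, sub_mul, mul_assoc, hM]; simp
  have EE : E * E = E := by
    rw [hE, neg_mul_neg, ← mul_assoc, NMN, neg_mul]
  have trE : E.trace = 2 := by
    have := congrArg Matrix.trace h
    rw [Matrix.trace_add, Matrix.trace_mul_comm M] at this
    simp only [trace_neg, trace_one, Fintype.card_sum, Fintype.card_fin] at this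
    apply mul_left_cancel₀ h2
    rw [hE, trace_neg]
    push_cast at this
    linear_combination -this
  have EN : E * N = N := by rw [hE, neg_mul, NMN, neg_neg]
  have NE : N * E = 0 := by rw [hE, mul_neg, ← mul_assoc, hN, zero_mul, neg_zero]
  have EM : E * M = 0 := by rw [hE, neg_mul, mul_assoc, hM, mul_zero, neg_zero]
  have ME : M * E = M := by rw [hE, mul_neg, ← mul_assoc, MNM, neg_neg]
  have hE' : N * M = -E := by rw [hE, neg_neg]
  clear_value E
  have key : ∀ X : Matrix I4 I4 F, ∃ c : F, E * X * E = c • E := by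
    intro X
    obtain ⟨c, hc⟩ := hc (E * X * E - M * X * N)
      (by linear_combination (norm := noncomm_ring) E * X * EN - M * X * hN - NE * X * E +
        hE' * X * N)
      (by linear_combination (norm := noncomm_ring) E * X * EM - M * X * hE' - ME * X * E +
        hM * X * N)
    refine ⟨c, ?_⟩
    have := congrArg (E * ·) hc
    simp only [mul_sub, ← mul_assoc, EE, EM, zero_mul, sub_zero, mul_smul_comm, mul_one] at this
    exact this
  have E0 : E = 0 := by
    ext j i
    obtain ⟨c, hc⟩ := key (Matrix.single i j 1)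
    have e1 := congrArg Matrix.trace hc
    rw [Matrix.trace_mul_comm, ← mul_assoc, EE, trace_smul, trE, Matrix.trace_mul_single] at e1
    have e2 := congrFun (congrFun hc j) i
    rw [mul_assoc, Matrix.mul_apply, Finset.sum_eq_single i (fun b _ hb => by
      rw [Matrix.single_mul_apply_of_ne _ _ _ _ _ hb, mul_zero]) (by simp),
      Matrix.single_mul_apply_same] at e2
    simp only [MulOpposite.op_one, one_smul, smul_eq_mul, one_mul, Matrix.smul_apply] at e1 e2
    have : E j i * E j i = 0 := by linear_combination 2 * e2 - E j i * e1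
    simpa using this
  rw [E0, trace_zero] at trE
  exact h2 trE.symm

theorem rel_of {R : Type*} [Ring R] {A B : R} (hA : A * A = 0) (hB : B * B = 0)
    (e : (1 + A) * (1 + B) * (1 + A) * ((1 + A) * (1 + B) * (1 + A)) = -1) :
    A * B + B * A + (A * B + B * A) = -1 + -1 := by
  have i1 : (1 - A) * (1 + A) = 1 := by linear_combination (norm := noncomm_ring) -hA
  have i2 : (1 + A) * (1 - A) = 1 := by linear_combination (norm := noncomm_ring) -hA
  have i3 : (1 - B) * (1 + B) = 1 := by linear_combination (norm := noncomm_ring) -hB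
  have e1 : (1 + A) * (1 + A) * (1 + B) = -((1 - B) * ((1 - A) * (1 - A))) := by
    have := congrArg (fun Z => (1 - B) * ((1 - A) * Z * (1 - A))) e
    simp only [← mul_assoc] at this
    rw [mul_assoc (1 - B) (1 - A), i1, mul_one, i3, one_mul, mul_assoc _ (1 + A) (1 - A), i2,
      mul_one] at this
    rw [this]; noncomm_ring
  have x1 : (1 + A) * (1 + A) = 1 + A + A := by linear_combination (norm := noncomm_ring) hA
  have x2 : (1 - A) * (1 - A) = 1 - A - A := by linear_combination (norm := noncomm_ring) hA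
  rw [x1, x2] at e1
  linear_combination (norm := noncomm_ring) e1

theorem nn_of {R : Type*} [Ring R] {A B : R} (hA : A * A = 0) (e : A * B + B * A = -1) :
    (1 + A) * (1 + B) * (1 + A) = A + B := by
  linear_combination (norm := noncomm_ring) e + hA + e * A - B * hA

theorem sq_add {R : Type*} [Ring R] {A B : R} (hA : A * A = 0) (hB : B * B = 0)
    (cm : A * B = B * A) (e : (A + B + A * B) * (A + B + A * B) = 0) : A * B + A * B = 0 := by
  have a2 : B * (A * B) = 0 := by rw [cm, ← mul_assoc, hB, zero_mul]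
  have a3 : A * B * A = 0 := by rw [cm, mul_assoc, hA, mul_zero]
  linear_combination (norm := noncomm_ring) e - hA - hB + cm - hA * B - a2 - a3 - A * hB - a3 * B

/-- the quadratic case is impossible -/
theorem Rp.quad (h : Rp ρ) (h2 : (2 : F) ≠ 0)
    (hq : ∀ c, (ρ (up c) - 1) * (ρ (up c) - 1) = 0) : False := by
  obtain ⟨N, hN⟩ : ∃ N : k → Matrix I4 I4 F, ∀ c, ρ (up c) = 1 + N c :=
    ⟨fun c => ρ (up c) - 1, fun c => (add_sub_cancel _ _).symm⟩
  obtain ⟨M, hM⟩ : ∃ M : k → Matrix I4 I4 F, ∀ c, ρ (lo c) = 1 + M c :=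
    ⟨fun c => ρ (lo c) - 1, fun c => (add_sub_cancel _ _).symm⟩
  have half : ∀ Z Z' : Matrix I4 I4 F, Z + Z = Z' + Z' → Z = Z' := fun Z Z' hZ =>
    smul_right_injective _ h2 (by simpa only [two_smul] using hZ)
  have sq : ∀ c, N c * N c = 0 := fun c => by simpa [hN] using hq c
  have NN : ∀ c d, N c * N d = 0 := by
    intro c d
    have cm : N c * N d = N d * N c := by
      have : ρ (up c) * ρ (up d) = ρ (up d) * ρ (up c) := by
        rw [← map_mul, ← map_mul, ← up_add, ← up_add, add_comm]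
      rw [hN, hN] at this
      linear_combination (norm := noncomm_ring) this
    have e : N (c + d) = N c + N d + N c * N d := by
      have := hN (c + d)
      rw [up_add, map_mul, hN, hN] at this
      linear_combination (norm := noncomm_ring) -this
    have e2 := sq (c + d)
    rw [e] at e2
    exact half _ _ (by rw [sq_add (sq c) (sq d) cm e2, add_zero])
  have w3 : ρ ww * ρ (ww * ww * ww) = 1 := by
    rw [← map_mul, ← map_one ρ]; congr 1; nrd_sl2
  have w3' : ρ (ww * ww * ww) * ρ ww = 1 := by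
    rw [← map_mul, ← map_one ρ]; congr 1; nrd_sl2
  have MN : ∀ c, M c = ρ ww * N (-c) * ρ (ww * ww * ww) := by
    intro c
    have e1 := hM c
    rw [lo_eq, map_mul, map_mul, hN, mul_add, add_mul, mul_one, w3] at e1
    exact (add_left_cancel e1).symm
  have MM : ∀ c d, M c * M d = 0 := by
    intro c d
    rw [MN, MN, mul_assoc, ← mul_assoc (ρ (ww * ww * ww)), ← mul_assoc (ρ (ww * ww * ww)), w3',
      one_mul, mul_assoc, ← mul_assoc (N (-c)), NN]
    simp
  have rel : ∀ t : kˣ, N t * M (-(t⁻¹ : kˣ)) + M (-(t⁻¹ : kˣ)) * N t = -1 := by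
    intro t
    have e := congrArg ρ (nn_nn t)
    rw [h.neg, map_mul, nn_eq, map_mul, map_mul, hN, hM] at e
    exact half _ _ (rel_of (sq _) (MM _ _) e)
  have nt : ∀ t : kˣ, ρ (nn t) = N t + M (-(t⁻¹ : kˣ)) := by
    intro t
    rw [nn_eq, map_mul, map_mul, hN, hM]
    exact nn_of (sq _) (rel t)
  have r1 : N 1 * M (-1) + M (-1) * N 1 = -1 := by simpa using rel 1
  have n1 : ρ (nn 1) = N 1 + M (-1) := by simpa using nt 1
  have M1 : ∀ c, M c * M (-1) = 0 := fun c => MM _ _
  have M1' : ∀ c, M (-1) * M c = 0 := fun c => MM _ _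
  have N1 : ∀ c, N c * N 1 = 0 := fun c => NN _ _
  have N1' : ∀ c, N 1 * N c = 0 := fun c => NN _ _
  have N0 : N 0 = 0 := by
    have := hN 0
    rw [up_zero, map_one] at this
    linear_combination (norm := noncomm_ring) -this
  have AA := N1 1
  have BB := M1 (-1)
  generalize N 1 = A at r1 n1 N1 N1' AA
  generalize M (-1) = B at r1 n1 M1 M1' BB
  obtain ⟨φ, hφ⟩ : ∃ φ : k → Matrix I4 I4 F, ∀ c, φ c = -(N c * B + B * N c) := ⟨_, fun _ => rfl⟩
  have φA : ∀ c, φ c * A = N c := fun c => by
    rw [hφ]; linear_combination (norm := noncomm_ring) -N c * r1 + N1 c * B - B * N1 c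
  have Aφ : ∀ c, A * φ c = N c := fun c => by
    rw [hφ]; linear_combination (norm := noncomm_ring) -r1 * N c + B * N1' c - N1' c * B
  have φB : ∀ c, φ c * B = B * φ c := fun c => by
    rw [hφ]; linear_combination (norm := noncomm_ring) BB * N c - N c * BB
  have dA : ∀ t : kˣ, ρ (dg t) * A = N t := by
    intro t
    rw [dg_eq, map_mul, map_mul, h.neg, nt, n1]
    linear_combination (norm := noncomm_ring) -(N t + M (-(t⁻¹ : kˣ))) * AA - N t * r1 +
      N1 t * B - M1 (-(t⁻¹ : kˣ)) * A
  have φφ : ∀ s t : kˣ, φ s * φ t = φ (s * t : kˣ) := by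
    intro s t
    have e1 : (φ s * φ t - φ (s * t : kˣ)) * A = 0 := by
      have a1 := dA (s * t)
      rw [dg_mul, map_mul, mul_assoc, dA, ← Aφ t, ← mul_assoc, dA, ← φA s, mul_assoc, Aφ] at a1
      rw [sub_mul, mul_assoc, φA, φA, a1, sub_self]
    have e2 : (φ s * φ t - φ (s * t : kˣ)) * B = B * (φ s * φ t - φ (s * t : kˣ)) := by
      rw [sub_mul, mul_sub, mul_assoc, φB, ← mul_assoc, φB, φB, mul_assoc]
    rw [← sub_eq_zero]
    generalize φ s * φ t - φ (s * t : kˣ) = Z at e1 e2
    linear_combination (norm := noncomm_ring) Z * r1 - e1 * B - e2 * A - B * e1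
  have gen : ∀ Z : Matrix I4 I4 F, (∀ c, Z * N c = N c * Z) → Z * A = A * Z → Z * B = B * Z →
      ∃ c : F, Z = c • 1 := by
    intro Z h1 h3 h4
    refine h.com Z (sl_ind (fun c => ?_) ?_ (fun g g' a1 a2 => ?_))
    · rw [hN, mul_add, add_mul, h1, mul_one, one_mul]
    · rw [← nn_one, n1, mul_add, add_mul, h3, h4]
    · rw [map_mul, ← mul_assoc, a1, mul_assoc, a2, mul_assoc]
  have sc : ∀ c, ∃ x : F, N c = x • A := by
    intro c
    by_cases hc : c = 0
    · exact ⟨0, by rw [hc, N0, zero_smul]⟩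
    obtain ⟨x, hx⟩ := gen (φ (Units.mk0 c hc)) (fun d => by
      by_cases hd : d = 0
      · rw [hd, N0, mul_zero, zero_mul]
      · have e := φφ (Units.mk0 c hc) (Units.mk0 d hd)
        rw [mul_comm (Units.mk0 c hc), ← φφ] at e
        simp only [Units.val_mk0] at e ⊢
        rw [← φA d, ← mul_assoc, e, mul_assoc, φA, ← Aφ c, mul_assoc])
      (by rw [φA, Aφ]) (φB _)
    exact ⟨x, by rw [← φA c, show φ c = x • 1 from hx, smul_mul_assoc, one_mul]⟩
  exact no_units h2 AA BB r1 fun Z h3 h4 => gen Z (fun c => by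
    obtain ⟨x, hx⟩ := sc c
    rw [hx, mul_smul_comm, smul_mul_assoc, h3]) h3 h4

end H97s.NrD
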