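import Cfsg.Agent.Lib.Sp4R.NrD1

/-!
Four dimensional symplectic representations of `SL₂(k)` in the defining characteristic:
calculus of truncated polynomials in a regular nilpotent matrix.
-/

set_option autoImplicit false

namespace H97s.NrD

open Matrix MatrixGroups

variable {F : Type*} [Field F] {X : Matrix I4 I4 F}

/-- a polynomial of degree at most three -/
def ev (X : Matrix I4 I4 F) (a b c d : F) : Matrix I4 I4 F :=
  a • 1 + b • X + c • (X * X) + d • (X * X * X)

theorem ev_congr {a b c d a' b' c' d' : F} (h1 : a = a') (h2 : b = b') (h3 : c = c') (h4 : d = d') :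
    ev X a b c d = ev X a' b' c' d' := by rw [h1, h2, h3, h4]

theorem ev_mul (h4 : X * X * X * X = 0) (a b c d a' b' c' d' : F) :
    ev X a b c d * ev X a' b' c' d' = ev X (a * a') (a * b' + b * a') (a * c' + b * b' + c * a')
      (a * d' + b * c' + c * b' + d * a') := by
  simp only [ev, mul_add, add_mul, smul_mul_assoc, mul_smul_comm, one_mul, mul_one, ← mul_assoc, h4,
    zero_mul, smul_zero]
  module

theorem ev_one : ev X 1 0 0 0 = 1 := by simp [ev]

theorem ev_X : ev X 0 1 0 0 = X := by simp [ev]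

theorem ev_sub (a b c d a' b' c' d' : F) :
    ev X a b c d - ev X a' b' c' d' = ev X (a - a') (b - b') (c - c') (d - d') := by
  simp only [ev]; module

theorem ev_sub_one (a b c d : F) : ev X a b c d - 1 = ev X (a - 1) b c d := by
  simp only [ev]; module

theorem ev_zero (h4 : X * X * X * X = 0) (h3 : X * X * X ≠ 0) {a b c d : F} (h : ev X a b c d = 0) :
    a = 0 ∧ b = 0 ∧ c = 0 ∧ d = 0 := by
  have key : ∀ x : F, ev X 0 0 0 x = 0 → x = 0 := fun x hx => by
    simp only [ev, zero_smul, zero_add, smul_eq_zero] at hx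
    exact hx.resolve_right h3
  have ha : a = 0 := key _ (by
    have := congrArg (· * ev X 0 0 0 1) h
    simpa [ev_mul h4] using this)
  have hb : b = 0 := key _ (by
    have := congrArg (· * ev X 0 0 1 0) h
    simpa [ev_mul h4, ha] using this)
  have hc : c = 0 := key _ (by
    have := congrArg (· * ev X 0 1 0 0) h
    simpa [ev_mul h4, ha, hb] using this)
  exact ⟨ha, hb, hc, key _ (by simpa [ha, hb, hc] using h)⟩

theorem ev_inj (h4 : X * X * X * X = 0) (h3 : X * X * X ≠ 0) {a b c d a' b' c' d' : F}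
    (h : ev X a b c d = ev X a' b' c' d') : a = a' ∧ b = b' ∧ c = c' ∧ d = d' := by
  have := ev_zero h4 h3 (a := a - a') (b := b - b') (c := c - c') (d := d - d')
    (by rw [← ev_sub, h, sub_self])
  simpa only [sub_eq_zero] using this

theorem ev_comp (h4 : X * X * X * X = 0) (α β γ a b c d : F) :
    ev (ev X 0 α β γ) a b c d =
      ev X a (b * α) (b * β + c * α ^ 2) (b * γ + 2 * c * α * β + d * α ^ 3) := by
  conv_lhs => rw [ev, ev_mul h4, ev_mul h4]
  simp only [ev]
  module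

theorem ev_pow (h4 : X * X * X * X = 0) (a b c d : F) (n : ℕ) :
    ∃ b' c' d', ev X a b c d ^ n = ev X (a ^ n) b' c' d' := by
  induction n with
  | zero => exact ⟨0, 0, 0, by rw [pow_zero, pow_zero, ev_one]⟩
  | succ n ih =>
    obtain ⟨b', c', d', h⟩ := ih
    exact ⟨_, _, _, by rw [pow_succ, h, ev_mul h4, pow_succ]⟩

theorem ev_conj {Z X' : Matrix I4 I4 F} (h : Z * X = X' * Z) (a b c d : F) :
    Z * ev X a b c d = ev X' a b c d * Z := by
  have h2 : Z * (X * X) = X' * X' * Z := by rw [← mul_assoc, h, mul_assoc, h, mul_assoc]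
  have h3 : Z * (X * X * X) = X' * X' * X' * Z := by
    rw [← mul_assoc, h2, mul_assoc, h, ← mul_assoc]
  simp only [ev, mul_add, add_mul, smul_mul_assoc, mul_smul_comm, one_mul, mul_one, h, h2, h3]

theorem adj_ev (h : adj X = -X) (a b c d : F) : adj (ev X a b c d) = ev X a (-b) c (-d) := by
  simp only [ev, adj_add, adj_smul, adj_one, adj_mul, h, neg_mul, mul_neg, neg_neg, ← mul_assoc]
  module

/-- the truncated logarithm -/
def lg (A : Matrix I4 I4 F) : Matrix I4 I4 F := ev (A - 1) 0 1 (-2⁻¹) 3⁻¹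

theorem lg_ev (h4 : X * X * X * X = 0) (h2 : (2 : F) ≠ 0) (b c d : F) :
    lg (ev X 1 b c d) = ev X 0 b (c - b ^ 2 / 2) (d - b * c + b ^ 3 / 3) := by
  rw [lg, ev_sub_one, sub_self, ev_comp h4]
  apply ev_congr <;> field_simp <;> ring

theorem lg_conj {Z A A' : Matrix I4 I4 F} (h : Z * A = A' * Z) : Z * lg A = lg A' * Z :=
  ev_conj (by rw [mul_sub, sub_mul, h, mul_one, one_mul]) _ _ _ _

theorem adj_lg (A : Matrix I4 I4 F) : adj (lg A) = lg (adj A) := by
  simp only [lg, ev, adj_add, adj_smul, adj_one, adj_mul, adj_sub, ← mul_assoc]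

/-- the matrix whose columns are `y, X y, X² y, X³ y` -/
def cyc (X : Matrix I4 I4 F) (y : I4 → F) : Matrix I4 (Fin 4) F :=
  Matrix.of fun r j => ![y, X *ᵥ y, (X * X) *ᵥ y, (X * X * X) *ᵥ y] j r

theorem cyc_mulVec (y : I4 → F) (a : Fin 4 → F) :
    cyc X y *ᵥ a = ev X (a 0) (a 1) (a 2) (a 3) *ᵥ y := by
  ext r
  simp only [ev, add_mulVec, smul_mulVec, one_mulVec]
  simp [cyc, mulVec, dotProduct, Fin.sum_univ_four, mul_comm]

theorem mat_ext {m n : Type*} [Fintype n] [DecidableEq n] {A B : Matrix m n F}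
    (h : ∀ x, A *ᵥ x = B *ᵥ x) : A = B := by
  ext i j
  simpa using congrFun (h (Pi.single j 1)) i

theorem exists_inv (h4 : X * X * X * X = 0) {y : I4 → F} (h3 : (X * X * X) *ᵥ y ≠ 0) :
    ∃ C' : Matrix (Fin 4) I4 F, cyc X y * C' = 1 ∧ C' * cyc X y = 1 := by
  have inj : ∀ a : Fin 4 → F, cyc X y *ᵥ a = 0 → a = 0 := by
    intro a ha
    rw [cyc_mulVec] at ha
    have key : ∀ x : F, ev X 0 0 0 x *ᵥ y = 0 → x = 0 := fun x hx => by
      simp only [ev, zero_smul, zero_add, smul_mulVec, smul_eq_zero] at hx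
      exact hx.resolve_right h3
    have h0 : a 0 = 0 := key _ (by
      have := congrArg (ev X 0 0 0 1 *ᵥ ·) ha
      simpa [mulVec_mulVec, ev_mul h4] using this)
    have h1 : a 1 = 0 := key _ (by
      have := congrArg (ev X 0 0 1 0 *ᵥ ·) ha
      simpa [mulVec_mulVec, ev_mul h4, h0] using this)
    have h2 : a 2 = 0 := key _ (by
      have := congrArg (ev X 0 1 0 0 *ᵥ ·) ha
      simpa [mulVec_mulVec, ev_mul h4, h0, h1] using this)
    have h3 : a 3 = 0 := key _ (by simpa [h0, h1, h2] using ha)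
    ext i; fin_cases i <;> assumption
  let e : I4 ≃ Fin 4 := finSumFinEquiv
  have hu : IsUnit ((cyc X y).submatrix id e) := by
    rw [← Matrix.mulVec_injective_iff_isUnit]
    intro a a' haa
    have e1 : ∀ a : I4 → F, (cyc X y).submatrix id e *ᵥ a = cyc X y *ᵥ (a ∘ e.symm) := fun a => by
      rw [submatrix_mulVec_equiv]; rfl
    simp only [e1] at haa
    have := inj (a ∘ e.symm - a' ∘ e.symm) (by rw [mulVec_sub, haa, sub_self])
    exact e.symm.surjective.injective_comp_right (sub_eq_zero.mp this)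
  obtain ⟨D, hD⟩ := hu.exists_right_inv
  have h1 : cyc X y * D.submatrix e.symm id = 1 := by
    rw [← hD]
    ext i j
    simp only [Matrix.mul_apply, submatrix_apply, id]
    exact (Equiv.sum_comp e (fun r => cyc X y i r * D (e.symm r) j)).symm.trans (by simp)
  exact ⟨_, h1, (Matrix.mul_eq_one_comm_of_equiv e).mp h1⟩

theorem exists_cyc (h3 : X * X * X ≠ 0) : ∃ y, (X * X * X) *ᵥ y ≠ 0 := by
  by_contra hc
  push Not at hc
  exact h3 (mat_ext fun x => by rw [hc, zero_mulVec])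

theorem comm_ev (h4 : X * X * X * X = 0) (h3 : X * X * X ≠ 0) {Z : Matrix I4 I4 F}
    (h : Z * X = X * Z) : ∃ a b c d, Z = ev X a b c d := by
  obtain ⟨y, hy⟩ := exists_cyc h3
  obtain ⟨C', h1, -⟩ := exists_inv h4 hy
  set a := C' *ᵥ (Z *ᵥ y)
  have ha : Z *ᵥ y = ev X (a 0) (a 1) (a 2) (a 3) *ᵥ y := by
    rw [← cyc_mulVec, mulVec_mulVec, h1, one_mulVec]
  refine ⟨a 0, a 1, a 2, a 3, mat_ext fun x => ?_⟩
  rw [← one_mulVec x, ← h1, ← mulVec_mulVec, cyc_mulVec, mulVec_mulVec, mulVec_mulVec, ev_conj h,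
    ← mulVec_mulVec, ha, mulVec_mulVec, ev_mul h4, ev_mul h4]
  congr 1
  apply ev_congr <;> ring

theorem ker_X (h4 : X * X * X * X = 0) {y : I4 → F} (h3 : (X * X * X) *ᵥ y ≠ 0) {z : I4 → F}
    (hz : X *ᵥ z = 0) : ∃ c : F, z = c • (X * X * X) *ᵥ y := by
  obtain ⟨C', h1, h2⟩ := exists_inv h4 h3
  set a := C' *ᵥ z
  have ha : z = ev X (a 0) (a 1) (a 2) (a 3) *ᵥ y := by
    rw [← cyc_mulVec, mulVec_mulVec, h1, one_mulVec]
  have h0 : cyc X y *ᵥ ![0, a 0, a 1, a 2] = 0 := by
    rw [← hz, cyc_mulVec, ha, mulVec_mulVec]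
    conv_rhs => rw [← ev_X (X := X)]
    rw [ev_comp h4, ev_mul h4]
    simp
  have h5 := congrArg (C' *ᵥ ·) h0
  simp only [mulVec_mulVec, h2, one_mulVec, mulVec_zero] at h5
  have e0 : a 0 = 0 := congrFun h5 1
  have e1 : a 1 = 0 := congrFun h5 2
  have e2 : a 2 = 0 := congrFun h5 3
  refine ⟨a 3, ?_⟩
  rw [ha, e0, e1, e2]
  simp [ev, smul_mulVec]

/-- lower triangular Toeplitz matrices -/
def evm (a b c d : F) : Matrix (Fin 4) (Fin 4) F := !![a, 0, 0, 0; b, a, 0, 0; c, b, a, 0; d, c, b, a]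

theorem ev_cyc (h4 : X * X * X * X = 0) (y : I4 → F) (a b c d : F) :
    ev X a b c d * cyc X y = cyc X y * evm a b c d := by
  refine mat_ext fun x => ?_
  rw [← mulVec_mulVec, ← mulVec_mulVec, cyc_mulVec, cyc_mulVec, mulVec_mulVec, ev_mul h4]
  congr 1
  apply ev_congr <;> simp [evm, mulVec, dotProduct, Fin.sum_univ_four] <;> ring

/-- a matrix normalising `X` and fixing the line of `y` is diagonal -/
theorem diag_cyc {Z : Matrix I4 I4 F} {s μ : F} (h : Z * X = s • X * Z) {y : I4 → F}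
    (hy : Z *ᵥ y = μ • y) :
    Z * cyc X y = cyc X y * diagonal ![μ, μ * s, μ * s ^ 2, μ * s ^ 3] := by
  refine mat_ext fun x => ?_
  rw [← mulVec_mulVec, ← mulVec_mulVec, cyc_mulVec, cyc_mulVec, mulVec_mulVec, ev_conj h,
    ← mulVec_mulVec, hy, mulVec_smul, ← smul_mulVec]
  congr 1
  simp only [ev, mulVec_diagonal, smul_mul_assoc, mul_smul_comm, Matrix.cons_val_zero,
    Matrix.cons_val_one, Matrix.cons_val]
  module

end H97s.NrD
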