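import Cfsg.Agent.Lib.Sp4R.NrD2

/-!
Four dimensional symplectic representations of `SL₂(k)` in the defining characteristic:
the regular case is the third symmetric power of the natural module.
-/

set_option autoImplicit false

namespace H97s.NrD

open Matrix MatrixGroups

variable {k : Type*} [Field k] {F : Type*} [Field F] {ρ : SL(2, k) →* Matrix I4 I4 F}

theorem Rp.exists_log (h : Rp ρ) {p : ℕ} [Fact p.Prime] [CharP F p] [CharP k p]
    (h2 : (2 : F) ≠ 0) (h3 : (3 : F) ≠ 0) (hk : (2 : k) ≠ 0) {t : k} (t0 : t ≠ 0) (t4 : t ^ 4 ≠ 1)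
    (reg : (ρ (up 1) - 1) * (ρ (up 1) - 1) * (ρ (up 1) - 1) ≠ 0) :
    ∃ (X : Matrix I4 I4 F) (ψ : k →+* F), X * X * X * X = 0 ∧ X * X * X ≠ 0 ∧ adj X = -X ∧
      (∀ c, ρ (up c) = ev X 1 (ψ c) (ψ c ^ 2 / 2) (ψ c ^ 3 / 6)) ∧
      ∀ s : kˣ, ρ (dg s) * X = ψ s ^ 2 • X * ρ (dg s) := by
  have h6 : (6 : F) ≠ 0 := by rw [show (6 : F) = 2 * 3 by norm_num]; exact mul_ne_zero h2 h3
  set N := ρ (up 1) - 1 with hN
  have N4 : N * N * N * N = 0 := by
    have := pow_four ⟨p, up_nil ρ 1⟩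
    rwa [pow_succ, pow_three'] at this
  obtain ⟨X, hX⟩ : ∃ X, X = lg (ρ (up 1)) := ⟨_, rfl⟩
  have hXN : X = ev N 0 1 (-2⁻¹) 3⁻¹ := hX
  have X3 : X * X * X = ev N 0 0 0 1 := by
    rw [hXN, ev_mul N4, ev_mul N4]; apply ev_congr <;> ring
  have X4 : X * X * X * X = 0 := by
    rw [X3, hXN, ev_mul N4]; simp [ev]
  have X3' : X * X * X ≠ 0 := by rw [X3]; simpa [ev] using reg
  have u1 : ρ (up 1) = ev X 1 1 (1 / 2) (1 / 6) := by
    rw [hXN, ev_comp N4, ← sub_add_cancel (ρ (up 1)) 1, ← hN]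
    have : N + 1 = ev N 1 1 0 0 := by simp [ev, add_comm]
    rw [this]
    apply ev_congr <;> field_simp <;> ring
  have inv : ∀ c : k, (up c)⁻¹ = up (-c) := fun c => by
    rw [inv_eq_iff_mul_eq_one, ← up_add, add_neg_cancel, up_zero]
  have um1 : ρ (up (-1)) = ev X 1 (-1) (1 / 2) (-1 / 6) := by
    have e : ρ (up 1) * ev X 1 (-1) (1 / 2) (-1 / 6) = 1 := by
      rw [u1, ev_mul X4, ← ev_one (X := X)]
      apply ev_congr <;> field_simp <;> ring
    rw [← mul_one (ρ (up (-1))), ← e, ← mul_assoc, ← map_mul, ← up_add, neg_add_cancel, up_zero,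
      map_one, one_mul]
  have aX : adj X = -X := by
    conv_lhs => rw [hX, adj_lg, h.adj_eq, inv, um1, lg_ev X4 h2]
    rw [show -X = ev X 0 (-1) 0 0 by simp [ev]]
    apply ev_congr <;> field_simp <;> ring
  have ex : ∀ c, ∃ b d : F, ρ (up c) = ev X 1 b (b ^ 2 / 2) (d + b ^ 3 / 6) := by
    intro c
    obtain ⟨a0, a1, a2, a3, ha⟩ := comm_ev X4 X3' (Z := ρ (up c)) (by
      rw [hX]; apply lg_conj
      rw [← map_mul, ← map_mul, ← up_add, ← up_add, add_comm])
    have e0 : a0 = 1 := by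
      have e := up_nil (p := p) ρ c
      obtain ⟨b', c', d', e'⟩ := ev_pow X4 (a0 - 1) a1 a2 a3 p
      rw [ha, ev_sub_one, e'] at e
      exact sub_eq_zero.mp (pow_eq_zero_iff (Fact.out : p.Prime).ne_zero |>.mp (ev_zero X4 X3' e).1)
    have e1 : adj (ρ (up c)) * ρ (up c) = 1 := by rw [h.adj_eq, ← map_mul, inv_mul_cancel, map_one]
    rw [ha, adj_ev aX, ev_mul X4, ← ev_one (X := X)] at e1
    have e2 := (ev_inj X4 X3' e1).2.2.1
    refine ⟨a1, a3 - a1 ^ 3 / 6, ?_⟩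
    rw [ha]
    subst e0
    apply ev_congr
    · rfl
    · rfl
    · field_simp; linear_combination e2
    · ring
  choose ψ δ hψ using ex
  have add : ∀ c d, ψ (c + d) = ψ c + ψ d ∧ δ (c + d) = δ c + δ d := by
    intro c d
    have e := hψ (c + d)
    rw [up_add, map_mul, hψ, hψ, ev_mul X4] at e
    obtain ⟨-, e1, -, e3⟩ := ev_inj X4 X3' e
    have e1' : ψ (c + d) = ψ c + ψ d := by linear_combination -e1
    refine ⟨e1', ?_⟩
    rw [e1'] at e3
    field_simp at e3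
    apply mul_left_cancel₀ (mul_ne_zero h2 h6)
    linear_combination -e3
  have one : ψ 1 = 1 ∧ δ 1 = 0 := by
    have e := hψ 1
    rw [u1] at e
    obtain ⟨-, e1, -, e3⟩ := ev_inj X4 X3' e
    rw [← e1] at e3
    exact ⟨e1.symm, by linear_combination -e3⟩
  have tor : ∀ s : kˣ, ρ (dg s) * X = ev X 0 (ψ (s ^ 2)) 0 (δ (s ^ 2)) * ρ (dg s) := by
    intro s
    have e : ρ (dg s) * ρ (up 1) = ρ (up (s ^ 2)) * ρ (dg s) := by
      rw [← map_mul, ← map_mul, dg_up, mul_one]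
    have e2 := lg_conj e
    rw [← hX, hψ, lg_ev X4 h2] at e2
    rw [e2]
    congr 1
    apply ev_congr <;> field_simp <;> ring
  have mul : ∀ s c : k, ψ (s ^ 2 * c) = ψ (s ^ 2) * ψ c ∧
      δ (s ^ 2 * c) = ψ c * δ (s ^ 2) + δ c * ψ (s ^ 2) ^ 3 := by
    intro s c
    by_cases hs : s = 0
    · have a0 := add 0 0
      simp only [add_zero, left_eq_add] at a0
      simp [hs, a0.1, a0.2]
    have e : ρ (dg (Units.mk0 s hs)) * ρ (up c) = ρ (up (s ^ 2 * c)) * ρ (dg (Units.mk0 s hs)) := by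
      rw [← map_mul, ← map_mul, dg_up]; rfl
    rw [hψ c, ev_conj (tor _), ev_comp X4, hψ] at e
    have hu : IsUnit (ρ (dg (Units.mk0 s hs))) := (Group.isUnit _).map ρ
    obtain ⟨-, e1, -, e3⟩ := ev_inj X4 X3' (hu.mul_right_cancel e)
    simp only [Units.val_mk0] at e1 e3
    refine ⟨by rw [← e1, mul_comm], ?_⟩
    rw [← e1] at e3
    linear_combination -e3
  have sub : ∀ c d, ψ (c - d) = ψ c - ψ d := fun c d => by
    have := (add (c - d) d).1
    rw [sub_add_cancel] at this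
    rw [this]; ring
  let Ψ : k →+* F :=
    { toFun := ψ
      map_one' := one.1
      map_mul' := fun x c => by
        have e : x = ((x + 1) / 2) ^ 2 - ((x - 1) / 2) ^ 2 := by field_simp; ring
        rw [e, sub_mul, sub, sub, (mul _ _).1, (mul _ _).1, sub_mul]
      map_zero' := by have := sub 0 0; rwa [sub_self, sub_self] at this
      map_add' := fun c d => (add c d).1 }
  have hΨ : ∀ c, ψ c = Ψ c := fun _ => rfl
  have δ0 : ∀ c, δ c = 0 := by
    intro c
    have e : (1 + t ^ 2) ^ 2 = (1 - t ^ 2) ^ 2 + (2 * t) ^ 2 := by ring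
    have e1 := (mul (1 + t ^ 2) c).2
    rw [e, add_mul, (add _ _).2, (add _ _).2, (add _ _).1, (mul _ _).2, (mul _ _).2] at e1
    have a1 : ψ ((1 - t ^ 2) ^ 2) ≠ 0 := by
      rw [hΨ, _root_.map_ne_zero]
      exact pow_ne_zero _ fun h0 => t4 (by linear_combination (-1 - t ^ 2) * h0)
    have a2 : ψ ((2 * t) ^ 2) ≠ 0 := by
      rw [hΨ, _root_.map_ne_zero]
      exact pow_ne_zero _ (mul_ne_zero hk t0)
    have a3 : ψ ((1 - t ^ 2) ^ 2) + ψ ((2 * t) ^ 2) ≠ 0 := by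
      rw [← (add _ _).1, ← e, hΨ, _root_.map_ne_zero]
      exact pow_ne_zero _ fun h0 => t4 (by linear_combination (t ^ 2 - 1) * h0)
    apply mul_left_cancel₀ (mul_ne_zero h3 (mul_ne_zero (mul_ne_zero a1 a2) a3))
    linear_combination -e1
  refine ⟨X, Ψ, X4, X3', aX, fun c => by rw [hψ, δ0, zero_add]; rfl, fun s => ?_⟩
  rw [tor, δ0, hΨ, map_pow]
  simp [ev]

/-- the unipotent elements in the model -/
def Um (a : F) : Matrix (Fin 4) (Fin 4) F := evm 1 a (a ^ 2 / 2) (a ^ 3 / 6)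

/-- the Weyl element in the model -/
def Wm (F : Type*) [Field F] : Matrix (Fin 4) (Fin 4) F :=
  !![0, 0, 0, -6; 0, 0, 2, 0; 0, -2⁻¹, 0, 0; 6⁻¹, 0, 0, 0]

/-- the form in the model -/
def J0 (F : Type*) [Field F] : Matrix (Fin 4) (Fin 4) F :=
  !![0, 0, 0, 1; 0, 0, -1, 0; 0, 1, 0, 0; -1, 0, 0, 0]

/-- coordinates in which `ρ` is the standard model -/
structure Fr (ρ : SL(2, k) →* Matrix I4 I4 F) where
  ψ : k →+* F
  C : Matrix I4 (Fin 4) F
  C' : Matrix (Fin 4) I4 F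
  m : F
  cc : C * C' = 1
  cc' : C' * C = 1
  hup : ∀ c, C' * ρ (up c) * C = Um (ψ c)
  hww : C' * ρ ww * C = Wm F
  m0 : m ≠ 0
  gram : Cᵀ * JJ F * C = m • J0 F
  norm : ∀ (Z : Matrix I4 I4 F) (c b : k), b ≠ 0 → Z * ρ (up 1) = ρ (up c) * Z →
    Z * ρ (lo 1) = ρ (lo b) * Z →
    ∃ μ : F, C' * Z * C = diagonal ![μ, μ * ψ c, μ * ψ c ^ 2, μ * ψ c ^ 3]

theorem weyl_model (h2 : (2 : F) ≠ 0) (h3 : (3 : F) ≠ 0) {W : Matrix (Fin 4) (Fin 4) F} {μ s a a' : F}
    (s1 : s ≠ 1) (s2 : s ^ 2 ≠ 1) (a0 : a ≠ 0)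
    (c0 : ∀ i, W i 0 = ![0, 0, 0, a] i) (c3 : ∀ i, W i 3 = ![a', 0, 0, 0] i)
    (hD : diagonal ![μ, μ * s, μ * s ^ 2, μ * s ^ 3] * W * diagonal ![μ, μ * s, μ * s ^ 2, μ * s ^ 3] = W)
    (hW : W * W = -1) (hr : W * Um 1 * W = -1 * (Um (-1) * W * Um (-1))) :
    W = Wm F ∧ μ ^ 2 * s ^ 3 = 1 := by
  have h6 : (6 : F) ≠ 0 := by rw [show (6 : F) = 2 * 3 by norm_num]; exact mul_ne_zero h2 h3
  have ent : ∀ i j, ![μ, μ * s, μ * s ^ 2, μ * s ^ 3] i * W i j * ![μ, μ * s, μ * s ^ 2, μ * s ^ 3] j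
      = W i j := fun i j => by
    have := congrFun (congrFun hD i) j
    rwa [mul_diagonal, diagonal_mul] at this
  have c00 := c0 0; have c01 := c0 1; have c02 := c0 2; have c03 := c0 3
  have c30 := c3 0; have c31 := c3 1; have c32 := c3 2; have c33 := c3 3
  simp only [Matrix.cons_val_zero, Matrix.cons_val_one, Matrix.cons_val] at c00 c01 c02 c03 c30 c31 c32 c33
  have hμ : μ ^ 2 * s ^ 3 = 1 := by
    have := ent 3 0
    simp only [Matrix.cons_val_zero, Matrix.cons_val, c03] at this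
    apply mul_right_cancel₀ a0
    linear_combination this
  have s1' := sub_ne_zero.mpr s1
  have s2' := sub_ne_zero.mpr s2
  have z01 : W 0 1 = 0 := by
    have := ent 0 1
    simp only [Matrix.cons_val_zero, Matrix.cons_val_one] at this
    apply mul_left_cancel₀ s2'
    linear_combination -s ^ 2 * this + W 0 1 * hμ
  have z11 : W 1 1 = 0 := by
    have := ent 1 1
    simp only [Matrix.cons_val_zero, Matrix.cons_val_one] at this
    apply mul_left_cancel₀ s1'
    linear_combination -s * this + W 1 1 * hμ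
  have z31 : W 3 1 = 0 := by
    have := ent 3 1
    simp only [Matrix.cons_val_zero, Matrix.cons_val_one, Matrix.cons_val] at this
    apply mul_left_cancel₀ s1'
    linear_combination this - s * W 3 1 * hμ
  have z02 : W 0 2 = 0 := by
    have := ent 0 2
    simp only [Matrix.cons_val_zero, Matrix.cons_val] at this
    apply mul_left_cancel₀ s1'
    linear_combination -s * this + W 0 2 * hμ
  have z22 : W 2 2 = 0 := by
    have := ent 2 2
    simp only [Matrix.cons_val] at this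
    apply mul_left_cancel₀ s1'
    linear_combination this - s * W 2 2 * hμ
  have z32 : W 3 2 = 0 := by
    have := ent 3 2
    simp only [Matrix.cons_val] at this
    apply mul_left_cancel₀ s2'
    linear_combination this - s ^ 2 * W 3 2 * hμ
  obtain ⟨b, hb⟩ : ∃ b, W 2 1 = b := ⟨_, rfl⟩
  obtain ⟨b', hb'⟩ : ∃ b, W 1 2 = b := ⟨_, rfl⟩
  have eW : W = !![0, 0, 0, a'; 0, 0, b', 0; 0, b, 0, 0; a, 0, 0, 0] := by
    ext i j; fin_cases i <;> fin_cases j <;> simp [*]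
  subst eW
  have w1 := congrFun (congrFun hW 0) 0
  have w2 := congrFun (congrFun hW 1) 1
  have r1 := congrFun (congrFun hr 3) 3
  have r2 := congrFun (congrFun hr 2) 3
  simp [Um, evm, Matrix.mul_apply, Fin.sum_univ_four] at w1 w2 r1 r2
  have a'0 : a' ≠ 0 := left_ne_zero_of_mul (by rw [w1]; simp)
  have ea' : a' = -6 := by
    rw [mul_comm, w1] at r1
    field_simp at r1
    linear_combination -r1
  have ea : a = 6⁻¹ := by
    rw [ea'] at w1
    field_simp
    linear_combination -w1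
  have eb : b = -2⁻¹ := by
    rw [ea'] at r2
    field_simp at r2 ⊢
    linear_combination -r2
  have eb' : b' = 2 := by
    rw [eb] at w2
    field_simp at w2
    linear_combination -w2
  exact ⟨by rw [ea, ea', eb, eb']; rfl, hμ⟩

theorem gram_model (h2 : (2 : F) ≠ 0) {G : Matrix (Fin 4) (Fin 4) F} {μ s : F}
    (s1 : s ≠ 1) (s2 : s ^ 2 ≠ 1) (hμ : μ ^ 2 * s ^ 3 = 1) (ha : Gᵀ = -G)
    (hD : diagonal ![μ, μ * s, μ * s ^ 2, μ * s ^ 3] * G * diagonal ![μ, μ * s, μ * s ^ 2, μ * s ^ 3] = G)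
    (hX : (evm 0 1 0 0)ᵀ * G = -(G * evm 0 1 0 0)) : G = G 0 3 • J0 F := by
  have ent : ∀ i j, ![μ, μ * s, μ * s ^ 2, μ * s ^ 3] i * G i j * ![μ, μ * s, μ * s ^ 2, μ * s ^ 3] j
      = G i j := fun i j => by
    have := congrFun (congrFun hD i) j
    rwa [mul_diagonal, diagonal_mul] at this
  have alt : ∀ i j, G j i = -G i j := fun i j => congrFun (congrFun ha i) j
  have dia : ∀ i, G i i = 0 := fun i => by
    apply mul_left_cancel₀ h2
    linear_combination alt i i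
  have s1' := sub_ne_zero.mpr s1
  have s2' := sub_ne_zero.mpr s2
  have z01 : G 0 1 = 0 := by
    have := ent 0 1
    simp only [Matrix.cons_val_zero, Matrix.cons_val_one] at this
    apply mul_left_cancel₀ s2'
    linear_combination -s ^ 2 * this + G 0 1 * hμ
  have z02 : G 0 2 = 0 := by
    have := ent 0 2
    simp only [Matrix.cons_val_zero, Matrix.cons_val] at this
    apply mul_left_cancel₀ s1'
    linear_combination -s * this + G 0 2 * hμ
  have z31 : G 3 1 = 0 := by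
    have := ent 3 1
    simp only [Matrix.cons_val_zero, Matrix.cons_val_one, Matrix.cons_val] at this
    apply mul_left_cancel₀ s1'
    linear_combination this - s * G 3 1 * hμ
  have z32 : G 3 2 = 0 := by
    have := ent 3 2
    simp only [Matrix.cons_val] at this
    apply mul_left_cancel₀ s2'
    linear_combination this - s ^ 2 * G 3 2 * hμ
  have x12 := congrFun (congrFun hX 0) 2
  simp [evm, Matrix.mul_apply, Fin.sum_univ_four] at x12
  have z10 := alt 0 1; have z20 := alt 0 2; have z13 := alt 3 1; have z23 := alt 3 2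
  have z30 := alt 0 3; have z21 := alt 1 2
  rw [z01, neg_zero] at z10; rw [z02, neg_zero] at z20; rw [z31, neg_zero] at z13
  rw [z32, neg_zero] at z23; rw [x12, neg_neg] at z21
  ext i j; fin_cases i <;> fin_cases j <;>
    simp [J0, dia, z01, z02, z31, z32, x12, z10, z20, z13, z23, z30, z21]

theorem Rp.exists_fr (h : Rp ρ) {p : ℕ} [Fact p.Prime] [CharP F p] [CharP k p]
    (h2 : (2 : F) ≠ 0) (h3 : (3 : F) ≠ 0) (hk : (2 : k) ≠ 0) {t : k} (t0 : t ≠ 0) (t4 : t ^ 4 ≠ 1)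
    (reg : (ρ (up 1) - 1) * (ρ (up 1) - 1) * (ρ (up 1) - 1) ≠ 0) : Nonempty (Fr ρ) := by
  obtain ⟨X, ψ, X4, X3, aX, hu, hd⟩ := h.exists_log h2 h3 hk t0 t4 reg
  obtain ⟨y, hy⟩ := exists_cyc X3
  set v := (X * X * X) *ᵥ y with hv
  have Xv : X *ᵥ v = 0 := by rw [hv, mulVec_mulVec, ← mul_assoc, ← mul_assoc, X4, zero_mulVec]
  have uv : ∀ c, ρ (up c) *ᵥ v = v := fun c => by
    rw [hu]; simp [ev, add_mulVec, smul_mulVec, ← mulVec_mulVec, Xv]
  have dv : ∀ s : kˣ, ∃ c : F, ρ (dg s) *ᵥ v = c • v := by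
    intro s
    apply ker_X X4 hy
    have e := congrArg (· *ᵥ v) (hd s)
    simp only [← mulVec_mulVec, Xv, mulVec_zero, smul_mulVec] at e
    exact (smul_eq_zero.mp e.symm).resolve_left (pow_ne_zero _ ((_root_.map_ne_zero ψ).mpr s.ne_zero))
  set e := ρ ww *ᵥ v with he
  have fve : fm v e ≠ 0 := by
    intro h0
    have key : ∀ g, fm v (ρ g *ᵥ v) = 0 := by
      intro g
      rcases bruhat g with ⟨a, s, rfl⟩ | ⟨a, s, b, rfl⟩
      · obtain ⟨c, hc⟩ := dv s
        rw [map_mul, ← mulVec_mulVec, hc, mulVec_smul, uv, fm_smul_right, fm_self, mul_zero]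
      · obtain ⟨c, hc⟩ := dv s
        rw [map_mul, map_mul, map_mul, ← mulVec_mulVec, ← mulVec_mulVec, ← mulVec_mulVec, uv, hc,
          mulVec_smul, mulVec_smul, fm_smul_right, ← he, ← inv_inv (up a), ← h.adj_eq, ← fm_adj]
        have : (up a)⁻¹ = up (-a) := by
          rw [inv_eq_iff_mul_eq_one, ← up_add, add_neg_cancel, up_zero]
        rw [this, uv, h0, mul_zero]
    let W : Submodule F (I4 → F) :=
      { carrier := {z | ∀ g, fm v (ρ g *ᵥ z) = 0}
        add_mem' := fun {a b} ha hb g => by rw [mulVec_add, fm_add_right, ha g, hb g, add_zero]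
        zero_mem' := fun g => by rw [mulVec_zero, fm_zero_right]
        smul_mem' := fun c a ha g => by rw [mulVec_smul, fm_smul_right, ha g, mul_zero] }
    rcases h.irr W (fun g z hz g' => by rw [mulVec_mulVec, ← map_mul]; exact hz _) with h1 | h1
    · have : v ∈ W := key
      rw [h1] at this
      exact hy this
    · apply hy
      apply fm_nondeg
      intro z
      have : z ∈ W := by rw [h1]; trivial
      simpa using this 1
  have a3 : adj (X * X * X) = -(X * X * X) := by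
    rw [adj_mul, adj_mul, aX]; simp [mul_assoc]
  have he3 : (X * X * X) *ᵥ e ≠ 0 := by
    intro h0
    apply fve
    rw [hv, fm_adj, a3, neg_mulVec, h0, neg_zero, fm_zero_right]
  obtain ⟨C', cc, cc'⟩ := exists_inv X4 he3
  set C := cyc X e with hC
  have psi : ∀ (A : Matrix I4 I4 F) (B : Matrix (Fin 4) (Fin 4) F), A * C = C * B → C' * A * C = B :=
    fun A B hAB => by rw [Matrix.mul_assoc, hAB, ← Matrix.mul_assoc, cc', Matrix.one_mul]
  have pm : ∀ A B : Matrix I4 I4 F, C' * (A * B) * C = (C' * A * C) * (C' * B * C) := fun A B => by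
    simp only [Matrix.mul_assoc]
    rw [← Matrix.mul_assoc C C', cc, Matrix.one_mul]
  have hup : ∀ c, C' * ρ (up c) * C = Um (ψ c) := fun c => psi _ _ (by rw [hu, ev_cyc X4]; rfl)
  obtain ⟨c, hc⟩ := ker_X X4 he3 Xv
  have c0 : c ≠ 0 := fun h0 => hy (by rw [hc, h0, zero_smul])
  have we : ρ ww *ᵥ e = -v := by
    rw [he, mulVec_mulVec, ← map_mul, ww_ww, h.neg, neg_mulVec, one_mulVec]
  have col : ∀ (A : Matrix I4 I4 F) (j : Fin 4) (x : Fin 4 → F),
      A *ᵥ (C *ᵥ Pi.single j 1) = C *ᵥ x → ∀ i, (C' * A * C) i j = x i := by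
    intro A j x hx i
    have := congrArg (C' *ᵥ ·) hx
    simp only [mulVec_mulVec, cc', one_mulVec, ← Matrix.mul_assoc] at this
    rw [← this]; simp
  have C0 : C *ᵥ Pi.single 0 1 = e := by rw [hC, cyc_mulVec]; simp [ev]
  have C3 : C *ᵥ Pi.single 3 1 = (X * X * X) *ᵥ e := by rw [hC, cyc_mulVec]; simp [ev]
  set T := Units.mk0 t t0
  obtain ⟨μ, hμ⟩ : ∃ μ : F, ρ (dg T) *ᵥ e = μ • e := by
    obtain ⟨l, hl⟩ := dv T
    have e1 : ρ (dg T) *ᵥ (ρ ww *ᵥ (ρ (dg T) *ᵥ v)) = e := by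
      rw [mulVec_mulVec, mulVec_mulVec, ← map_mul, ← map_mul, dg_ww_dg]
    rw [hl, mulVec_smul, mulVec_smul, ← he] at e1
    have l0 : l ≠ 0 := fun h0 => he3 (by rw [← e1, h0, zero_smul, mulVec_zero])
    exact ⟨l⁻¹, by rw [eq_inv_smul_iff₀ l0, e1]⟩
  have hD := psi _ _ (diag_cyc (hd T) hμ)
  have s2 : (ψ T ^ 2) ^ 2 ≠ 1 := by
    rw [← pow_mul, ← map_pow, Ne, map_eq_one_iff ψ ψ.injective]; exact t4
  have s1 : ψ T ^ 2 ≠ 1 := fun h0 => s2 (by rw [h0, one_pow])
  have neg1 : C' * (-1 : Matrix I4 I4 F) * C = -1 := by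
    rw [Matrix.mul_neg, Matrix.neg_mul, Matrix.mul_one, cc']
  obtain ⟨hW, hμs⟩ := weyl_model h2 h3 (W := C' * ρ ww * C) (μ := μ) (a := -c) (a' := c⁻¹) s1 s2
    (neg_ne_zero.mpr c0)
    (col _ _ _ (by rw [C0, we, hC, cyc_mulVec, hc]; simp [ev, smul_mulVec, neg_mulVec]))
    (col _ _ _ (by
      rw [C3, hC, cyc_mulVec, (eq_inv_smul_iff₀ c0).mpr hc.symm, mulVec_smul, ← he]
      simp [ev, smul_mulVec]))
    (by rw [← hD, ← pm, ← pm, ← map_mul, ← map_mul, dg_ww_dg])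
    (by rw [← pm, ← map_mul, ww_ww, h.neg, neg1])
    (by
      have a1 := hup 1
      have a2 := hup (-1)
      rw [map_one] at a1
      rw [map_neg, map_one] at a2
      rw [← a1, ← a2, ← neg1, ← h.neg]
      simp only [← pm, ← map_mul]
      rw [ww_rel])
  have hG := gram_model h2 (G := Cᵀ * JJ F * C) s1 s2 hμs
    (by rw [transpose_mul, transpose_mul, transpose_transpose, Matrix.J_transpose]
        simp [Matrix.mul_assoc])
    (by
      have a1 := diag_cyc (hd T) hμ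
      rw [← hC] at a1
      nth_rewrite 1 [← diagonal_transpose]
      rw [Matrix.mul_assoc, Matrix.mul_assoc, ← a1, ← Matrix.mul_assoc, ← Matrix.mul_assoc,
        ← Matrix.mul_assoc, ← transpose_mul, ← a1, transpose_mul, Matrix.mul_assoc Cᵀ,
        Matrix.mul_assoc Cᵀ, h.sp])
    (by
      have a1 := ev_cyc X4 e 0 1 0 0
      rw [← hC, ev_X] at a1
      rw [← Matrix.mul_assoc, ← Matrix.mul_assoc, ← transpose_mul, Matrix.mul_assoc _ C, ← a1,
        transpose_mul, Matrix.mul_assoc Cᵀ, ← JJ_adj, aX]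
      simp [Matrix.mul_assoc])
  have lgu : ∀ c, lg (ρ (up c)) = ψ c • X := fun c => by
    rw [hu, lg_ev X4 h2, show ψ c • X = ev X 0 (ψ c) 0 0 by simp [ev]]
    have h6 : (6 : F) ≠ 0 := by rw [show (6 : F) = 2 * 3 by norm_num]; exact mul_ne_zero h2 h3
    apply ev_congr <;> field_simp <;> ring
  refine ⟨⟨ψ, C, C', _, cc, cc', hup, hW, fun h0 => ?_, hG, fun Z d b b0 z1 z2 => ?_⟩⟩
  · rw [h0, zero_smul] at hG
    have : C'ᵀ * (Cᵀ * JJ F * C) * C' = JJ F := by
      rw [← Matrix.mul_assoc, ← Matrix.mul_assoc, ← transpose_mul, cc, Matrix.mul_assoc _ C, cc]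
      simp
    rw [hG] at this
    have h5 := JJ_JJ (F := F)
    rw [← this] at h5
    simp at h5
  · have a1 := lg_conj z1
    rw [lgu, lgu, map_one, one_smul] at a1
    have lw : ∀ b : k, ρ (lo b) * ρ ww = ρ ww * ρ (up (-b)) := fun b => by
      rw [← map_mul, ← map_mul, ww_up, neg_neg]
    have a2 : ρ (lo 1) *ᵥ e = e := by rw [he, mulVec_mulVec, lw, ← mulVec_mulVec, uv]
    have w4 : ρ ww * ρ (ww * ww * ww) = 1 := by
      rw [← map_mul, ← map_one ρ]; congr 1; nrd_sl2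
    have w4' : ρ (ww * ww * ww) * ρ ww = 1 := by
      rw [← map_mul, ← map_one ρ]; congr 1; nrd_sl2
    obtain ⟨z, hz⟩ : ∃ z, Z *ᵥ e = ρ ww *ᵥ z :=
      ⟨ρ (ww * ww * ww) *ᵥ (Z *ᵥ e), by rw [mulVec_mulVec _ (ρ ww), w4, one_mulVec]⟩
    have a3 : ρ (up (-b)) *ᵥ z = z := by
      have a4 := congrArg (· *ᵥ e) z2
      simp only [← mulVec_mulVec, a2, hz] at a4
      rw [mulVec_mulVec, lw, ← mulVec_mulVec] at a4
      have a5 := congrArg (ρ (ww * ww * ww) *ᵥ ·) a4
      simp only [mulVec_mulVec, ← mul_assoc, w4', one_mul, one_mulVec] at a5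
      exact a5.symm
    have a6 : X *ᵥ z = 0 := by
      have a7 : (ρ (up (-b)) - 1) *ᵥ z = 0 := by rw [sub_mulVec, a3, one_mulVec, sub_self]
      have a8 : lg (ρ (up (-b))) *ᵥ z = 0 := by
        simp [lg, ev, add_mulVec, smul_mulVec, neg_mulVec, ← mulVec_mulVec, a7]
      rw [lgu, smul_mulVec, smul_eq_zero] at a8
      exact a8.resolve_left ((_root_.map_ne_zero ψ).mpr (neg_ne_zero.mpr b0))
    obtain ⟨l, hl⟩ := ker_X X4 he3 a6
    refine ⟨l * c⁻¹, psi _ _ (diag_cyc a1 ?_)⟩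
    rw [hz, hl, (eq_inv_smul_iff₀ c0).mpr hc.symm, mulVec_smul, mulVec_smul, ← he, smul_smul]

end H97s.NrD
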