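import Mathlib
import Cfsg.Agent.Lib.Sp4R.W5

/-!
# Root systems of type `A` in the five dimensional module of `Sp₄`
-/

set_option autoImplicit false

namespace H97s.Mt

open Cfsg Cfsg.Geo Matrix Module

variable {F : Type*} [Field F]

local notation "M4" => Matrix (Fin 2 ⊕ Fin 2) (Fin 2 ⊕ Fin 2) F
local notation "G4" => GL (Fin 2 ⊕ Fin 2) F

theorem io_inj : Function.Injective (io : (Fin 5 → F) → M4) := (injective_iff_map_eq_zero io).2 fun v h => by
  have e := fun i j => congrFun (congrFun h i) j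
  have e0 := e (.inl 0) (.inl 0)
  have e1 := e (.inl 0) (.inl 1)
  have e2 := e (.inl 1) (.inl 0)
  have e3 := e (.inl 0) (.inr 1)
  have e4 := e (.inr 0) (.inl 1)
  ext i
  fin_cases i <;> simp_all [io_apply]

theorem bf_symm (v w : Fin 5 → F) : bf v w = bf w v := by rw [bf_apply, bf_apply]; ring

theorem smul_one_inj {a b : F} (h : a • (1 : M4) = b • 1) : a = b := smul_left_injective F one_ne_zero h

theorem io_sq (h2 : (2 : F) ≠ 0) {v : Fin 5 → F} {c : F} (h : bf v v = 2 * c) : io v * io v = c • 1 := by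
  have := io_cl v v
  rw [h, ← two_smul F, mul_smul] at this
  exact smul_right_injective _ h2 this

theorem io_swap (v w : Fin 5 → F) : io v * io w = bf w v • 1 - io w * io v := by rw [← io_cl]; abel

theorem io_tr (v w : Fin 5 → F) : (io v * io w).trace = 2 * bf v w := by
  simp [io_apply, bf_apply, trace, Matrix.mul_apply, Fintype.sum_sum_type]; ring

theorem io_scalar (h2 : (2 : F) ≠ 0) {v : Fin 5 → F} {c : F} (h : io v = c • 1) : v = 0 := by
  have := io_trace v
  rw [h, trace_smul, trace_one] at this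
  have : c * (2 * 2) = 0 := by rw [← this]; simp; norm_num
  exact io_inj (by simp [h, (mul_eq_zero.1 this).resolve_right (mul_ne_zero h2 h2)])

theorem scalar_of_comm (h2 : (2 : F) ≠ 0) {m : M4} (h : ∀ v, m * io v = io v * m) : ∃ c : F, m = c • 1 := by
  have e := fun k i j => congrFun (congrFun (h (Pi.single k 1)) i) j
  have a1 := e 0 (.inl 0) (.inl 1)
  have a2 := e 0 (.inl 1) (.inl 0)
  have a3 := e 0 (.inl 0) (.inr 1)
  have a4 := e 0 (.inl 1) (.inr 0)
  have a5 := e 0 (.inr 0) (.inl 1)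
  have a6 := e 0 (.inr 1) (.inl 0)
  have a7 := e 0 (.inr 0) (.inr 1)
  have a8 := e 0 (.inr 1) (.inr 0)
  have b1 := e 1 (.inl 0) (.inl 1)
  have b2 := e 1 (.inr 1) (.inr 0)
  have b3 := e 2 (.inl 1) (.inr 0)
  have b4 := e 2 (.inr 1) (.inl 0)
  have b7 := e 1 (.inl 0) (.inr 1)
  have b8 := e 1 (.inr 0) (.inl 1)
  have c1 := e 3 (.inl 0) (.inr 1)
  simp [io_apply, Matrix.mul_apply, Fintype.sum_sum_type, eq_neg_iff_add_eq_zero, neg_eq_iff_add_eq_zero,
    ← two_mul, h2] at a1 a2 a3 a4 a5 a6 a7 a8 b1 b2 b3 b4 b7 b8 c1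
  refine ⟨m (.inl 0) (.inl 0), ?_⟩
  ext (i | i) (j | j) <;> fin_cases i <;> fin_cases j <;>
    simp [a1, a2, a3, a4, a5, a6, a7, a8, ← b1, ← b2, ← b3, b4, ← b7, b8, ← c1]

/-- linear maps on the five dimensional module given by left and right multiplication -/
noncomputable def lr (x y : M4) (h : ∀ v, ∃ w, x * io v * y = io w) : (Fin 5 → F) →ₗ[F] Fin 5 → F where
  toFun v := (h v).choose
  map_add' v w := io_inj (by
    rw [← (h (v + w)).choose_spec, map_add io (h v).choose, ← (h v).choose_spec, ← (h w).choose_spec, map_add, mul_add,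
      add_mul])
  map_smul' c v := io_inj (by
    rw [← (h (c • v)).choose_spec, map_smul io _ (h v).choose, ← (h v).choose_spec, map_smul, mul_smul_comm, smul_mul_assoc]
    rfl)

theorem io_lr {x y : M4} (h : ∀ v, ∃ w, x * io v * y = io w) (v : Fin 5 → F) : io (lr x y h v) = x * io v * y :=
  (h v).choose_spec.symm

theorem sp_T {g : G4} (h : g ∈ spGL 2 F) : g.valᵀ * J (Fin 2) F = J (Fin 2) F * (g⁻¹).val := by
  nth_rewrite 2 [← sp_iff h]
  rw [Units.mul_inv_cancel_right]

theorem mem_sp {g : G4} (h : g.valᵀ * J (Fin 2) F * g.val = J (Fin 2) F) : g ∈ spGL 2 F :=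
  H11.Sp.mem_iff_form.1 (SymplecticGroup.mem_iff'.2 h)

theorem exists_ad (h2 : (2 : F) ≠ 0) {g : G4} (h : g ∈ spGL 2 F) (v : Fin 5 → F) :
    ∃ w, g.val * io v * (g⁻¹).val = io w :=
  exists_io' h2 (by simp only [transpose_mul, mul_assoc, sp_T h, ass (io_adj v), ass (sp_T ((spGL 2 F).inv_mem h)), inv_inv])
    (by rw [trace_units_conj, io_trace])

/-- the action of the symplectic group on the five dimensional module -/
noncomputable def ad (h2 : (2 : F) ≠ 0) : spGL 2 F →* Module.End F (Fin 5 → F) where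
  toFun g := lr _ _ (exists_ad h2 g.2)
  map_one' := LinearMap.ext fun v => io_inj (by rw [io_lr]; simp)
  map_mul' g h := LinearMap.ext fun v => io_inj (by
    rw [Module.End.mul_apply, io_lr, io_lr, io_lr]; simp [mul_assoc])

theorem io_ad (h2 : (2 : F) ≠ 0) (g : spGL 2 F) (v : Fin 5 → F) : io (ad h2 g v) = g.1.val * io v * (g.1⁻¹).val :=
  io_lr (exists_ad h2 g.2) v

theorem bf_ad (h2 : (2 : F) ≠ 0) (g : spGL 2 F) (v w : Fin 5 → F) : bf (ad h2 g v) (ad h2 g w) = bf v w :=
  smul_one_inj (by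
    rw [← io_cl, io_ad, io_ad]
    have := congrArg (g.1.val * · * (g.1⁻¹).val) (io_cl v w)
    simpa only [mul_add, add_mul, mul_assoc, Units.inv_mul_cancel_left, mul_smul_comm, smul_mul_assoc, one_mul,
      Units.mul_inv] using this)

theorem ad_fix_iff (h2 : (2 : F) ≠ 0) {g : spGL 2 F} {v : Fin 5 → F} : ad h2 g v = v ↔ g.1.val * io v = io v * g.1.val := by
  rw [← io_inj.eq_iff, io_ad, Units.mul_inv_eq_iff_eq_mul]

/-- the centraliser of a skew element with scalar square -/
theorem three_le (h2 : (2 : F) ≠ 0) {y : M4} {c : F} (hc : c ≠ 0) (hy : yᵀ * J (Fin 2) F = -(J (Fin 2) F * y))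
    (h : y * y = c • 1) : ∃ S T : Submodule F (Fin 5 → F), 3 ≤ finrank F S ∧ finrank F T ≤ 2 ∧
      (∀ v, v ∈ S ↔ y * io v = io v * y) ∧ ∀ v, v ∈ T ↔ y * io v = -(io v * y) := by
  have k : ∀ v, ∃ w, (c⁻¹ • y) * io v * y = io w := fun v => exists_io' h2
    (by nc [transpose_mul, transpose_smul, hy, ass hy, ass (io_adj v), smul_neg, neg_neg])
    (by rw [trace_mul_comm, ← mul_assoc, mul_smul_comm, h, smul_smul, inv_mul_cancel₀ hc, one_smul, one_mul, io_trace])
  obtain ⟨θ, hθ⟩ : ∃ θ : (Fin 5 → F) →ₗ[F] Fin 5 → F, ∀ v, io (θ v) = c⁻¹ • (y * (io v * y)) :=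
    ⟨lr _ _ k, fun v => by rw [io_lr]; nc []⟩
  have can : ∀ a b : M4, a * y = b * y → a = b := fun a b e => smul_right_injective _ hc (by
    simpa only [mul_assoc, h, mul_smul_comm, mul_one] using congrArg (· * y) e)
  have mT : ∀ v, v ∈ LinearMap.ker (1 + θ) ↔ y * io v = -(io v * y) := fun v => by
    rw [LinearMap.mem_ker, ← io_inj.eq_iff, LinearMap.add_apply, map_add, hθ, map_zero]
    refine ⟨fun e => ?_, fun e => by nc [Module.End.one_apply, ass e, h, smul_neg, smul_smul, inv_mul_cancel₀ hc, one_smul, add_neg_cancel]⟩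
    have := congrArg (· * y) e
    simp only [Module.End.one_apply, add_mul, smul_mul_assoc, mul_assoc, h, mul_smul_comm, smul_smul, inv_mul_cancel₀ hc,
      one_smul, mul_one, zero_mul] at this
    exact eq_neg_of_add_eq_zero_right this
  have dT : finrank F (LinearMap.ker (1 + θ)) ≤ 2 := by
    by_contra! d3
    generalize LinearMap.ker (1 + θ) = T at *
    have iso : ∀ w ∈ T, bf w w = 0 := fun w hw => by
      have e1 := (mT w).1 hw
      obtain ⟨w', hw'⟩ := exists_io' h2 (x := y * io w) (by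
        rw [transpose_mul, mul_assoc, hy, mul_neg, ← mul_assoc, io_adj, e1, mul_neg, mul_assoc])
        (by have := congrArg trace e1
            rw [trace_neg, trace_mul_comm (io w), eq_neg_iff_add_eq_zero, ← two_mul] at this
            exact (mul_eq_zero.1 this).resolve_left h2)
      let L : T →ₗ[F] F × F := ((bf w).prod (bf w')).comp T.subtype
      have d := L.finrank_range_add_finrank_ker
      have d' := (LinearMap.range L).finrank_le
      simp only [finrank_prod, finrank_self] at d'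
      obtain ⟨u, hu, u0⟩ := Submodule.exists_mem_ne_zero_of_ne_bot (p := LinearMap.ker L) fun e => by
        rw [e, finrank_bot] at d; omega
      obtain ⟨l1, l2⟩ := Prod.ext_iff.1 (LinearMap.mem_ker.1 hu)
      change bf w u.1 = 0 at l1
      change bf w' u.1 = 0 at l2
      have e2 := (mT u).1 u.2
      have e3 := io_swap u.1 w
      have e4 := io_swap u.1 w'
      rw [l1, zero_smul, zero_sub] at e3
      rw [l2, zero_smul, zero_sub, ← hw'] at e4
      have e5 : io u.1 * y = -(y * io u.1) := by rw [e2, neg_neg]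
      simp only [mul_assoc, ass e5, neg_mul, e3, mul_neg, neg_neg, eq_neg_iff_add_eq_zero, ← two_smul F,
        smul_eq_zero_iff_right h2] at e4
      have e6 := congrArg (io w * y * ·) e4
      simp only [mul_assoc, ass h, smul_mul_assoc, mul_smul_comm, one_mul,
        ass (io_sq h2 (v := w) (c := bf w w / 2) (by field_simp))] at e6
      simpa [hc, h2, u0, map_eq_zero_iff io io_inj] using e6
    have le : T ≤ LinearMap.BilinForm.orthogonal bf T := fun w hw v hv => by
      have := iso _ (T.add_mem hv hw)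
      simp only [map_add, LinearMap.add_apply, iso v hv, iso w hw, bf_symm w v] at this
      exact (mul_eq_zero.1 (show 2 * bf v w = 0 by linear_combination this)).resolve_left h2
    have d1 := LinearMap.BilinForm.finrank_orthogonal (B := (bf : LinearMap.BilinForm F _)) ⟨bf_nd h2, fun v h => bf_nd h2 v fun w => by
      rw [bf_symm, h]⟩ T
    have d2 := Submodule.finrank_mono le
    simp only [finrank_fintype_fun_eq_card, Fintype.card_fin] at d1
    omega
  refine ⟨LinearMap.ker (1 - θ), _, ?_, dT, fun v => ?_, mT⟩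
  · have d := (1 + θ).finrank_range_add_finrank_ker
    have : LinearMap.range (1 + θ) ≤ LinearMap.ker (1 - θ) := by
      rintro _ ⟨v, rfl⟩
      refine io_inj ?_
      nc [LinearMap.sub_apply, LinearMap.add_apply, Module.End.one_apply, hθ, h, ass h, smul_smul, map_zero, smul_add]
      match_scalars <;> field_simp <;> ring
    have := Submodule.finrank_mono this
    simp only [finrank_fintype_fun_eq_card, Fintype.card_fin] at d
    omega
  · rw [LinearMap.mem_ker, ← io_inj.eq_iff, LinearMap.sub_apply, map_sub, hθ, map_zero]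
    refine ⟨fun e => ?_, fun e => by nc [Module.End.one_apply, ass e, h, smul_smul, inv_mul_cancel₀ hc, one_smul, sub_self]⟩
    have := congrArg (· * y) e
    simp only [Module.End.one_apply, sub_mul, smul_mul_assoc, mul_assoc, h, mul_smul_comm, smul_smul, inv_mul_cancel₀ hc,
      one_smul, mul_one, zero_mul] at this
    exact (sub_eq_zero.1 this).symm

/-- Kronecker delta -/
def dl {J : Type*} [DecidableEq J] (i j : J) : F := if i = j then 1 else 0

/-- root systems of type `A` given by differences of points -/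
structure AS {J : Type*} [DecidableEq J] (ν : F) (g : J → Fin 5 → F) : Prop where
  two : (2 : F) ≠ 0
  ne : ν ≠ 0
  gram : ∀ i j k l, bf (g i - g j) (g k - g l) = ν * (dl i k - dl i l - dl j k + dl j l)

namespace AS

variable {J : Type*} [DecidableEq J] {ν : F} {g : J → Fin 5 → F} (h : AS ν g) {i j k : J}
include h

theorem nm (hij : i ≠ j) : bf (g i - g j) (g i - g j) = 2 * ν := by
  rw [h.gram]; simp [dl, hij, hij.symm]; ring

theorem sq (hij : i ≠ j) : io (g i - g j) * io (g i - g j) = ν • 1 := io_sq h.two (h.nm hij)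

theorem inj : Function.Injective g := fun i j e => by_contra fun hij => by
  simpa [e, h.two, h.ne] using (h.nm hij).symm

theorem refl (hij : i ≠ j) (k l : J) : io (g i - g j) * (io (g k - g l) * io (g i - g j)) =
    (-ν) • io (g (Equiv.swap i j k) - g (Equiv.swap i j l)) := by
  have e : ∀ k, g (Equiv.swap i j k) = g k - (dl i k - dl j k : F) • (g i - g j) := fun k => by
    by_cases h1 : k = i
    · simp [h1, dl, hij.symm]
    by_cases h2 : k = j
    · simp [h2, dl, hij]
    · simp [Equiv.swap_apply_of_ne_of_ne h1 h2, dl, Ne.symm h1, Ne.symm h2]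
  rw [io_swap (g k - g l), mul_sub, ass (h.sq hij), h.gram, e, e]
  generalize g i - g j = a
  nc []
  module

/-- the lift of a three-cycle -/
def tri (hij : i ≠ j) (hjk : j ≠ k) : G4 :=
  ⟨ν⁻¹ • (io (g i - g j) * io (g j - g k)), ν⁻¹ • (io (g j - g k) * io (g i - g j)),
    by simp only [smul_mul_assoc, mul_smul_comm, mul_assoc, ass (h.sq hjk), h.sq hij, one_mul, smul_smul]; simp [h.ne],
    by simp only [smul_mul_assoc, mul_smul_comm, mul_assoc, ass (h.sq hij), h.sq hjk, one_mul, smul_smul]; simp [h.ne]⟩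

theorem tri_sp (hij : i ≠ j) (hjk : j ≠ k) : h.tri hij hjk ∈ spGL 2 F := mem_sp (by
  simp only [tri, transpose_smul, transpose_mul, smul_mul_assoc, mul_smul_comm, mul_assoc, ass (io_adj (g i - g j)),
    ass (io_adj (g j - g k)), ass (h.sq hij), h.sq hjk, one_mul, mul_one, smul_smul]
  simp [h.ne])

theorem tri_conj (hij : i ≠ j) (hjk : j ≠ k) (a b : J) :
    (h.tri hij hjk).val * io (g a - g b) * ((h.tri hij hjk)⁻¹).val =
      io (g ((Equiv.swap i j * Equiv.swap j k) a) - g ((Equiv.swap i j * Equiv.swap j k) b)) := by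
  have := congrArg (· * io (g i - g j)) (h.refl hjk a b)
  simp only [mul_assoc, smul_mul_assoc] at this
  change ν⁻¹ • _ * _ * ν⁻¹ • _ = _
  simp only [smul_mul_assoc, mul_smul_comm, mul_assoc, this, h.refl hij, smul_smul, Equiv.Perm.mul_apply]
  simp [h.ne]

theorem tri_conj' (hij : i ≠ j) (hjk : j ≠ k) (a b : J) :
    ((h.tri hij hjk)⁻¹).val * io (g a - g b) * ((h.tri hij hjk)⁻¹⁻¹).val =
      io (g ((Equiv.swap j k * Equiv.swap i j) a) - g ((Equiv.swap j k * Equiv.swap i j) b)) := by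
  have := congrArg (· * io (g j - g k)) (h.refl hij a b)
  simp only [mul_assoc, smul_mul_assoc] at this
  change ν⁻¹ • _ * _ * ν⁻¹ • _ = _
  simp only [smul_mul_assoc, mul_smul_comm, mul_assoc, this, h.refl hjk, smul_smul, Equiv.Perm.mul_apply]
  simp [h.ne]

theorem eq_of (h3 : (3 : F) ≠ 0) {k l : J} (e : bf (g i - g j) (g k - g l) = 2 * ν) : k = i ∧ l = j := by
  have h2 := h.two
  have h4 : (2 : F) * 2 ≠ 0 := mul_ne_zero h2 h2
  rw [h.gram, mul_comm, mul_left_inj' h.ne] at e
  unfold dl at e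
  split_ifs at e <;> first
    | exact (h2 (by linear_combination -e)).elim
    | exact (one_ne_zero (α := F) (by linear_combination -e)).elim
    | exact (h3 (by linear_combination -e)).elim
    | exact (h4 (by linear_combination -e)).elim
    | exact ⟨Eq.symm ‹_›, Eq.symm ‹_›⟩

/-- a maximal subgroup preserving a root system of type `A` contains the lifts of the three-cycles -/
theorem tri_mem (h3 : (3 : F) ≠ 0) {H : Subgroup G4} (hH : IsMaximalIn (spGL 2 F) H)
    (inv : ∀ x ∈ H, ∀ a b, a ≠ b → ∃ c d, c ≠ d ∧ x.val * io (g a - g b) * (x⁻¹).val = io (g c - g d))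
    (hij : i ≠ j) (hjk : j ≠ k) : h.tri hij hjk ∈ H := by
  have st : ∀ x : G4, (∀ a b, a ≠ b → ∃ c d, c ≠ d ∧ x.val * io (g a - g b) * (x⁻¹).val = io (g c - g d)) →
      (∀ a b, a ≠ b → ∃ c d, c ≠ d ∧ (x⁻¹).val * io (g a - g b) * (x⁻¹⁻¹).val = io (g c - g d)) →
      x ∈ Cx.stab {y | ∃ a b, a ≠ b ∧ y = io (g a - g b)} := fun x k1 k2 y => by
    refine ⟨by rintro ⟨a, b, hab, rfl⟩; exact k1 a b hab, fun ⟨a, b, hab, e⟩ => ?_⟩
    obtain ⟨c, d, hcd, e'⟩ := k2 a b hab
    exact ⟨c, d, hcd, by rw [← e', ← e]; simp [mul_assoc]⟩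
  rcases hH.2 (Cx.stab {y | ∃ a b, a ≠ b ∧ y = io (g a - g b)} ⊓ spGL 2 F)
    (fun x hx => ⟨st x (inv x hx) (inv _ (H.inv_mem hx)), hH.1.le hx⟩) inf_le_right with e | e
  · exact e ▸ ⟨st _ (fun a b hab => ⟨_, _, (Equiv.injective _).ne hab, h.tri_conj hij hjk a b⟩)
      fun a b hab => ⟨_, _, (Equiv.injective _).ne hab, h.tri_conj' hij hjk a b⟩, h.tri_sp hij hjk⟩
  exfalso
  have h2 := h.two
  have key : ∀ v : Fin 2 ⊕ Fin 2 → F, vecMulVec v (Matrix.J (Fin 2) F *ᵥ v) * io (g i - g j) =
      io (g i - g j) * vecMulVec v (Matrix.J (Fin 2) F *ᵥ v) := fun v => by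
    obtain ⟨N, hN⟩ : ∃ N, N = vecMulVec v (Matrix.J (Fin 2) F *ᵥ v) := ⟨_, rfl⟩
    have n1 : N * N = 0 := by
      ext a b; simp [hN, Matrix.mul_apply, vecMulVec_apply, Fintype.sum_sum_type, H11.Sp.J_mulVec_inl, H11.Sp.J_mulVec_inr]
      ring
    have n2 : ∀ w, N * (io w * N) = 0 := fun w => by
      ext a b
      simp [hN, Matrix.mul_apply, vecMulVec_apply, Fintype.sum_sum_type, H11.Sp.J_mulVec_inl, H11.Sp.J_mulVec_inr, io_apply]
      ring
    let t : G4 := ⟨1 + N, 1 - N, by nc [n1]; abel, by nc [n1]; abel⟩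
    have ht : t ∈ spGL 2 F := H11.Sp.mem_iff_form.1 (by simpa [sympTransvection, ← hN] using H11.Sp.transv_mem v (1 : F))
    obtain ⟨c, d, -, e'⟩ := ((e.ge ht).1 _).1 ⟨i, j, hij, rfl⟩
    change (1 + N) * _ * (1 - N) = _ at e'
    have := io_tr (g i - g j) (g c - g d)
    rw [← e'] at this
    simp only [mul_add, add_mul, mul_sub, one_mul, mul_one, mul_assoc, n2, add_zero, trace_sub, trace_add,
      io_tr, h.nm hij, trace_mul_comm (io (g i - g j)) (N * _)] at this
    obtain ⟨rfl, rfl⟩ := h.eq_of h3 (k := c) (l := d) (mul_left_cancel₀ h2 (by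
      rw [← this, trace_mul_comm N, mul_assoc]; ring))
    have := congrArg (· * (1 + N)) e'
    simp only [mul_assoc, show (1 - N) * (1 + N) = 1 from t.inv_mul, mul_one] at this
    rw [← hN]
    simpa only [add_mul, mul_add, one_mul, mul_one, add_right_inj] using this
  have nm := h.nm hij
  generalize g i - g j = a at *
  have e := fun v p q => congrFun (congrFun (key v) p) q
  have a1 := e (Pi.single (.inl 1) 1) (.inl 0) (.inr 1)
  have a2 := e (Pi.single (.inl 0) 1) (.inl 1) (.inr 0)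
  have a3 := e (Pi.single (.inr 1) 1) (.inl 0) (.inl 1)
  have a4 := e (Pi.single (.inl 1) 1) (.inr 0) (.inr 1)
  have a0 := e (Pi.single (.inl 0) 1 + Pi.single (.inl 1) 1) (.inl 0) (.inr 1)
  simp [Matrix.mul_apply, vecMulVec_apply, Fintype.sum_sum_type, H11.Sp.J_mulVec_inl, H11.Sp.J_mulVec_inr, io_apply]
    at a0 a1 a2 a3 a4
  simp [Matrix.J] at a1 a2 a3 a4
  have : a 0 = 0 := (mul_eq_zero.1 (show 2 * a 0 = 0 by linear_combination a2 - a1 - a0)).resolve_left h2
  simp [bf_apply, this, a1, a2, a3, a4, h2, h.ne] at nm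

end AS

/-- traces of even products of vectors with rational inner products -/
theorem trace_prod_mem (h2 : (2 : F) ≠ 0) (k : Subfield F) {ν : F} {A : Set (Fin 5 → F)}
    (hA : ∀ a ∈ A, ∀ b ∈ A, ν * bf a b ∈ k) (m : ℕ) (l : List (Fin 5 → F)) (hl : ∀ a ∈ l, a ∈ A) (hm : l.length = 2 * m) :
    ν ^ m * (l.map io).prod.trace ∈ k := by
  induction m generalizing l with
  | zero => simp [List.length_eq_zero_iff.1 hm]
  | succ m ih =>
    obtain ⟨v, l, rfl⟩ := List.exists_cons_of_length_eq_add_one (n := 2 * m + 1) hm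
    have hv := hl v (by simp)
    have key : ∀ (l : List (Fin 5 → F)), (∀ a ∈ l, a ∈ A) → ∀ p : List (Fin 5 → F), (∀ a ∈ p, a ∈ A) →
        p.length + l.length = 2 * m + 1 → ν ^ (m + 1) * ((p.map io).prod * (io v * (l.map io).prod -
          (-1 : F) ^ l.length • ((l.map io).prod * io v))).trace ∈ k := fun l => by
      induction l with
      | nil => simp
      | cons w l ih' =>
        intro h1 p h2 h3
        have e : (p.map io).prod * (io v * ((w :: l).map io).prod - (-1 : F) ^ (w :: l).length • (((w :: l).map io).prod * io v)) =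
            bf w v • ((p ++ l).map io).prod - ((p ++ [w]).map io).prod * (io v * (l.map io).prod -
              (-1 : F) ^ l.length • ((l.map io).prod * io v)) := by
          simp only [List.map_cons, List.prod_cons, List.map_append, List.prod_append, List.map_nil, List.prod_nil,
            List.length_cons, pow_succ]
          nc [ass (io_swap v w)]
          module
        rw [e, trace_sub, mul_sub, trace_smul, smul_eq_mul, pow_succ', mul_mul_mul_comm, ← pow_succ']
        refine k.sub_mem (k.mul_mem (hA _ (h1 w (by simp)) _ hv) (ih _ (fun a ha => ?_) (by simp at h3 ⊢; omega)))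
          (ih' (fun a ha => h1 a (by simp [ha])) _ (fun a ha => ?_) (by simp at h3 ⊢; omega))
        · exact (List.mem_append.1 ha).elim (h2 a) fun ha => h1 a (by simp [ha])
        · exact (List.mem_append.1 ha).elim (h2 a) fun ha => h1 a (by simp_all)
    have hl' : l.length = 2 * m + 1 := by simp at hm; omega
    have := key l (fun a ha => hl a (by simp [ha])) [] (by simp) (by simpa using hl')
    rw [hl', Odd.neg_one_pow ⟨m, rfl⟩] at this
    simp only [List.map_nil, List.prod_nil, one_mul, neg_smul, one_smul, sub_neg_eq_add, trace_add,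
      trace_mul_comm _ (io v)] at this
    convert k.div_mem this (ofNat_mem k 2) using 1
    simp only [List.map_cons, List.prod_cons]; field_simp; ring

theorem exists_ker {J : Type*} [Finite J] (N : J → M4) (h : ∀ i j, N i * N j = -(N j * N i)) (h0 : ∀ i, N i * N i = 0) :
    ∃ v, v ≠ 0 ∧ ∀ i, N i *ᵥ v = 0 := by
  have : ∀ s : Finset J, ∃ v, v ≠ 0 ∧ ∀ i ∈ s, N i *ᵥ v = 0 := fun s => by
    classical
    induction s using Finset.induction_on with
    | empty => exact ⟨1, one_ne_zero, by simp⟩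
    | insert j s _ ih =>
      obtain ⟨v, v0, hv⟩ := ih
      by_cases e : N j *ᵥ v = 0
      · exact ⟨v, v0, by simpa [e] using hv⟩
      · refine ⟨_, e, fun i hi => ?_⟩
        rcases Finset.mem_insert.1 hi with rfl | hi
        · rw [mulVec_mulVec, h0, zero_mulVec]
        · rw [mulVec_mulVec, h, neg_mulVec, ← mulVec_mulVec, hv i hi, mulVec_zero, neg_zero]
  have _ := Fintype.ofFinite J
  simpa using this Finset.univ

section six

variable {G : Type*} [Group G]

/-- `g` permutes the cosets `r i • B` according to `σ` -/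
def Tr (B : Subgroup G) (r : Fin 6 → G) (g : G) (σ : Equiv.Perm (Fin 6)) : Prop := ∀ i, (r (σ i))⁻¹ * g * r i ∈ B

theorem Tr.mul {B : Subgroup G} {r : Fin 6 → G} {g g' : G} {σ σ' : Equiv.Perm (Fin 6)} (h : Tr B r g σ) (h' : Tr B r g' σ') :
    Tr B r (g * g') (σ * σ') := fun i => by
  simpa [mul_assoc] using B.mul_mem (h (σ' i)) (h' i)

theorem Tr.one (B : Subgroup G) (r : Fin 6 → G) : Tr B r 1 1 := fun i => by simp

theorem Tr.inv {B : Subgroup G} {r : Fin 6 → G} {g : G} {σ : Equiv.Perm (Fin 6)} (h : Tr B r g σ) : Tr B r g⁻¹ σ⁻¹ :=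
  fun i => by simpa [mul_assoc] using B.inv_mem (h (σ⁻¹ i))

/-- a doubly transitive action on six cosets, together with an orthogonal module without fixed or isotropic parts -/
structure Sx (ψ : G →* Module.End F (Fin 5 → F)) (B : Subgroup G) (r : Fin 6 → G) : Prop where
  two : (2 : F) ≠ 0
  inv : ∀ g v w, bf (ψ g v) (ψ g w) = bf v w
  nofix : ∀ v, (∀ g, ψ g v = v) → v = 0
  noiso : ∀ c : Fin 6 × Fin 6 → Fin 5 → F, (∀ i j, bf (c i) (c j) = 0) → (∀ g i, ∃ j, ψ g (c i) = c j) → ∀ i, c i = 0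
  all : ∀ g, ∃ σ, Tr B r g σ
  dbl : ∀ i j, i ≠ j → ∃ g σ, Tr B r g σ ∧ σ 0 = i ∧ σ 1 = j
  r0 : r 0 = 1

variable {ψ : G →* Module.End F (Fin 5 → F)} {B : Subgroup G} {r : Fin 6 → G} {v w : Fin 5 → F}

theorem Tr.act {g : G} {σ : Equiv.Perm (Fin 6)} (h : Tr B r g σ) (hv : ∀ b ∈ B, ψ b v = v) (i : Fin 6) :
    ψ g (ψ (r i) v) = ψ (r (σ i)) v := by
  nth_rewrite 2 [← hv _ (h i)]
  simp only [← Module.End.mul_apply, ← map_mul, mul_assoc, mul_inv_cancel_left]

namespace Sx

variable (h : Sx ψ B r)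
include h

theorem gram (hv : ∀ b ∈ B, ψ b v = v) (hw : ∀ b ∈ B, ψ b w = w) : ∃ β : F, ∀ i j,
    bf (ψ (r i) v) (ψ (r j) w) = β - 6 * β * dl i j := by
  have h1 : ∀ i j, i ≠ j → bf (ψ (r i) v) (ψ (r j) w) = bf (ψ (r 0) v) (ψ (r 1) w) := fun i j hij => by
    obtain ⟨g, σ, k, rfl, rfl⟩ := h.dbl i j hij
    rw [← k.act hv, ← k.act hw, h.inv]
  have h2 : ∑ j, ψ (r j) w = 0 := h.nofix _ fun g => by
    obtain ⟨σ, k⟩ := h.all g
    simp only [map_sum, k.act hw]
    exact Equiv.sum_comp σ fun j => ψ (r j) w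
  have h3 := congrArg (bf (ψ (r 0) v)) h2
  simp only [map_add, Fin.sum_univ_six, map_zero, h.inv, h1 0 2 (by decide), h1 0 3 (by decide), h1 0 4 (by decide),
    h1 0 5 (by decide)] at h3
  refine ⟨bf (ψ (r 0) v) (ψ (r 1) w), fun i j => ?_⟩
  by_cases e : i = j
  · rw [e, h.inv, dl, if_pos rfl]; linear_combination h3
  · rw [h1 i j e, dl, if_neg e]; ring

theorem main (hv : ∀ b ∈ B, ψ b v = v) (v0 : v ≠ 0) : ∃ β : F, (3 : F) ≠ 0 ∧ AS (-6 * β) (fun i => ψ (r i) v) ∧
    (∀ i j, bf (ψ (r i) v) (ψ (r j) v) = β - 6 * β * dl i j) ∧ (∀ u, ∃ c : Fin 6 → F, u = ∑ i, c i • (ψ (r i) v - ψ (r 0) v)) ∧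
      ∀ w, (∀ b ∈ B, ψ b w = w) → ∃ c : F, w = c • v := by
  obtain ⟨β, hβ⟩ := h.gram hv hv
  have h2 := h.two
  have gr : ∀ i j k l, bf (ψ (r i) v - ψ (r j) v) (ψ (r k) v - ψ (r l) v) = -6 * β * (dl i k - dl i l - dl j k + dl j l) :=
    fun i j k l => by simp only [map_sub, LinearMap.sub_apply, hβ]; ring
  have ν0 : -6 * β ≠ 0 := fun e => by
    have := h.noiso (fun p => ψ (r p.1) v - ψ (r p.2) v) (fun i j => by rw [gr, e, zero_mul]) fun g i => by
      obtain ⟨σ, k⟩ := h.all g
      exact ⟨(σ i.1, σ i.2), by rw [map_sub, k.act hv, k.act hv]⟩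
    refine v0 (h.nofix v fun g => ?_)
    obtain ⟨σ, k⟩ := h.all g
    have e1 := k.act hv 0
    rwa [sub_eq_zero.1 (this (σ 0, 0)), h.r0, map_one, Module.End.one_apply] at e1
  have h3 : (3 : F) ≠ 0 := fun e => ν0 (by linear_combination -2 * β * e)
  let L : (Fin 5 → F) →ₗ[F] Fin 5 → F := Fintype.linearCombination F fun i => ψ (r i.succ) v - ψ (r 0) v
  have hL : Function.Injective L := (injective_iff_map_eq_zero L).2 fun c hc => by
    have e := fun j : Fin 5 => congrArg (bf (ψ (r j.succ) v - ψ (r 0) v)) hc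
    simp only [L, Fintype.linearCombination_apply, map_sum, map_smul, gr, map_zero, smul_eq_mul] at e
    have e0 := e 0
    have e1 := e 1
    have e2 := e 2
    have e3 := e 3
    have e4 := e 4
    simp [Fin.sum_univ_five, dl] at e0 e1 e2 e3 e4
    have can : ∀ x : F, -6 * β * (2 * 3) * x = 0 → x = 0 := fun x e =>
      (mul_eq_zero.1 e).resolve_left (mul_ne_zero ν0 (mul_ne_zero h2 h3))
    have c0 := can (c 0) (by linear_combination 5 * e0 - e1 - e2 - e3 - e4)
    have c1 := can (c 1) (by linear_combination 5 * e1 - e0 - e2 - e3 - e4)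
    have c2 := can (c 2) (by linear_combination 5 * e2 - e1 - e0 - e3 - e4)
    have c3 := can (c 3) (by linear_combination 5 * e3 - e1 - e2 - e0 - e4)
    have c4 := can (c 4) (by linear_combination 5 * e4 - e1 - e2 - e3 - e0)
    ext i
    fin_cases i <;> assumption
  have sp : ∀ u, ∃ c : Fin 6 → F, u = ∑ i, c i • (ψ (r i) v - ψ (r 0) v) := fun u => by
    obtain ⟨c, rfl⟩ := LinearMap.surjective_of_injective hL u
    exact ⟨Fin.cons 0 c, by simp [L, Fintype.linearCombination_apply, Fin.sum_univ_succ (n := 5)]⟩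
  refine ⟨β, h3, ⟨h2, ν0, gr⟩, hβ, sp, fun w hw => ?_⟩
  obtain ⟨γ, hγ⟩ := h.gram hv hw
  have β0 : β ≠ 0 := right_ne_zero_of_mul ν0
  refine ⟨γ / β, sub_eq_zero.1 (bf_nd h2 _ fun u => ?_)⟩
  obtain ⟨c, rfl⟩ := sp u
  have : ∀ i, bf (ψ (r i) v) (w - (γ / β) • v) = 0 := fun i => by
    have e1 := hγ i 0
    have e2 := hβ i 0
    rw [h.r0, map_one, Module.End.one_apply] at e1 e2
    rw [map_sub, map_smul, e1, e2, smul_eq_mul]; field_simp; ring
  rw [bf_symm]
  simp only [map_sum, map_smul, LinearMap.sum_apply, LinearMap.smul_apply, LinearMap.map_sub₂, this]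
  simp

end Sx

end six

end H97s.Mt
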